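import Cfsg.Agent.D4.Lift
import Cfsg.Agent.H10.P3Alt
import Cfsg.Agent.S2116

/-!
The group `A₇`.
-/

set_option autoImplicit false

open Matrix
open scoped MatrixGroups

namespace Cfsg.Agent.D4

/-- The kinds of elements of `A₇`. -/
def A7C {G : Type*} [Group G] (x w y : G) : Prop :=
  (x ^ 7 = 1 ∧ x ≠ 1 ∧ y * x = x ^ 2 * y) ∨ (w * w = 1 ∧ w ≠ 1 ∧ w * x * (w * x) = 1 ∧ w * x ≠ 1 ∧
    (((x ^ 3 = 1 ∨ x ^ 5 = 1) ∧ y * x = x ^ 2 * y) ∨ (x * x = 1 ∧ x ≠ 1) ∨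
    (x ^ 4 = 1 ∧ x ^ 2 ≠ 1 ∧ y * x ^ 2 = x ^ 2 * y ∧ y * x ≠ x * y ∧ y * y * x ≠ x * (y * y)) ∨
    (x ^ 6 = 1 ∧ x ^ 3 ≠ 1 ∧ x ^ 2 ≠ 1 ∧ y * y = 1 ∧ y * x = x * y ∧ y ≠ 1 ∧ y * x ^ 3 ≠ 1)))

theorem A7C.map {G G' : Type*} [Group G] [Group G'] (φ : G ≃* G') {x y y' : G} (h : A7C x y y') :
    A7C (φ x) (φ y) (φ y') := by
  simpa only [A7C, ← map_mul, ← map_pow, φ.injective.eq_iff, ne_eq, φ.map_eq_one_iff] using h

set_option synthInstance.maxSize 2000 in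
open H10.P3 H56 H56.Alt in
theorem a7_cls (x : alternatingGroup (Fin 7)) : ∃ w y, A7C x w y := by
  obtain ⟨c, hc, r, h1, h2, -⟩ := exists_cls a7_classes x
  obtain ⟨k, rfl⟩ := isConj_iff.1 h2
  have s : ∀ x w y : alternatingGroup (Fin 7), a7E.pk x = c.X → A7C x w y → ∃ w y, A7C (k * r * k⁻¹) w y :=
    fun x w y e h => by
      obtain rfl : r = x := Subtype.ext (a7E.pk_injective (h1.trans e.symm))
      exact ⟨_, _, h.map (MulAut.conj k)⟩
  simp only [a7Cl, List.mem_cons, List.not_mem_nil, or_false] at hc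
  rcases hc with rfl | rfl | rfl | rfl | rfl | rfl | rfl | rfl | rfl
  on_goal 1 => refine s 1 (al [[0, 1], [2, 3]]) 1 (by decide +kernel) ?_
  on_goal 2 => refine s (al [[0, 1], [2, 3]]) (al [[0, 2], [1, 3]]) 1 (by decide +kernel) ?_
  on_goal 3 => refine s (al [[0, 1, 2]]) (al [[0, 1], [5, 6]]) (al [[0, 1], [5, 6]]) (by decide +kernel) ?_
  on_goal 4 => refine s (al [[1, 2, 3], [4, 5, 6]]) (al [[2, 3], [4, 5]]) (al [[2, 3], [4, 5]]) (by decide +kernel) ?_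
  on_goal 5 => refine s (al [[0, 1, 2, 3], [5, 6]]) (al [[0, 1], [2, 3]]) (al [[4, 5, 6]]) (by decide +kernel) ?_
  on_goal 6 => refine s (al [[0, 1, 2, 3, 4]]) (al [[0, 3], [1, 2]]) (al [[1, 2, 4, 3], [5, 6]]) (by decide +kernel) ?_
  on_goal 7 => refine s (al [[0, 1], [2, 3, 4], [5, 6]]) (al [[3, 4], [5, 6]]) (al [[0, 5], [1, 6]]) (by decide +kernel) ?_
  on_goal 8 => refine s (al [[0, 1, 2, 3, 4, 6, 5]]) 1 (al [[1, 2, 4], [3, 5, 6]]) (by decide +kernel) ?_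
  on_goal 9 => refine s (al [[0, 1, 2, 3, 4, 5, 6]]) 1 (al [[1, 2, 4], [3, 6, 5]]) (by decide +kernel) ?_
  all_goals
    unfold A7C
    decide +kernel

open H56 H56.Alt in
theorem a7_one (a b : alternatingGroup (Fin 7)) : orderOf a = 2 → orderOf b = 2 → IsConj a b :=
  isConj_of_order a7_classes (fuel := 8) (X := a7_2a.X) (by decide +kernel) a b

theorem a7_pow {G : Type*} [Group G] {x y : G} (c : y * x = x ^ 2 * y) {n a : ℕ} (hx : x ^ n = 1) (j m : ℕ)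
    (e : a % n = 2 ^ j * m % n) : IsConj (x ^ a) (x ^ m) := by
  have : ∀ j, IsConj x (x ^ 2 ^ j) := fun j => by
    induction j with
    | zero => rw [pow_zero, pow_one]
    | succ j ih =>
      rw [pow_succ', pow_mul]
      exact ih.trans ((isConj_iff.2 ⟨y, mul_inv_eq_iff_eq_mul.2 c⟩).pow _)
  rw [pow_eq_pow_mod a hx, e, ← pow_eq_pow_mod _ hx, pow_mul]
  exact ((this j).pow m).symm

variable {K : Type*} [Field K] {Γ X : Type*} [Group Γ] [Group X] {ρ : Γ →* M4 K} {π : Γ →* X}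

theorem Hyp.a7_zero (h : Hyp ρ π) {z s y : Γ} (hz : π z = 1) (z1 : z ≠ 1) (e : y * s * y⁻¹ = z * s) :
    (ρ s).trace = 0 := by
  obtain ⟨c, hc⟩ := (h.ker z).1 hz
  have := trace_conj ρ s y
  rw [e, map_mul, hc, smul_mul_assoc, one_mul, trace_smul, smul_eq_mul] at this
  by_contra t
  exact z1 (h.inj (by rw [hc, mul_eq_right₀ t |>.1 this, one_smul, map_one]))

theorem Hyp.a7_odd (h : Hyp ρ π) {p n : ℕ} (zp : ∀ z, π z = 1 → z ^ p = z) (hn : Nat.Coprime n 4) {s s' : Γ}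
    (hs : π s ^ n = 1) (e : s' ^ n = s ^ n) (c : IsConj (π s ^ p) (π s')) : (ρ (s ^ p)).trace = (ρ s').trace := by
  obtain ⟨k, c⟩ := isConj_iff.1 c
  obtain ⟨k, rfl⟩ := h.surj k
  obtain ⟨z, hz, ez⟩ := h.exists_ker_of_eq (a := k * s ^ p * k⁻¹) (b := s') (by simpa using c)
  have := congrArg (· ^ n) ez
  rw [← map_pow] at hs
  simp only [conj_pow, (show Commute z s' from h.ker_comm hz s').mul_pow] at this
  rw [← pow_mul, mul_comm p, pow_mul, zp _ hs, ← h.ker_comm hs, mul_inv_cancel_right, e, right_eq_mul] at this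
  rw [← trace_conj ρ _ k, ez, h.ker_eq_one hz hn this, one_mul]

theorem Hyp.a7_sq (h : Hyp ρ π) (k2 : ∀ z, π z = 1 → z * z = 1) {a b : Γ} (ha : π a * π a = 1)
    (c : IsConj (π a) (π b)) : b * b = a * a := by
  obtain ⟨k, c⟩ := isConj_iff.1 c
  obtain ⟨k, rfl⟩ := h.surj k
  obtain ⟨z, hz, rfl⟩ := h.exists_ker_of_eq (a := b) (b := k * a * k⁻¹) (by simpa using c.symm)
  rw [← map_mul] at ha
  rw [(show Commute (k * a * k⁻¹) z from (h.ker_comm hz _).symm).mul_mul_mul_comm, k2 z hz, one_mul, conj_mul,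
    ← h.ker_comm ha, mul_inv_cancel_right]

variable [IsAlgClosed K] [Finite Γ]
variable (p : ℕ) [Fact p.Prime] [CharP K p]

theorem Hyp.a7_main (h : Hyp ρ π) (n : NoRf ρ) (e : X ≃* alternatingGroup (Fin 7)) {s : Γ} (hs : ¬ p ∣ orderOf s) :
    ((ρ s).trace ^ p = (ρ s).trace ∧ (ρ s⁻¹).trace = (ρ s).trace) ∨ (p ≠ 7 ∧
      (p % 7 = 1 ∨ p % 7 = 2 ∨ p % 7 = 4 → (ρ s).trace ^ p = (ρ s).trace) ∧
      (p % 7 = 3 ∨ p % 7 = 5 ∨ p % 7 = 6 → (ρ s).trace ^ p = (ρ s⁻¹).trace)) := by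
  have pp : p.Prime := Fact.out
  have k2 : ∀ z, π z = 1 → z * z = 1 := fun z => h.ker_two e (S2116.result 7 (.inr rfl)) (n := 3) (by decide) (by decide)
  have one : ∀ a b : X, orderOf a = 2 → orderOf b = 2 → IsConj a b := fun a b ha hb =>
    H56.isConj_of_equiv e (a7_one _ _ (by rwa [e.orderOf_eq]) (by rwa [e.orderOf_eq]))
  have zp : ∀ z, π z = 1 → z ^ p = z := fun z hz => by
    rcases pp.eq_two_or_odd' with rfl | ⟨j, rfl⟩
    · obtain ⟨c, hc⟩ := (h.ker z).1 hz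
      have : c = 1 := rt8_two (CharP.cast_eq_zero K 2) (by rw [show 8 = 4 * 2 from rfl, pow_mul, h.fourth hc, one_pow])
      rw [show z = 1 from h.inj (by rw [hc, this, one_smul, map_one]), one_pow]
    · rw [pow_succ, pow_mul, sq, k2 z hz, one_pow, one_mul]
  have np : ∀ q, q.Prime → q ∣ orderOf (π s) → p % q ≠ 0 := fun q hq d c => hs (by
    rw [← (Nat.prime_dvd_prime_iff_eq hq pp).1 (Nat.dvd_of_mod_eq_zero c)]; exact d.trans (orderOf_map_dvd π s))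
  have np' : ∀ q m, q.Prime → (π s ^ m) ^ q = 1 → π s ^ m ≠ 1 → p % q ≠ 0 := fun q m hq c c1 => by
    have := Fact.mk hq
    exact np q hq ((orderOf_eq_prime c c1).symm.dvd.trans (orderOf_pow_dvd m))
  have two : p % 2 ≠ 0 → (2 : K) ≠ 0 := fun c c2 => c (by
    rw [(Nat.prime_dvd_prime_iff_eq pp Nat.prime_two).1 ((CharP.cast_eq_zero_iff K p 2).1 (by exact_mod_cast c2))])
  have o2 : ∀ {x : X}, x * x = 1 → x ≠ 1 → orderOf x = 2 := fun c c1 => orderOf_eq_prime (by rwa [sq]) c1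
  obtain ⟨w, y, c⟩ := a7_cls (e (π s))
  replace c := c.map e.symm
  rw [MulEquiv.symm_apply_apply] at c
  obtain ⟨y, ey⟩ := h.surj (e.symm y)
  rw [← ey] at c
  rw [trace_pow_p]
  rcases c with ⟨c, c1, c2⟩ | ⟨w1, w2, w3, w4, c⟩
  · have p7 := np' 7 1 (by norm_num) (by simpa using c) (by simpa using c1)
    refine Or.inr ⟨by omega, fun q => h.a7_odd zp (by norm_num) c rfl ?_, fun q => h.a7_odd zp (by norm_num) c
      (by rw [inv_pow, inv_eq_of_mul_eq_one_right (k2 _ (by rw [map_pow, c]))]) ?_⟩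
    · rw [← pow_one (π s), ← pow_mul, one_mul]
      rcases q with q | q | q
      exacts [a7_pow c2 c 0 1 q, a7_pow c2 c 1 1 q, a7_pow c2 c 2 1 q]
    · rw [map_inv, inv_eq_of_mul_eq_one_left (a := π s ^ 6) (by rw [← pow_succ, c])]
      rcases q with q | q | q
      exacts [a7_pow c2 c 2 6 q, a7_pow c2 c 1 6 q, a7_pow c2 c 0 6 q]
  have re : (ρ s⁻¹).trace = (ρ s).trace := by
    obtain ⟨k, e⟩ := isConj_iff.1 (h.real_lift k2 one (o2 w1 w2) (o2 w3 w4))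
    rw [← e, trace_conj]
  have zero : (ρ s).trace = 0 → (ρ (s ^ p)).trace = (ρ s).trace := fun t => by
    rw [← trace_pow_p, t, zero_pow pp.ne_zero]
  have pm : ∀ m, s ^ (m + 1) = 1 → p % (m + 1) = 1 ∨ p % (m + 1) = m → (ρ (s ^ p)).trace = (ρ s).trace :=
    fun m c q => by
      rw [pow_eq_pow_mod p c]
      rcases q with q | q <;> rw [q]
      · rw [pow_one]
      · rw [← re, inv_eq_of_mul_eq_one_left (a := s ^ m) (by rw [← pow_succ, c])]
  refine Or.inl ⟨?_, re⟩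
  rcases c with ⟨c, c2⟩ | ⟨c, c1⟩ | ⟨c, c1, c2, c3, c4⟩ | ⟨c, c1, c2, c3, c4, c5, c6⟩
  · by_cases s1 : π s = 1
    · rw [zp s s1]
    have e1 : ∀ {n j}, π s ^ n = 1 → p % n = 2 ^ j * 1 % n → IsConj (π s ^ p) (π s) := fun c q => by
      simpa using a7_pow c2 c _ 1 q
    rcases c with c | c <;> refine h.a7_odd zp (by norm_num) c rfl ?_
    · have := np' 3 1 (by norm_num) (by simpa using c) (by simpa using s1)
      rcases (by omega : p % 3 = 1 ∨ p % 3 = 2) with q | q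
      exacts [e1 (j := 0) c q, e1 (j := 1) c q]
    · have := np' 5 1 (by norm_num) (by simpa using c) (by simpa using s1)
      rcases (by omega : p % 5 = 1 ∨ p % 5 = 2 ∨ p % 5 = 3 ∨ p % 5 = 4) with q | q | q | q
      exacts [e1 (j := 0) c q, e1 (j := 1) c q, e1 (j := 3) c q, e1 (j := 2) c q]
  · exact zero (h.inv_tr n (two (np' 2 1 Nat.prime_two (by rwa [pow_one, sq]) (by simpa using c1)))
      (by rw [map_mul, c]) c1)
  · have p2 := np' 2 2 Nat.prime_two (by rwa [← pow_mul]) c1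
    rcases h.ord4 n (two p2) (orderOf_eq_prime_pow (p := 2) (n := 1) c1 c) with t | t | t
    · exact zero t
    · exact pm 3 t.1 (by omega)
    · exact absurd (t _ _ c2 c2) (not_or.2 ⟨c3, not_or.2 ⟨c3, c4⟩⟩)
  · have p2 := np' 2 3 Nat.prime_two (by rwa [← pow_mul]) c1
    have p3 := np' 3 2 Nat.prime_three (by rwa [← pow_mul]) c2
    by_cases s6 : s ^ 6 = 1
    · exact pm 5 s6 (by omega)
    obtain ⟨z, hz, ez⟩ := h.exists_ker_of_eq (a := y * s * y⁻¹) (b := s) (by simp [c4])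
    refine zero (h.a7_zero hz (fun z1 => s6 ?_) ez)
    rw [z1, one_mul] at ez
    have cy : Commute y (s ^ 3) := (show Commute y s from mul_inv_eq_iff_eq_mul.1 ez).pow_right 3
    have c33 : π (s ^ 3) * π (s ^ 3) = 1 := by rw [map_pow, ← pow_add, c]
    rw [← map_pow] at c1 c6
    have e1 := h.a7_sq k2 c33 (one _ _ (o2 c33 c1) (o2 c3 c5))
    have e2 := h.a7_sq k2 c33 (b := y * s ^ 3) (one _ _ (o2 c33 c1) (o2 (by
      rw [map_mul, (cy.map π).symm.mul_mul_mul_comm, c3, c33, one_mul]) (by rwa [map_mul])))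
    rwa [cy.symm.mul_mul_mul_comm, e1, mul_eq_left, ← pow_add] at e2

theorem Hyp.a7 (h : Hyp ρ π) (n : NoRf ρ) (e : IsAlt X 7) : Real ρ ∨ Fr7 ρ p := by
  obtain ⟨e⟩ := e
  have m : ∀ g, ((ρ g).trace ^ p = (ρ g).trace ∧ (ρ g⁻¹).trace = (ρ g).trace) ∨ (p ≠ 7 ∧
      (p % 7 = 1 ∨ p % 7 = 2 ∨ p % 7 = 4 → (ρ g).trace ^ p = (ρ g).trace) ∧
      (p % 7 = 3 ∨ p % 7 = 5 ∨ p % 7 = 6 → (ρ g).trace ^ p = (ρ g⁻¹).trace)) := fun g => by
    obtain ⟨k, e1, e2, hk⟩ := trace_part (ρ := ρ) p g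
    rw [← e1, ← e2]
    exact h.a7_main p n e hk
  by_cases p7 : p = 7
  · exact Or.inl fun g => ((m g).resolve_right fun c => c.1 p7).2
  have : p % 7 ≠ 0 := fun c => p7 ((Nat.prime_dvd_prime_iff_eq (by norm_num) Fact.out).1 (Nat.dvd_of_mod_eq_zero c)).symm
  rcases (by omega : (p % 7 = 1 ∨ p % 7 = 2 ∨ p % 7 = 4) ∨ (p % 7 = 3 ∨ p % 7 = 5 ∨ p % 7 = 6)) with q | q
  · exact Or.inr (Or.inl ⟨q, fun g => (m g).elim (·.1) (·.2.1 q)⟩)
  · exact Or.inr (Or.inr ⟨q, fun g => (m g).elim (fun c => c.1.trans c.2.symm) (·.2.2 q)⟩)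

end Cfsg.Agent.D4
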