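import Cfsg.Agent.D4.Calc
import Cfsg.Agent.H10.P3Basic

/-!
Blocks of reflection groups: definitions, duality and change of basis.
-/

set_option autoImplicit false

open Matrix

namespace Cfsg.Agent.D4

open H10.P3 (M3 V3)

variable {K : Type*} [Field K] {Γ Λ : Type*} [Group Γ] [Group Λ] {ρ : Γ →* M4 K}

/-- The part of `v` outside the span of the frame; `rs x e f` is the same for a covector. -/
def rs {k : ℕ} (e x : Fin k → V4 K) (v : V4 K) : V4 K := v - ∑ i, (x i ⬝ᵥ v) • e i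

/-- A block spanned by a non-degenerate non-symmetric triangle. -/
structure GB (ρ : Γ →* M4 K) (e x : Fin 3 → V4 K) : Prop where
  du : Du e x
  tri : ∃ v f : Fin 3 → V4 K, (∀ i, D ρ (v i) (f i) ∧ Inn e x (v i) (f i)) ∧
    NS (v 0) (f 0) (v 1) (f 1) (v 2) (f 2) ∧ (of fun i j => f i ⬝ᵥ v j).det ≠ 0

/-- The group contains a scalar of order six on the block. -/
def CA (ρ : Γ →* M4 K) (e x : Fin 3 → V4 K) : Prop := (2 : K) ≠ 0 ∧ (3 : K) ≠ 0 ∧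
  ∃ ζ : K, ζ ^ 2 - ζ + 1 = 0 ∧ In ρ (1 + (ζ - 1) • ∑ i, vecMulVec (e i) (x i))

/-- Products of two reflections of the block have order at most four. -/
def L7B (ρ : Γ →* M4 K) (e x : Fin 3 → V4 K) : Prop := ∀ v f w g, D ρ v f → Inn e x v f →
  D ρ w g → Inn e x w g → lam v f w g = 0 ∨ lam v f w g = 1 ∨ lam v f w g = 2 ∨
    vecMulVec v f = vecMulVec w g

/-- Only the pattern `(1, 1/2)` occurs on planes. -/
def NoP (ρ : Γ →* M4 K) : Prop := ∀ e x v f, Pl ρ e x → D ρ v f → NSP e x v f →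
  pp e x v f 0 ≠ pp e x v f 1

/-- The types of reflections with respect to a frame `G(3, 3, 3)`. -/
def Ty3 (ρ : Γ →* M4 K) (e x : Fin 3 → V4 K) (v f : V4 K) : Prop :=
  (∀ i, Zr e x v f i) ∨ (∃ i, pp e x v f i = 1 ∧ ∀ j, j ≠ i → Zr e x v f j) ∨
  (∃ i j l, i ≠ j ∧ l ≠ i ∧ l ≠ j ∧ Zr e x v f l ∧ pp e x v f i = 1 ∧ pp e x v f j = 1 ∧
    (x j ⬝ᵥ v) ^ 3 = -(x i ⬝ᵥ v) ^ 3 ∧ ((rs e x v = 0 ∧ rs x e f = 0) ∨
      ((2 : K) = 0 ∧ D ρ (rs e x v) (rs x e f)))) ∨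
  ((∀ i, 3 * pp e x v f i = 1) ∧ ∀ i j, (x i ⬝ᵥ v) ^ 3 = (x j ⬝ᵥ v) ^ 3)

/-- The types of reflections with respect to a frame `G(4, 4, 3)`. -/
def Ty4 (e x : Fin 3 → V4 K) (v f : V4 K) : Prop :=
  (∀ i, Zr e x v f i) ∨ (∃ i, pp e x v f i = 1 ∧ ∀ j, j ≠ i → Zr e x v f j) ∨
  Mon e x v f ∨ (∀ i, 2 * pp e x v f i = 1) ∨
  ((3 : K) = 0 ∧ ∀ i, pp e x v f i = 1 ∨ pp e x v f i = 2)

theorem Tame.cnj (t : Tame ρ) (B : (M4 K)ˣ) : Tame (cnj ρ B) where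
  zero a b e := by
    have := t.zero ((D.cnj_iff B).1 a) ((D.cnj_iff B).1 b)
    have k := fun φ v => dot_cnj B⁻¹ φ v
    simp only [inv_inv] at k
    rw [k, k] at this
    exact this e
  ctr a b := vecMul_units_inj B⁻¹ (t.ctr ((D.cnj_iff B).1 a) ((D.cnj_iff B).1 b))
  axs a b := units_mulVec_inj B (t.axs ((D.cnj_iff B).1 a) ((D.cnj_iff B).1 b))
  notv h2 v φ h := t.notv h2 (B.val *ᵥ v) (φ ᵥ* B⁻¹.val) ⟨by simpa [cnj_cnj_inv] using h.1.cnj B⁻¹,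
    fun e => h.2.1 (units_mulVec_inj B (by simpa using e)),
    fun e => h.2.2 (vecMul_units_inj B⁻¹ (by simpa using e))⟩

theorem RH.cnj (r : RH ρ) (B : (M4 K)ˣ) : RH (cnj ρ B) where
  toTame := r.toTame.cnj B
  lf := r.lf
  irr W hW := by
    rcases r.irr (W.comap (toLin' B⁻¹.val)) (fun v f a y hy e =>
      hW _ _ (a.cnj B) _ hy (by rwa [toLin'_apply, dot_cnj])) with e | e
    · refine Or.inl (eq_bot_iff.2 fun y hy => units_mulVec_inj B ?_)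
      have : B.val *ᵥ y ∈ W.comap (toLin' B⁻¹.val) := by simpa using hy
      rw [e] at this
      simpa using this
    · refine Or.inr (eq_top_iff.2 fun y _ => ?_)
      simpa using (e ▸ Submodule.mem_top : B.val *ᵥ y ∈ W.comap (toLin' B⁻¹.val))
  simp N hN := fun ⟨g, hg, h1⟩ k => by
    obtain ⟨n, hn, c, e⟩ := r.simp N hN ⟨g, hg, fun c e => h1 c (by simp [cnj_apply, e])⟩ k
    exact ⟨n, hn, c, by simp [cnj_apply, e]⟩

/-- The annihilator of a subspace. -/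
def ann (W : Submodule K (V4 K)) : Submodule K (V4 K) where
  carrier := {φ | ∀ y ∈ W, φ ⬝ᵥ y = 0}
  add_mem' ha hb y hy := by rw [add_dotProduct, ha y hy, hb y hy, add_zero]
  zero_mem' y _ := zero_dotProduct y
  smul_mem' c _ ha y hy := by rw [smul_dotProduct, ha y hy, smul_zero]

theorem exists_ann {W : Submodule K (V4 K)} {v : V4 K} (h : v ∉ W) :
    ∃ φ : V4 K, φ ⬝ᵥ v ≠ 0 ∧ ∀ y ∈ W, φ ⬝ᵥ y = 0 := by
  obtain ⟨l, h1, h2⟩ := W.exists_dual_map_eq_bot_of_notMem h inferInstance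
  have e : ∀ w, l w = (fun i => l (Pi.single i 1)) ⬝ᵥ w := fun w => by
    rw [LinearMap.pi_apply_eq_sum_univ]
    exact Finset.sum_congr rfl fun i _ => by
      rw [smul_eq_mul, mul_comm]; congr 2; ext j; simp [Pi.single_apply, eq_comm]
  exact ⟨_, e v ▸ h1, fun y hy => (e y).symm.trans
    ((Submodule.mem_bot K).1 (h2 ▸ Submodule.mem_map_of_mem hy))⟩

theorem ann_cases {W : Submodule K (V4 K)} (h : ann W = ⊥ ∨ ann W = ⊤) : W = ⊥ ∨ W = ⊤ := by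
  rcases h with e | e
  · refine Or.inr (eq_top_iff.2 fun y _ => by_contra fun hy => ?_)
    obtain ⟨φ, h1, h2⟩ := exists_ann hy
    have h3 : φ ∈ ann W := h2
    rw [e, Submodule.mem_bot] at h3
    simp [h3] at h1
  · refine Or.inl (eq_bot_iff.2 fun y hy => by_contra fun h0 => ?_)
    obtain ⟨φ, h1⟩ := exists_dot_ne_zero h0
    exact h1 ((e ▸ Submodule.mem_top : φ ∈ ann W) y hy)

theorem RH.dual (r : RH ρ) : RH (dual ρ) where
  toTame := r.toTame.dual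
  lf := r.lf
  irr W hW := ann_cases (r.irr _ fun v f a y hy e φ hφ => by_contra fun e' => e (by
    rw [dotProduct_comm]; exact hy _ (hW _ _ (D.dual_iff.2 a) φ hφ e')))
  simp N hN := fun ⟨g, hg, h1⟩ k => by
    obtain ⟨n, hn, c, e⟩ := r.simp N hN ⟨g⁻¹, N.inv_mem hg, fun c e =>
      h1 c (by simp [dual_apply, e])⟩ k⁻¹
    exact ⟨n⁻¹, N.inv_mem hn, c, by simp [dual_apply, e]⟩

end Cfsg.Agent.D4
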