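import Cfsg.Agent.D4.Calc
import Cfsg.Agent.H98.FormTrace
import Cfsg.Agent.H3.SympBasis
import Mathlib.LinearAlgebra.Matrix.Charpoly.FiniteField
import Mathlib.FieldTheory.IsAlgClosed.AlgebraicClosure

set_option autoImplicit false

open Matrix
open scoped MatrixGroups

namespace Cfsg.Agent.D4

variable {K : Type*} [Field K] {Γ X : Type*} [Group Γ] [Group X] {ρ : Γ →* M4 K} {π : Γ →* X}

open Polynomial in
theorem trace_pow_p (ρ : Γ →* M4 K) (p : ℕ) [Fact p.Prime] [CharP K p] (g : Γ) :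
    (ρ g).trace ^ p = (ρ (g ^ p)).trace := by
  have hp : p.Prime := Fact.out
  rw [map_pow]
  generalize ρ g = M
  have e : (M ^ p).charpoly = M.charpoly.map (frobenius K p) := by
    apply expand_injective hp.pos
    rw [← map_expand, map_frobenius_expand]
    unfold charpoly
    rw [AlgHom.map_det, ← coe_detMonoidHom, ← (detMonoidHom : M4 K[X] →* K[X]).map_pow]
    apply congr_arg detMonoidHom
    refine matPolyEquiv.injective ?_
    rw [map_pow, matPolyEquiv_charmatrix, sub_pow_char_of_commute, ← C_pow]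
    · exact (id (matPolyEquiv_eq_X_pow_sub_C p M) :)
    · exact (C M).commute_X
  rw [trace_eq_neg_charpoly_coeff, trace_eq_neg_charpoly_coeff, e, coeff_map, ← map_neg, frobenius_def]

theorem trace_unip (ρ : Γ →* M4 K) (p : ℕ) [Fact p.Prime] [CharP K p] {g : Γ} {k : ℕ}
    (e : g ^ p ^ k = 1) : (ρ g).trace = 4 := by
  induction k generalizing g with
  | zero => rw [pow_zero, pow_one] at e; simp [e]
  | succ k ih =>
    rw [pow_succ', pow_mul] at e
    apply frobenius_inj K p
    rw [map_ofNat, frobenius_def, trace_pow_p, ih e]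

theorem Hyp.trace_isConj (h : Hyp ρ π) (hπ : Function.Injective π) {a b : Γ}
    (e : IsConj (π a) (π b)) : (ρ b).trace = (ρ a).trace := by
  obtain ⟨c, hc⟩ := isConj_iff.1 e
  obtain ⟨k, rfl⟩ := h.surj c
  rw [← map_inv, ← map_mul, ← map_mul] at hc
  rw [← hπ hc, trace_conj]

theorem Hyp.real_of (h : Hyp ρ π) (hπ : Function.Injective π) (p : ℕ) [Fact p.Prime] [CharP K p]
    (e : ∀ x : X, IsConj x x⁻¹ ∨ ∃ k : ℕ, x ^ p ^ k = 1) : Real ρ := fun g => by
  rcases e (π g) with e | ⟨k, e⟩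
  · exact h.trace_isConj hπ (by rwa [map_inv])
  · have e1 : g ^ p ^ k = 1 := hπ (by rw [map_pow, e, map_one])
    rw [trace_unip ρ p e1, trace_unip ρ p (g := g⁻¹) (k := k) (by rw [inv_pow, e1, inv_one])]

theorem Hyp.rk_not_triv (h : Hyp ρ π) : ¬ ∀ g (v : V4 K), ρ g *ᵥ v = v := fun e => by
  have e1 : ∀ g, ρ g = 1 := fun g => toLin'.injective (LinearMap.ext fun v => by simpa using e g v)
  obtain ⟨c, hc⟩ := h.scalar_of_comm (M := 1 + vecMulVec (Pi.single 0 1) (Pi.single 0 1)) fun g => by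
    rw [e1, one_mul, mul_one]
  exact one_add_vv_ne (by simp) (by simp) c hc

theorem Hyp.scott (h : Hyp ρ π) {a b c : Γ} (e : a * b * c = 1)
    (gen : ∀ H : Subgroup Γ, a ∈ H → b ∈ H → H = ⊤) :
    8 ≤ (ρ a - 1).rank + (ρ b - 1).rank + (ρ c - 1).rank := by
  let R : Γ → Submodule K (V4 K) := fun g => LinearMap.range (ρ g - 1).mulVecLin
  have hR : ∀ g v, ρ g *ᵥ v - v ∈ R g := fun g v => ⟨v, by simp [sub_mulVec]⟩
  let β : (R a × R b × R c) →ₗ[K] V4 K := (R a).subtype.coprod
    (((ρ a).mulVecLin.comp (R b).subtype).coprod ((ρ (a * b)).mulVecLin.comp (R c).subtype))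
  have hβ : ∀ x y z, β (x, y, z) = x + (ρ a *ᵥ y + ρ (a * b) *ᵥ z) := fun _ _ _ => rfl
  let δ : V4 K →ₗ[K] LinearMap.ker β := LinearMap.codRestrict _
    ((ρ a - 1).mulVecLin.rangeRestrict.prod ((ρ b - 1).mulVecLin.rangeRestrict.prod
      (ρ c - 1).mulVecLin.rangeRestrict)) fun v => by
    change (ρ a - 1) *ᵥ v + (ρ a *ᵥ (ρ b - 1) *ᵥ v + ρ (a * b) *ᵥ (ρ c - 1) *ᵥ v) = 0
    simp only [mulVec_mulVec, mul_sub, mul_one, ← map_mul, e, map_one, ← add_mulVec]
    simp
  have h1 : Function.Injective δ := by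
    refine (injective_iff_map_eq_zero δ).2 fun v hv => ?_
    have ea : (ρ a - 1) *ᵥ v = 0 := congrArg (fun z => (z.1.1 : V4 K)) hv
    have eb : (ρ b - 1) *ᵥ v = 0 := congrArg (fun z => (z.1.2.1 : V4 K)) hv
    rw [sub_mulVec, one_mulVec, sub_eq_zero] at ea eb
    let H : Subgroup Γ :=
      { carrier := {g | ρ g *ᵥ v = v}
        mul_mem' := fun {x y} (hx : _ = _) (hy : _ = _) => by
          change _ = _; rw [map_mul, ← mulVec_mulVec, hy, hx]
        one_mem' := by change _ = _; rw [map_one, one_mulVec]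
        inv_mem' := fun {x} (hx : _ = _) => by
          change _ = _; rw [← hx, mulVec_mulVec, inv_mul_rho, one_mulVec, hx] }
    have hH : ∀ g, ρ g *ᵥ v = v := fun g => (gen H ea eb ▸ Subgroup.mem_top g : g ∈ H)
    let W : Submodule K (V4 K) := ⨅ g, LinearMap.ker (ρ g - 1).mulVecLin
    have hW : ∀ x, x ∈ W ↔ ∀ g, ρ g *ᵥ x = x := fun x => by simp [W, sub_mulVec, sub_eq_zero]
    rcases h.irr W (fun g x hx => by rwa [(hW x).1 hx g]) with e | e
    · exact e.le ((hW v).2 hH)
    · exact absurd (fun g x => (hW x).1 (e ▸ Submodule.mem_top) g) h.rk_not_triv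
  have h2 : LinearMap.range β = ⊤ := by
    let H : Subgroup Γ :=
      { carrier := {g | ∀ v, ρ g *ᵥ v - v ∈ LinearMap.range β}
        mul_mem' := fun {x y} hx hy v => by
          rw [map_mul, ← mulVec_mulVec, ← sub_add_sub_cancel _ (ρ y *ᵥ v)]
          exact add_mem (hx _) (hy _)
        one_mem' := fun v => by rw [map_one, one_mulVec, sub_self]; exact zero_mem _
        inv_mem' := fun {x} hx v => by
          have := neg_mem (hx (ρ x⁻¹ *ᵥ v))
          rwa [mulVec_mulVec, mul_inv_rho, one_mulVec, neg_sub] at this }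
    have ha : a ∈ H := fun v => ⟨(⟨_, hR a v⟩, 0, 0), by simp [hβ]⟩
    have hb : b ∈ H := fun v => by
      have := sub_mem (show ρ a *ᵥ (ρ b *ᵥ v - v) ∈ LinearMap.range β from ⟨(0, ⟨_, hR b v⟩, 0), by simp [hβ]⟩)
        (ha (ρ b *ᵥ v - v))
      rwa [sub_sub_cancel] at this
    have hH : ∀ g v, ρ g *ᵥ v - v ∈ LinearMap.range β := fun g => (gen H ha hb ▸ Subgroup.mem_top g : g ∈ H)
    refine (h.irr _ fun g x hx => ?_).resolve_left fun e => h.rk_not_triv fun g v => ?_
    · simpa using add_mem (hH g x) hx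
    · simpa [e, sub_eq_zero] using hH g v
  have h3 := β.finrank_range_add_finrank_ker
  have h4 := LinearMap.finrank_le_finrank_of_injective h1
  rw [h2, finrank_top, Module.finrank_prod, Module.finrank_prod] at h3
  rw [Module.finrank_fin_fun] at h3 h4
  change 8 ≤ Module.finrank K (R a) + Module.finrank K (R b) + Module.finrank K (R c)
  omega

theorem rk_rank_add (M : M4 K) : M.rank + Module.finrank K (LinearMap.ker M.mulVecLin) = 4 :=
  M.mulVecLin.finrank_range_add_finrank_ker.trans (Module.finrank_fin_fun K)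

theorem rk_ker_mul (M N : M4 K) : Module.finrank K (LinearMap.ker (M * N).mulVecLin) ≤
    Module.finrank K (LinearMap.ker M.mulVecLin) + Module.finrank K (LinearMap.ker N.mulVecLin) := by
  let f : LinearMap.ker (M * N).mulVecLin →ₗ[K] LinearMap.ker M.mulVecLin :=
    N.mulVecLin.restrict fun v hv => by simpa using hv
  have h1 := f.finrank_range_add_finrank_ker
  have h2 := (LinearMap.range f).finrank_le
  have h3 : Module.finrank K (LinearMap.ker f) ≤ Module.finrank K (LinearMap.ker N.mulVecLin) :=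
    LinearMap.finrank_le_finrank_of_injective
      (f := ((Submodule.subtype _).comp (LinearMap.ker f).subtype).codRestrict (LinearMap.ker N.mulVecLin)
        fun v => congrArg Subtype.val v.2)
      fun a b e => Subtype.ext (Subtype.ext (congrArg (fun z : LinearMap.ker N.mulVecLin => z.1) e))
  omega

theorem rank_sq {N : M4 K} (e : N * N = 0) : N.rank ≤ 2 := by
  have := rank_add_rank_le_card_of_mul_eq_zero e
  rw [Fintype.card_fin] at this
  omega

theorem rank_cube {N : M4 K} (e : N ^ 3 = 0) : N.rank ≤ 2 := by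
  have h1 := rk_ker_mul N (N * N)
  have h2 := rk_ker_mul N N
  have h3 := rk_rank_add N
  have h4 := rk_rank_add (N * (N * N))
  rw [← pow_three, e] at h1 h4
  rw [rank_zero] at h4
  omega

theorem rk_frame {ι : Type*} (x : ι → V4 K) (hx : ∀ η : V4 K, (∀ i, η ⬝ᵥ x i = 0) → η = 0) :
    ∃ (e : Fin 4 → ι) (P : (M4 K)ˣ), ∀ (η : V4 K) k, (η ᵥ* P.val) k = η ⬝ᵥ x (e k) := by
  have hs : ⊤ ≤ Submodule.span K (Set.range x) := fun v _ => by
    by_contra hv
    obtain ⟨l, h1, h2⟩ := Submodule.exists_dual_map_eq_bot_of_notMem hv inferInstance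
    have e : ∀ w, l w = (fun i => l (Pi.single i 1)) ⬝ᵥ w := fun w => by
      rw [LinearMap.pi_apply_eq_sum_univ]
      exact Finset.sum_congr rfl fun i _ => by
        rw [smul_eq_mul, mul_comm]; congr 2; ext j; simp [Pi.single_apply, eq_comm]
    refine h1 ?_
    rw [e, hx _ fun i => (e _).symm.trans ((Submodule.mem_bot K).1
      (h2 ▸ Submodule.mem_map_of_mem (Submodule.subset_span ⟨i, rfl⟩))), zero_dotProduct]
  let b0 := Module.Basis.ofSpan hs
  let b := b0.reindex (b0.indexEquiv (Pi.basisFun K (Fin 4)))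
  have hb : ∀ k, ∃ i, x i = b k := fun k => by
    rw [Module.Basis.reindex_apply]
    exact Module.Basis.ofSpan_subset hs ⟨_, rfl⟩
  choose e he using hb
  have hu : IsUnit (Matrix.of fun i j => b j i) := linearIndependent_cols_iff_isUnit.1 b.linearIndependent
  exact ⟨e, hu.unit, fun η k => by rw [he]; rfl⟩

theorem exists_theta (σ : K →+* K) (ε : K) {ι : Type*} (x χ : ι → V4 K)
    (hx : ∀ η : V4 K, (∀ i, η ⬝ᵥ x i = 0) → η = 0)
    (h : ∀ i j, χ i ⬝ᵥ x j = ε * σ (χ j ⬝ᵥ x i)) :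
    ∃ S : M4 K, ∀ i, χ i = (fun k => σ (x i k)) ᵥ* S := by
  obtain ⟨e, P, hP⟩ := rk_frame x hx
  refine ⟨(of fun l k => ε * σ (χ (e k) l)) * P⁻¹.val, fun i => vecMul_units_inj P ?_⟩
  rw [vecMul_vecMul, mul_assoc, Units.inv_mul, mul_one]
  ext k
  rw [hP, h]
  simp only [vecMul, dotProduct, map_sum, map_mul, Finset.mul_sum, of_apply]
  exact Finset.sum_congr rfl fun l _ => by ring

theorem IsO.of_sgn (e : IsO (sgn ρ)) : IsO ρ :=
  let ⟨S, hS, hc⟩ := e; ⟨S, hS, fun g => by simpa [sgn_apply] using hc (g, 1)⟩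

theorem Hyp.real_of_isO (h : Hyp ρ π) (e : IsO ρ) : Real ρ := by
  obtain ⟨S, hS, hc'⟩ := e
  choose c hc using hc'
  have S0 : S ≠ 0 := by rintro rfl; exact hS det_zero
  let f : Γ →* K :=
    { toFun := c
      map_one' := smul_left_injective K S0 (by simpa using (hc 1).symm)
      map_mul' := fun a b => smul_left_injective K S0 (by
        change c (a * b) • S = (c a * c b) • S
        rw [← hc, map_mul, transpose_mul, mul_smul, ← hc b, ← smul_mul_assoc, ← mul_smul_comm, ← hc a]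
        simp only [mul_assoc]) }
  intro g
  have e1 : c g = 1 := congrArg Units.val (hom_eq_one h.perfect f.toHomUnits g)
  have e2 := hc g
  rw [e1, one_smul] at e2
  have hu : IsUnit S.det := isUnit_iff_ne_zero.2 hS
  have e3 : ρ g⁻¹ = S⁻¹ * (ρ g)ᵀ * S := by
    rw [← one_mul (ρ g⁻¹), ← nonsing_inv_mul S hu, mul_assoc, mul_assoc]
    congr 1
    conv_lhs => rw [← e2]
    rw [mul_assoc, mul_inv_rho, mul_one]
  rw [e3, trace_mul_cycle, mul_nonsing_inv S hu, one_mul, trace_transpose]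

end Cfsg.Agent.D4
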