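import Cfsg.Agent.D4.Wt
import Cfsg.Agent.D4.Rk
import Cfsg.Agent.D4.Desc

/-!
Four-dimensional representations without transvections and reflections: definitions.
The six-dimensional orthogonal model.
-/

set_option autoImplicit false

open Matrix
open scoped MatrixGroups

namespace Cfsg.Agent.D4

export Cfsg.Agent.D5 (LstE)

variable {K : Type*} [Field K] {Γ G X : Type*} [Group Γ] [Group G] [Group X]

/-- The structure of a Sylow `2`-subgroup in characteristic two. -/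
structure NE (ρ : Γ →* M4 K) (S : Sylow 2 Γ) (z : Γ) (A B : Subgroup Γ) : Prop where
  z1 : z ≠ 1
  zA : z ∈ A
  zB : z ∈ B
  leA : A ≤ S
  leB : B ≤ S
  sqA : ∀ a ∈ A, a * a = 1
  sqB : ∀ b ∈ B, b * b = 1
  inv : ∀ t ∈ S, t * t = 1 → t ∈ A ∨ t ∈ B
  cen : ∀ a ∈ A, a ∈ B → ∀ s ∈ S, s * a = a * s
  cB : ∀ t ∈ B, t ∉ A → ∀ s ∈ S, s * t = t * s → s ∈ B
  nB : ∀ t ∈ B, ∀ s ∈ S, s * t * s⁻¹ ∈ B ∧ s * t * s⁻¹ * t ∈ A
  fix : ∀ t ∈ S, t ≠ 1 → (t ∈ A ↔ ∀ v, ρ t *ᵥ v = v ↔ ρ z *ᵥ v = v)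
  img : ∀ v, ρ z *ᵥ (ρ z *ᵥ v - v) = ρ z *ᵥ v - v

/-- `X` is the alternating group of degree `n`. -/
def IsAlt (X : Type*) [Group X] (n : ℕ) : Prop := Nonempty (X ≃* alternatingGroup (Fin n))

/-- The trace conditions for `L₂(7)` and `A₇`. -/
def Fr7 (ρ : Γ →* M4 K) (p : ℕ) : Prop :=
  ((p % 7 = 1 ∨ p % 7 = 2 ∨ p % 7 = 4) ∧ FrobFix ρ p) ∨
    ((p % 7 = 3 ∨ p % 7 = 5 ∨ p % 7 = 6) ∧ FrobInv ρ p)

/-- The exceptional cases. -/
def Exc (ρ : Γ →* M4 K) (X : Type*) [Group X] (p : ℕ) : Prop :=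
  (IsL2 X 7 ∧ p ≠ 2 ∧ Fr7 ρ p) ∨ (IsAlt X 7 ∧ Fr7 ρ p) ∨ (IsL3 X 4 ∧ p = 3 ∧ FrobInv ρ p) ∨
  (IsU42 X ∧ ((p % 6 = 1 ∧ FrobFix ρ p) ∨ (p % 6 = 5 ∧ FrobInv ρ p)))

/-- The elements `1 + N` with `N` vanishing on `U` and with image in `U`. -/
def Qd (ρ : Γ →* M4 K) (U : Submodule K (V4 K)) (g : Γ) : Prop :=
  (∀ v, (ρ g - 1) *ᵥ v ∈ U) ∧ ∀ u ∈ U, ρ g *ᵥ u = u

/-! ### The orthogonal model -/

/-- `6 × 6` matrices. -/
abbrev M6 (K : Type*) := Matrix (Fin 6) (Fin 6) K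

/-- Vectors of length six. -/
abbrev V6 (K : Type*) := Fin 6 → K

/-- `3 × 3` matrices. -/
abbrev M3 (K : Type*) := Matrix (Fin 3) (Fin 3) K

/-- The symmetric group of degree six. -/
abbrev S6 := Equiv.Perm (Fin 6)

/-- `G ≤ SO₆(K)` is irreducible, contains `-1`, and `G / ± 1` is the simple group `X`. -/
structure HW (σ : G →* M6 K) (π : G →* X) : Prop where
  two : (2 : K) ≠ 0
  lf : LF K
  inj : Function.Injective σ
  orth : ∀ g, (σ g)ᵀ * σ g = 1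
  det : ∀ g, (σ g).det = 1
  neg : ∃ g, σ g = -1
  surj : Function.Surjective π
  ker : ∀ g, π g = 1 ↔ σ g = 1 ∨ σ g = -1
  simple : IsSimpleGroup X
  nonab : ¬ IsMulCommutative X
  irr : ∀ U : Submodule K (V6 K), (∀ g, ∀ x ∈ U, σ g *ᵥ x ∈ U) → U = ⊥ ∨ U = ⊤
  nsq : ∀ g, σ g * σ g ≠ -1
  nrt : ∀ g, (σ g - 1) * (σ g - 1) = 0 → g = 1
  quad : ∀ (g k : G) (x y : V6 K), x ⬝ᵥ x = 1 → y ⬝ᵥ y = 1 → x ⬝ᵥ y = 0 →
    IsNilpotent (σ g - 1) → IsNilpotent (σ k - 1) → g * k = k * g → σ g *ᵥ x = x →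
    σ g *ᵥ y = y → σ k *ᵥ x = x → σ k *ᵥ y = y → g = 1 ∨ k = 1 ∨ k = g ∨ k * g = 1

/-- The alternating matrix with Pfaffian `x ⬝ᵥ x` (where `i * i = -1`). -/
def alt (i : K) (x : V6 K) : M4 K :=
  !![0, x 0 + i * x 1, x 2 + i * x 3, x 4 + i * x 5;
    -(x 0 + i * x 1), 0, x 4 - i * x 5, -(x 2 - i * x 3);
    -(x 2 + i * x 3), -(x 4 - i * x 5), 0, x 0 - i * x 1;
    -(x 4 + i * x 5), x 2 - i * x 3, -(x 0 - i * x 1), 0]

/-- `σ` is the exterior square of `ρ`, extended by `-1`. -/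
structure Lk (ρ : Γ →* M4 K) (π : Γ →* X) (σ : G →* M6 K) (π' : G →* X) (ι : Γ →* G) (i : K) :
    Prop where
  hi : i * i = -1
  pi : ∀ g, π' (ι g) = π g
  act : ∀ g x, alt i (σ (ι g) *ᵥ x) = ρ g * alt i x * (ρ g)ᵀ
  sj : ∀ k, ∃ g, σ k = σ (ι g) ∨ σ k = -σ (ι g)

/-- Orthogonal matrices. -/
abbrev O6 (K : Type*) [Field K] := {B : M6 K // Bᵀ * B = 1}

/-- The representation in the orthonormal basis given by the columns of `B`. -/
def cw (σ : G →* M6 K) (B : O6 K) : G →* M6 K where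
  toFun g := B.1ᵀ * σ g * B.1
  map_one' := by simp [B.2]
  map_mul' a b := by
    have := mul_eq_one_comm.1 B.2
    simp only [map_mul, mul_assoc]
    rw [← mul_assoc B.1, this, one_mul]

/-- The sign change in the coordinates `i` and `j`. -/
def aa (i j : Fin 6) : M6 K := diagonal fun k => if k = i ∨ k = j then -1 else 1

/-- The monomial matrix sending `e j` to `ε j • e (w j)`. -/
def mono (w : S6) (ε : Fin 6 → K) : M6 K := of fun i j => if i = w j then ε j else 0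

/-- A signed permutation matrix with permutation `w`. -/
def IsMono (M : M6 K) (w : S6) : Prop := ∃ ε : Fin 6 → K, (∀ j, ε j * ε j = 1) ∧ M = mono w ε

/-- The reflection in a non-singular vector. -/
def rf (v : V6 K) : M6 K := 1 - (2 / v ⬝ᵥ v) • vecMulVec v v

/-- The basis vectors. -/
abbrev ee (i : Fin 6) : V6 K := Pi.single i 1

/-- All even sign changes lie in the group. -/
def Frm (σ : G →* M6 K) : Prop := ∀ i j, i ≠ j → ∃ g, σ g = aa i j

theorem mono_mul (w w' : S6) (ε ε' : Fin 6 → K) :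
    mono w ε * mono w' ε' = mono (w * w') fun j => ε (w' j) * ε' j := by
  ext i j
  simp only [mono, mul_apply, of_apply, mul_ite, mul_zero, Finset.sum_ite_eq', Finset.mem_univ,
    if_true, Equiv.Perm.mul_apply, ite_mul, zero_mul]
  congr

theorem mono_one : mono (K := K) 1 1 = 1 := by
  ext i j
  simp only [mono, one_apply, of_apply, Equiv.Perm.one_apply, Pi.one_apply]
  congr

theorem IsMono.mul {M N : M6 K} {w w' : S6} (a : IsMono M w) (b : IsMono N w') :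
    IsMono (M * N) (w * w') := by
  obtain ⟨ε, h, rfl⟩ := a
  obtain ⟨ε', h', rfl⟩ := b
  exact ⟨_, fun j => by linear_combination ε' j * ε' j * h (w' j) + h' j, mono_mul ..⟩

theorem isMono_one : IsMono (1 : M6 K) 1 := ⟨1, by simp, mono_one.symm⟩

theorem IsMono.inv {σ : G →* M6 K} {g : G} {w : S6} (a : IsMono (σ g) w) :
    IsMono (σ g⁻¹) w⁻¹ := by
  obtain ⟨ε, h, e⟩ := a
  refine ⟨fun j => ε (w⁻¹ j), fun j => h _, ?_⟩
  have : σ g * mono w⁻¹ (fun j => ε (w⁻¹ j)) = 1 := by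
    rw [e, mono_mul, mul_inv_cancel, ← mono_one]
    exact congrArg _ (funext fun j => h _)
  rw [← mul_one (σ g⁻¹), ← this, ← mul_assoc, ← map_mul, inv_mul_cancel, map_one, one_mul]

/-- The monomial elements with permutation in `Y`. -/
def MG (σ : G →* M6 K) (Y : Subgroup S6) : Subgroup G where
  carrier := {g | ∃ w ∈ Y, IsMono (σ g) w}
  one_mem' := ⟨1, one_mem _, by rw [map_one]; exact isMono_one⟩
  mul_mem' := fun ⟨w, hw, a⟩ ⟨w', hw', b⟩ => ⟨_, mul_mem hw hw', by rw [map_mul]; exact a.mul b⟩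
  inv_mem' := fun ⟨w, hw, a⟩ => ⟨_, inv_mem hw, a.inv⟩

/-- The permutations of the frame induced by the group. -/
def Yg (σ : G →* M6 K) : Subgroup S6 where
  carrier := {w | ∃ g, IsMono (σ g) w}
  one_mem' := ⟨1, by rw [map_one]; exact isMono_one⟩
  mul_mem' := fun ⟨a, ha⟩ ⟨b, hb⟩ => ⟨a * b, by rw [map_mul]; exact ha.mul hb⟩
  inv_mem' := fun ⟨a, ha⟩ => ⟨_, ha.inv⟩

/-- The elements commuting with the matrix `M`. -/
def Cz (σ : G →* M6 K) (M : M6 K) : Subgroup G where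
  carrier := {g | σ g * M = M * σ g}
  one_mem' := by simp
  mul_mem' {a b} ha hb := by
    simp only [Set.mem_ofPred_eq, map_mul] at *
    rw [mul_assoc, hb, ← mul_assoc, ha, mul_assoc]
  inv_mem' {a} ha := by
    simp only [Set.mem_ofPred_eq] at *
    calc σ a⁻¹ * M = σ a⁻¹ * (M * σ a) * σ a⁻¹ := by
          rw [mul_assoc, mul_assoc, ← map_mul, mul_inv_cancel, map_one, mul_one]
      _ = M * σ a⁻¹ := by rw [← ha, ← mul_assoc, ← map_mul, inv_mul_cancel, map_one, one_mul]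

/-- All involution centralisers are solvable. -/
def CS (X : Type*) [Group X] : Prop :=
  ∀ t : X, orderOf t = 2 → Group.IsSolvable (Subgroup.centralizer ({t} : Set X))

/-- The three-cycle `(0 1 2)`. -/
def c3 : S6 := Equiv.swap 0 2 * Equiv.swap 0 1

/-- A product of three disjoint transpositions. -/
def Trip (w : S6) : Prop := w * w = 1 ∧ ∀ i, w i ≠ i

/-- The symmetric group on the first five points. -/
def YS5 : Subgroup S6 := MulAction.stabilizer S6 (5 : Fin 6)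

/-- The alternating group on six points. -/
def YA6 : Subgroup S6 := alternatingGroup (Fin 6)

/-- The alternating group on the first five points. -/
def YA5 : Subgroup S6 := YA6 ⊓ YS5

/-- A one-factorisation of the complete graph on six points (`5` on the diagonal). -/
def col : Fin 6 → Fin 6 → Fin 6 :=
  ![![5, 0, 1, 2, 3, 4], ![0, 5, 4, 3, 1, 2], ![1, 4, 5, 0, 2, 3], ![2, 3, 0, 5, 4, 1],
    ![3, 1, 2, 4, 5, 0], ![4, 2, 3, 1, 0, 5]]

/-- The group `PGL₂(5)` on six points. -/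
def YP : Subgroup S6 where
  carrier := {w | ∀ i j k l, col (w i) (w j) = col (w k) (w l) ↔ col i j = col k l}
  one_mem' _ _ _ _ := Iff.rfl
  mul_mem' ha hb i j k l := (ha ..).trans (hb i j k l)
  inv_mem' {w} ha i j k l := by simpa using (ha (w⁻¹ i) (w⁻¹ j) (w⁻¹ k) (w⁻¹ l)).symm

/-- The group `PSL₂(5)` on six points. -/
def YL : Subgroup S6 := YA6 ⊓ YP

/-- The block on the first four coordinates. -/
def b4 (M : M6 K) : M4 K := M.submatrix (Fin.castAdd 2) (Fin.castAdd 2)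

/-- The block on the last two coordinates. -/
def b2 (M : M6 K) : Matrix (Fin 2) (Fin 2) K := M.submatrix (Fin.natAdd 4) (Fin.natAdd 4)

/-- Left multiplication by the quaternion units. -/
def Jp : Fin 3 → M4 K :=
  ![!![0, -1, 0, 0; 1, 0, 0, 0; 0, 0, 0, -1; 0, 0, 1, 0],
    !![0, 0, -1, 0; 0, 0, 0, 1; 1, 0, 0, 0; 0, -1, 0, 0],
    !![0, 0, 0, -1; 0, 0, -1, 0; 0, 1, 0, 0; 1, 0, 0, 0]]

/-- Right multiplication by the quaternion units. -/
def Jm : Fin 3 → M4 K :=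
  ![!![0, -1, 0, 0; 1, 0, 0, 0; 0, 0, 0, 1; 0, 0, -1, 0],
    !![0, 0, -1, 0; 0, 0, 0, -1; 1, 0, 0, 0; 0, 1, 0, 0],
    !![0, 0, 0, -1; 0, 0, 1, 0; 0, -1, 0, 0; 1, 0, 0, 0]]

/-- The action of `SO₄` on the self-dual forms. -/
def cp (M : M4 K) : M3 K := of fun i j => -(Jp i * M * Jp j * Mᵀ).trace / 4

/-- The action of `SO₄` on the anti-self-dual forms. -/
def cm (M : M4 K) : M3 K := of fun i j => -(Jm i * M * Jm j * Mᵀ).trace / 4

/-- The elements centralising `aa 4 5` which are rotations on both eigenspaces. -/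
def In0 (σ : G →* M6 K) (g : G) : Prop := g ∈ Cz σ (aa 4 5) ∧ (b4 (σ g)).det = 1

/-- A finite group of rotations in dimension three with small unipotent subgroups. -/
structure Tm {H : Type*} [Group H] (τ : H →* M3 K) : Prop where
  two : (2 : K) ≠ 0
  lf : LF K
  orth : ∀ g, (τ g)ᵀ * τ g = 1
  det : ∀ g, (τ g).det = 1
  quad : ∀ g k, IsNilpotent (τ g - 1) → IsNilpotent (τ k - 1) → τ g * τ k = τ k * τ g →
    τ g = 1 ∨ τ k = 1 ∨ τ k = τ g ∨ τ k * τ g = 1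

/-- The sign changes in dimension three. -/
def s3 (i : Fin 3) : M3 K := diagonal fun k => if k = i then 1 else -1

/-- The centraliser of `aa 4 5` has a factor `SL₂(5)`. -/
def A1 (σ : G →* M6 K) : Prop := (∃ t, σ t = aa 4 5) ∧ ∃ L : Subgroup G, ¬ Group.IsSolvable L ∧
  ∀ g ∈ L, In0 σ g ∧ b2 (σ g) = 1 ∧ cm (b4 (σ g)) = 1

/-- The centraliser of `aa 4 5` has the component `L ≅ A₅`. -/
structure A2 (σ : G →* M6 K) (L : Subgroup G) : Prop where
  t : ∃ t, σ t = aa 4 5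
  iso : Nonempty (L ≃* alternatingGroup (Fin 5))
  le : ∀ g ∈ L, In0 σ g ∧ b2 (σ g) = 1
  nrm : ∀ k ∈ Cz σ (aa 4 5), ∀ g ∈ L, k * g * k⁻¹ ∈ L
  top : ∀ P ≤ Cz σ (aa 4 5), ⁅P, P⁆ = P → P ≤ L
  cen : ∀ k, In0 σ k → ∃ g ∈ L, ∀ l ∈ L, k * g * l = l * (k * g)
  f1 : ∃ g ∈ L, σ g = aa 0 1
  f2 : ∃ g ∈ L, σ g = aa 0 2
  d : ∃ g ∈ L, σ g = mono c3 1

/-- The list in odd characteristic. -/
def LstW (σ : G →* M6 K) (X : Type*) [Group X] : Prop := (∃ r, IsL2 X r) ∨ IsL3 X 3 ∨ IsU3 X 3 ∨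
  IsAlt X 7 ∨ Spor.IsoM11 X ∨ (IsL3 X 4 ∧ ∀ g, g ^ 5 = 1 → g ≠ 1 → (σ g).trace = 1) ∨ IsU42 X

end Cfsg.Agent.D4
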