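import Cfsg.Agent.D4.Defs3
import Cfsg.Agent.H98.FormTrace
import Cfsg.Agent.H98.FormUnique
import Cfsg.Agent.H98.Descent
import Cfsg.Agent.H11.OTools

/-!
The residual class in dimension four: the natural representation, and data for `L₂(7)`.
-/

set_option autoImplicit false

open Matrix Subgroup
open scoped MatrixGroups

namespace Cfsg.Agent.D4

open Cfsg.Geo H98 H10

section
variable {K : Type*} [Field K] {Γ X : Type*} [Group Γ] [Group X]

/-- Character data of the four-dimensional representation of `SL₂(7)`. -/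
structure Sq7 (ρ : Γ →* M4 K) (π : Γ →* X) : Prop where
  two : (2 : K) ≠ 0
  seven : (7 : K) ≠ 0
  ker : ∀ z, π z = 1 → z * z = 1
  sq : ∀ g, orderOf (π g) = 2 → ρ g * ρ g = -1
  four : ∀ g, orderOf (π g) = 4 → (ρ g).trace = 0
  sev : ∀ g, g ^ 7 = 1 → g ≠ 1 → (ρ g⁻¹).trace ≠ (ρ g).trace

/-- The Pfaffian. -/
def pf (A : M4 K) : K := A 0 1 * A 2 3 - A 0 2 * A 1 3 + A 0 3 * A 1 2

/-- The Pfaffian adjoint of an alternating matrix. -/
def hat (A : M4 K) : M4 K :=
  !![0, A 2 3, -A 1 3, A 1 2; -A 2 3, 0, A 0 3, -A 0 2; A 1 3, -A 0 3, 0, A 0 1;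
    -A 1 2, A 0 2, -A 0 1, 0]

/-- A two-transitive action on seven points whose point stabiliser fixes the form `A`. -/
structure Spx (ρ : Γ →* M4 K) (φ : Γ →* Equiv.Perm (Fin 7)) (A : M4 K) : Prop where
  tr : ∀ i j, i ≠ j → ∃ g, φ g 0 = i ∧ φ g 1 = j
  few : ∀ g, (∀ i, 3 ≤ i → φ g i = i) → φ g = 1
  ne : A ≠ 0
  alt : Aᵀ = -A
  fix : ∀ g, φ g 0 = 0 → ρ g * A * (ρ g)ᵀ = A

end

variable {F : Type*} [Field F] [Fintype F] {H P : Subgroup (GL (Fin 4) F)}

/-- The natural representation of a subgroup of the general linear group. -/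
def rhoC (P : Subgroup (GL (Fin 4) F)) : P →* M4 F := (Units.coeHom _).comp P.subtype

/-- The quotient map modulo scalars. -/
abbrev piC (P : Subgroup (GL (Fin 4) F)) : P →* P ⧸ (scalars (Fin 4) F).subgroupOf P :=
  QuotientGroup.mk' _

theorem hyp_of_coreC (h : IsResidualCore H P) : Hyp (rhoC P) (piC P) := by
  have hp : commutator P = ⊤ := map_injective P.subtype_injective (by
    rw [map_subtype_commutator, h.perfect, ← MonoidHom.range_eq_map, range_subtype])
  refine ⟨fun a b e => Subtype.ext (Units.ext e), fun g => ?_, QuotientGroup.mk'_surjective _,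
    fun g => ?_, h.simple, h.nonabelian, hp, ?_⟩
  · exact H99.mem_sl.1 (hom_eq_one hp (GeneralLinearGroup.det.comp P.subtype) g)
  · rw [QuotientGroup.mk'_apply, QuotientGroup.eq_one_iff, mem_subgroupOf, mem_scalars_iff]
    refine ⟨fun ⟨c, e⟩ => ⟨c, e⟩, fun ⟨c, e⟩ => ⟨Units.mk0 c ?_, e⟩⟩
    rintro rfl
    exact (isUnit_rho (rhoC P) g).ne_zero (by simp [e])
  · have : Set.range (rhoC P) = matrixSet P := Set.ext fun M =>
      ⟨fun ⟨g, e⟩ => ⟨g, g.2, e⟩, fun ⟨g, hg, e⟩ => ⟨⟨g, hg⟩, e⟩⟩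
    rw [this, ← grpAlg_toSubmodule, grpAlg_eq_top_of_absIrr h.absIrred]; rfl

theorem trTop_of_core (h : IsResidualCore H P) : TrTop (rhoC P) := fun K0 ht => by
  by_contra e
  exact h.no_subfield _ e (realisable_of_trace (grpAlg_eq_top_of_absIrr h.absIrred) _
    fun x hx => ht ⟨x, hx⟩)

end Cfsg.Agent.D4
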