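import Cfsg.Agent.D4.Defs4
import Cfsg.Agent.H29.PslDict

/-!
The normaliser of `SL₂(7)`.
-/

set_option autoImplicit false

open Matrix
open scoped MatrixGroups

namespace Cfsg.Agent.D4

open Cfsg.Geo

namespace L27b

open H29

theorem sq7 : ∀ n : ZMod 7, n ≠ 0 → ∃ c, c * c * n = 1 ∨ c * c * -n = 1 := by decide

/-- outer automorphisms of `L₂(7)` swap the two classes of elements of order seven -/
theorem aut7 {k : Type} [Field k] [Fintype k] (hk : Fintype.card k = 7) (α : MulAut PSL(2, k)) :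
    (∃ y, ∀ t, α t = y * t * y⁻¹) ∨ ∃ u y, u ≠ 1 ∧ u ^ 7 = 1 ∧ α u = y * u⁻¹ * y⁻¹ := by
  have : Fact (Nat.Prime 7) := ⟨by norm_num⟩
  let e := ZMod.ringEquivOfPrime k (by norm_num : Nat.Prime 7) hk
  obtain ⟨g, σ, rfl | ⟨h, -⟩⟩ := aut_psl_cases (le_refl 2) α
  swap
  · omega
  obtain rfl : σ = 1 := RingEquiv.ext fun x => by
    obtain ⟨n, rfl⟩ := e.surjective x
    rw [← ZMod.natCast_zmod_val n, map_natCast, map_natCast]; rfl
  rw [map_one, mul_one]
  have key : ∀ (c : k) (D : Matrix (Fin 2) (Fin 2) k), (c • (g.val * D)).det = 1 → ∃ y : PSL(2, k),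
      ∀ t t' : SL(2, k), (t : Matrix (Fin 2) (Fin 2) k) * D = D * (t' : Matrix (Fin 2) (Fin 2) k) → pslConj (Fin 2) k g t = y * t' * y⁻¹ := fun c D h => by
    let y : SL(2, k) := ⟨_, h⟩
    refine ⟨y, fun t t' e => ?_⟩
    rw [pslConj_mk, eq_mul_inv_iff_mul_eq, ← QuotientGroup.mk_mul, ← QuotientGroup.mk_mul]
    refine congrArg _ (Subtype.ext ?_)
    change _ * (c • (g.val * D)) = (c • (g.val * D)) * t'.val
    simp only [slConjElt_coe, mul_smul_comm, smul_mul_assoc, Matrix.mul_assoc, Units.inv_mul_cancel_left, e]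
  obtain ⟨n, hn⟩ := e.surjective g.val.det
  have n0 : n ≠ 0 := by
    rintro rfl
    exact g.det_ne_zero (by rw [← hn, map_zero])
  obtain ⟨c, hc | hc⟩ := sq7 n n0 <;>
    have hc := congrArg e hc <;> simp only [map_mul, map_neg, map_one, hn] at hc
  · obtain ⟨y, hy⟩ := key (e c) 1 (by rw [det_smul, mul_one, Fintype.card_fin, sq, hc])
    refine .inl ⟨y, fun t => ?_⟩
    obtain ⟨t, rfl⟩ := QuotientGroup.mk_surjective t
    exact hy t t (by simp)
  · obtain ⟨y, hy⟩ := key (e c) !![-1, 0; 0, 1] (by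
      rw [det_smul, det_mul, Fintype.card_fin, sq, det_fin_two_of]; linear_combination hc)
    obtain ⟨u, hu⟩ : ∃ u : SL(2, k), (u : Matrix (Fin 2) (Fin 2) k) = !![1, 1; 0, 1] := ⟨⟨_, by simp⟩, rfl⟩
    have h7 : (7 : k) = 0 := by simpa [hk] using FiniteField.cast_card_eq_zero k
    refine .inr ⟨u, y, fun h => ?_, ?_, hy u u⁻¹ ?_⟩
    · obtain ⟨r, -, h⟩ := Matrix.SpecialLinearGroup.mem_center_iff.1 ((QuotientGroup.eq_one_iff u).1 h)
      simpa [hu] using congrFun (congrFun h 0) 1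
    · rw [← QuotientGroup.mk_pow, show u ^ 7 = 1 from Matrix.SpecialLinearGroup.ext _ _ (fun i j => by
        rw [Matrix.SpecialLinearGroup.coe_pow, hu, Matrix.SpecialLinearGroup.coe_one]
        fin_cases i <;> fin_cases j <;> simp [pow_succ]
        linear_combination h7), QuotientGroup.mk_one]
    · rw [Matrix.SpecialLinearGroup.coe_inv, hu]
      simp [adjugate_fin_two]

end L27b

variable {F : Type*} [Field F] [Fintype F] {H P : Subgroup (GL (Fin 4) F)}

theorem l27_norm (h : IsResidualCore H P) (e : IsL2 (P ⧸ (scalars (Fin 4) F).subgroupOf P) 7)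
    (s : Sq7 (rhoC P) (piC P)) {x : GL (Fin 4) F} (hx : x ∈ H) :
    ∃ y ∈ P, ∃ c : F, (x : M4 F) = c • (y : M4 F) := by
  obtain ⟨k, _, _, hk, ⟨e⟩⟩ := e
  have hyp := hyp_of_coreC h
  let β : P ≃* P :=
    { toFun p := ⟨x * p * x⁻¹, h.normal x hx p p.2⟩
      invFun p := ⟨x⁻¹ * p * x⁻¹⁻¹, h.normal _ (inv_mem hx) p p.2⟩
      left_inv p := Subtype.ext (by simp [mul_assoc])
      right_inv p := Subtype.ext (by simp [mul_assoc])
      map_mul' p q := Subtype.ext (by simp [mul_assoc]) }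
  have nm : (scalars (Fin 4) F).Normal := inferInstance
  let α := QuotientGroup.congr ((scalars (Fin 4) F).subgroupOf P) ((scalars (Fin 4) F).subgroupOf P) β
    (Subgroup.ext fun p => by
    exact (Subgroup.mem_map_equiv (f := β)).trans (nm.mem_comm_iff.trans (by simp [Subgroup.mem_subgroupOf]) :
      x⁻¹ * p * x⁻¹⁻¹ ∈ scalars (Fin 4) F ↔ p ∈ (scalars (Fin 4) F).subgroupOf P))
  have hα : ∀ p, α (piC P p) = piC P (β p) := fun p => rfl
  rcases L27b.aut7 hk (e.symm.trans (α.trans e)) with ⟨y, hy⟩ | ⟨u, y, u1, u7, hu⟩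
  · obtain ⟨y, rfl⟩ := (e.surjective.comp hyp.surj) y
    obtain ⟨c, hc⟩ := (mem_scalars_iff _).1 (h.centralizer_scalar ((y : GL (Fin 4) F)⁻¹ * x) (mul_mem (inv_mem (h.le y.2)) hx)
      fun p hp => by
        have := hy (e (piC P ⟨p, hp⟩))
        simp only [MulEquiv.trans_apply, e.symm_apply_apply, hα, Function.comp, ← map_mul, ← map_inv,
          e.apply_eq_iff_eq] at this
        have := nm.conj_mem _ (QuotientGroup.eq (s := (scalars (Fin 4) F).subgroupOf P).1 this.symm) (p * y⁻¹)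
        simpa [β, mul_assoc] using this)
    exact ⟨y, y.2, c, by rw [← mul_inv_cancel_left (y : GL (Fin 4) F) x, Units.val_mul, hc]; simp⟩
  · obtain ⟨y, rfl⟩ := (e.surjective.comp hyp.surj) y
    obtain ⟨u, rfl⟩ := e.surjective u
    obtain ⟨q, rfl, q7⟩ := hyp.exists_lift (n := 7) (by decide) (e.injective (by rw [map_pow, u7, map_one]))
    simp only [MulEquiv.trans_apply, e.symm_apply_apply, hα, Function.comp, ← map_mul, ← map_inv,
      e.apply_eq_iff_eq] at hu
    have := congrArg (fun g => (rhoC P g).trace) (hyp.lift_unique (n := 7) hu (by decide)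
      (by rw [← map_pow, q7, map_one]) (by rw [conj_pow, inv_pow, q7]; simp))
    simp only [trace_conj] at this
    refine (s.sev q q7 (fun e => u1 (by simp [e])) (this.symm.trans ?_)).elim
    change (x.val * q.val.val * x⁻¹.val).trace = q.val.val.trace
    rw [trace_mul_cycle, Units.inv_mul, one_mul]

end Cfsg.Agent.D4
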