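import Cfsg.Agent.D4.Defs3
import Cfsg.Agent.H68.PLift

/-!
Characteristic three without transvections: the Sylow `3`-subgroups are abelian.
-/

set_option autoImplicit false

open Matrix
open scoped MatrixGroups

namespace Cfsg.Agent.D4.LQ

variable {K : Type*} [Field K] {Γ X : Type*} [Group Γ] [Group X] {ρ : Γ →* M4 K} {π : Γ →* X}

theorem notv_cnj (n : NoTv ρ) (C : (M4 K)ˣ) : NoTv (cnj ρ C) := fun v φ h =>
  n (C.val *ᵥ v) (φ ᵥ* C⁻¹.val) ⟨by simpa [cnj_cnj_inv] using h.1.cnj C⁻¹,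
    fun e => h.2.1 (units_mulVec_inj C (by simpa using e)),
    fun e => h.2.2 (vecMul_units_inj C⁻¹ (by simpa using e))⟩

theorem notv_one (n : NoTv ρ) {g : Γ} {v φ : V4 K} (h0 : φ ⬝ᵥ v = 0) (e : ρ g = 1 + vecMulVec v φ) : ρ g = 1 := by
  by_contra h1
  exact n _ _ ⟨⟨h0, g, e⟩, fun k => h1 (by rw [e, k]; simp), fun k => h1 (by rw [e, k]; simp)⟩

/-- unitriangular matrices -/
def um (a b c d e f : K) : M4 K := !![1, a, d, f; 0, 1, b, e; 0, 0, 1, c; 0, 0, 0, 1]

theorem um_mul (a b c d e f a' b' c' d' e' f' : K) : um a b c d e f * um a' b' c' d' e' f' =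
    um (a + a') (b + b') (c + c') (d + d' + a * b') (e + e' + b * c') (f + f' + a * e' + d * c') := by
  ext i j
  fin_cases i <;> fin_cases j <;> simp [um, mul_apply, Fin.sum_univ_four] <;> ring

theorem um_one : (1 : M4 K) = um 0 0 0 0 0 0 := by
  ext i j
  fin_cases i <;> fin_cases j <;> rfl

theorem um_inj {a b c d e f a' b' c' d' e' f' : K} (h : um a b c d e f = um a' b' c' d' e' f') :
    a = a' ∧ b = b' ∧ c = c' ∧ d = d' ∧ e = e' ∧ f = f' :=
  ⟨congrFun₂ h 0 1, congrFun₂ h 1 2, congrFun₂ h 2 3, congrFun₂ h 0 2, congrFun₂ h 1 3, congrFun₂ h 0 3⟩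

theorem notv_row (n : NoTv ρ) {g : Γ} {a d f : K} (h : ρ g = um a 0 0 d 0 f) : ρ g = 1 :=
  notv_one n (v := ![1, 0, 0, 0]) (φ := ![0, a, d, f]) (by simp [dotProduct, Fin.sum_univ_four]) (by
    rw [h]
    ext i j
    fin_cases i <;> fin_cases j <;> simp [um, vecMulVec])

theorem notv_col (n : NoTv ρ) {g : Γ} {c e f : K} (h : ρ g = um 0 0 c 0 e f) : ρ g = 1 :=
  notv_one n (v := ![f, e, c, 0]) (φ := ![0, 0, 0, 1]) (by simp [dotProduct, Fin.sum_univ_four]) (by
    rw [h]
    ext i j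
    fin_cases i <;> fin_cases j <;> simp [um, vecMulVec])

theorem exists_flag [Finite Γ] (p : ℕ) [Fact p.Prime] [CharP K p] (ρ : Γ →* M4 K) {P : Subgroup Γ}
    (hP : IsPGroup p P) : ∃ C : (M4 K)ˣ, ∀ g ∈ P, ∃ a b c d e f, cnj ρ C g = um a b c d e f := by
  have step : ∀ {k : ℕ} (E : Fin k → V4 K), k < 4 →
      (∀ g ∈ P, ∀ i, ρ g *ᵥ E i ∈ Submodule.span K (Set.range E)) →
      ∃ v, v ∉ Submodule.span K (Set.range E) ∧ ∀ g ∈ P, ρ g *ᵥ v - v ∈ Submodule.span K (Set.range E) := by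
    intro k E hk hE
    obtain ⟨v, -, h1, h2⟩ := H68.exists_fixed_mod (p := p) (F := K)
      ((toLinAlgEquiv' : M4 K ≃ₐ[K] _).toMulEquiv.toMonoidHom.comp ρ) hP (Submodule.span K (Set.range E)) ⊤
      (fun g hg v hv => by
        have : Submodule.span K (Set.range E) ≤ (Submodule.span K (Set.range E)).comap (toLin' (ρ g)) :=
          Submodule.span_le.2 (by rintro _ ⟨i, rfl⟩; exact hE g hg i)
        exact this hv) (fun _ _ _ _ => trivial) (fun h => by
        have := finrank_range_le_card (R := K) E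
        rw [Set.finrank, top_le_iff.1 h] at this
        simp at this
        omega)
    exact ⟨v, h1, h2⟩
  obtain ⟨v0, n0, f0⟩ := step ![] (by norm_num) (fun _ _ i => i.elim0)
  simp only [Matrix.range_empty, Submodule.span_empty, Submodule.mem_bot, sub_eq_zero] at n0 f0
  obtain ⟨v1, n1, f1⟩ := step ![v0] (by norm_num) (fun g hg i => by
    fin_cases i
    exact Submodule.subset_span ⟨0, (f0 g hg).symm⟩)
  simp only [Submodule.mem_span_range_iff_exists_fun, Fin.sum_univ_succ, Fin.sum_univ_zero, cons_val_zero,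
    add_zero, not_exists] at n1 f1
  obtain ⟨v2, n2, f2⟩ := step ![v0, v1] (by norm_num) (fun g hg i => by
    rw [Submodule.mem_span_range_iff_exists_fun]
    fin_cases i
    · exact ⟨![1, 0], by simp [f0 g hg]⟩
    · obtain ⟨c, e⟩ := f1 g hg
      exact ⟨![c 0, 1], by simp [e]⟩)
  simp only [Submodule.mem_span_range_iff_exists_fun, Fin.sum_univ_succ, Fin.sum_univ_zero, cons_val_zero,
    cons_val_succ, add_zero, not_exists] at n2 f2
  obtain ⟨v3, n3, f3⟩ := step ![v0, v1, v2] (by norm_num) (fun g hg i => by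
    rw [Submodule.mem_span_range_iff_exists_fun]
    fin_cases i
    · exact ⟨![1, 0, 0], by simp [Fin.sum_univ_succ, f0 g hg]⟩
    · obtain ⟨c, e⟩ := f1 g hg
      exact ⟨![c 0, 1, 0], by simp [Fin.sum_univ_succ, e]⟩
    · obtain ⟨c, e⟩ := f2 g hg
      exact ⟨![c 0, c 1, 1], by simp [Fin.sum_univ_succ, ← add_assoc]; exact (sub_eq_iff_eq_add.1 e.symm).symm⟩)
  simp only [Submodule.mem_span_range_iff_exists_fun, Fin.sum_univ_succ, Fin.sum_univ_zero, cons_val_zero,
    cons_val_succ, add_zero, not_exists] at n3 f3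
  let E : Fin 4 → V4 K := ![v0, v1, v2, v3]
  have hE : ∀ v, (of E)ᵀ *ᵥ v = v 0 • v0 + v 1 • v1 + v 2 • v2 + v 3 • v3 := fun v => by
    rw [mulVec_transpose, vecMul_eq_sum, Fin.sum_univ_four]; rfl
  have u : IsUnit (of E)ᵀ := mulVec_injective_iff_isUnit.1 ((injective_iff_map_eq_zero
    (toLin' (of E)ᵀ)).2 fun v hv => by
      rw [toLin'_apply, hE] at hv
      have e3 : v 3 = 0 := by_contra fun e => n3 ![-(v 0 / v 3), -(v 1 / v 3), -(v 2 / v 3)] (by
        rw [← smul_right_inj e]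
        simp [smul_smul, mul_div_cancel₀ _ e]
        linear_combination (norm := module) -hv)
      rw [e3, zero_smul, add_zero] at hv
      have e2 : v 2 = 0 := by_contra fun e => n2 ![-(v 0 / v 2), -(v 1 / v 2)] (by
        rw [← smul_right_inj e]
        simp [smul_smul, mul_div_cancel₀ _ e]
        linear_combination (norm := module) -hv)
      rw [e2, zero_smul, add_zero] at hv
      have e1 : v 1 = 0 := by_contra fun e => n1 ![-(v 0 / v 1)] (by
        rw [← smul_right_inj e]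
        simp [smul_smul, mul_div_cancel₀ _ e]
        linear_combination (norm := module) -hv)
      rw [e1, zero_smul, add_zero, smul_eq_zero] at hv
      have e0 := hv.resolve_right n0
      ext i
      fin_cases i <;> assumption)
  obtain ⟨C, hC⟩ := u
  rw [← hC] at hE
  have k : ∀ g v w, ρ g *ᵥ (C.val *ᵥ v) = C.val *ᵥ w → cnj ρ C g *ᵥ v = w := fun g v w h =>
    units_mulVec_inj C (by
      rw [← h, cnj_apply, mulVec_mulVec, mulVec_mulVec, ← mul_assoc, ← mul_assoc, C.mul_inv, one_mul])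
  refine ⟨C, fun g hg => ?_⟩
  obtain ⟨c1, e1⟩ := f1 g hg
  obtain ⟨c2, e2⟩ := f2 g hg
  obtain ⟨c3, e3⟩ := f3 g hg
  refine ⟨c1 0, c2 1, c3 2, c2 0, c3 1, c3 0, (ext_iff_mulVec).2 fun v => k _ _ _ ?_⟩
  rw [hE, hE]
  simp only [mulVec_add, mulVec_smul, f0 g hg, sub_eq_iff_eq_add.1 e1.symm, sub_eq_iff_eq_add.1 e2.symm,
    sub_eq_iff_eq_add.1 e3.symm]
  simp [um, mulVec, dotProduct, Fin.sum_univ_four]
  module

theorem three_sub {P : Subgroup Γ} (h3 : (3 : K) = 0) (a b c : Γ → K)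
    (ha : ∀ g ∈ P, ∀ k ∈ P, a (g * k) = a g + a k) (hb : ∀ g ∈ P, ∀ k ∈ P, b (g * k) = b g + b k)
    (hc : ∀ g ∈ P, ∀ k ∈ P, c (g * k) = c g + c k) (h : ∀ g ∈ P, a g * b g * c g = 0) :
    (∀ g ∈ P, a g = 0) ∨ (∀ g ∈ P, b g = 0) ∨ ∀ g ∈ P, c g = 0 := by
  by_contra hn
  push Not at hn
  obtain ⟨⟨x, hx, ax⟩, ⟨y, hy, by'⟩, ⟨z, hz, cz⟩⟩ := hn
  have k2 : (2 : K) ≠ 0 := fun e => one_ne_zero (α := K) (by linear_combination h3 - e)
  obtain ⟨u, hu, au, bu⟩ : ∃ u ∈ P, a u ≠ 0 ∧ b u ≠ 0 := by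
    by_cases e1 : b x = 0
    · by_cases e2 : a y = 0
      · exact ⟨x * y, P.mul_mem hx hy, by rwa [ha x hx y hy, e2, add_zero], by rwa [hb x hx y hy, e1, zero_add]⟩
      · exact ⟨y, hy, e2, by'⟩
    · exact ⟨x, hx, ax, e1⟩
  have cu : c u = 0 := (mul_eq_zero.1 (h u hu)).resolve_left (mul_ne_zero au bu)
  have huz := P.mul_mem hu hz
  have h0 := h z hz
  have h1 := h _ huz
  have h2 := h _ (P.mul_mem hu huz)
  rw [ha u hu _ huz, hb u hu _ huz, hc u hu _ huz] at h2
  rw [ha u hu z hz, hb u hu z hz, hc u hu z hz, cu, zero_add] at h1 h2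
  rw [zero_add] at h2
  have g0 := (mul_eq_zero.1 h0).resolve_right cz
  have g1 := (mul_eq_zero.1 h1).resolve_right cz
  have g2 := (mul_eq_zero.1 h2).resolve_right cz
  exact mul_ne_zero k2 (mul_ne_zero au bu) (by linear_combination g0 - 2 * g1 + g2)

theorem syl3_tri (hi : Function.Injective ρ) (n : NoTv ρ) (h3 : (3 : K) = 0) {P : Subgroup Γ}
    (sh : ∀ g ∈ P, ∃ a b c d e f, ρ g = um a b c d e f) {x y : Γ} (hx : x ∈ P) (hy : y ∈ P) :
    x * y = y * x := by
  have add : ∀ i j : Fin 4, (i, j) ∈ [(0, 1), (1, 2), (2, 3)] → ∀ g ∈ P, ∀ k ∈ P,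
      ρ (g * k) i j = ρ g i j + ρ k i j := by
    intro i j hij g hg k hk
    obtain ⟨a, b, c, d, e, f, h⟩ := sh g hg
    obtain ⟨a', b', c', d', e', f', h'⟩ := sh k hk
    rw [map_mul, h, h', um_mul]
    simp only [List.mem_cons, Prod.mk.injEq, List.not_mem_nil, or_false] at hij
    rcases hij with ⟨rfl, rfl⟩ | ⟨rfl, rfl⟩ | ⟨rfl, rfl⟩ <;> rfl
  have cm : ∀ {g k : Γ}, g ∈ P → k ∈ P → ∀ {a b c d e f a' b' c' d' e' f' : K}, ρ g = um a b c d e f →
      ρ k = um a' b' c' d' e' f' → ∃ t, ρ (g * k * g⁻¹ * k⁻¹) = um 0 0 0 (a * b' - a' * b) (b * c' - b' * c) t ∧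
        t = a * e' + d * c' - a' * e - d' * c - (a * b' - a' * b) * (c + c') := by
    intro g k hg hk a b c d e f a' b' c' d' e' f' h h'
    obtain ⟨a2, b2, c2, d2, e2, f2, h2⟩ := sh _ (P.mul_mem (P.mul_mem (P.mul_mem hg hk) (P.inv_mem hg)) (P.inv_mem hk))
    have : ρ (g * k * g⁻¹ * k⁻¹) * (ρ k * ρ g) = ρ g * ρ k := by
      simp only [← map_mul]; congr 1; group
    rw [h2, h, h', um_mul, um_mul, um_mul] at this
    obtain ⟨k1, k2, k3, k4, k5, k6⟩ := um_inj this
    obtain rfl : a2 = 0 := by linear_combination k1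
    obtain rfl : b2 = 0 := by linear_combination k2
    obtain rfl : c2 = 0 := by linear_combination k3
    obtain rfl : d2 = a * b' - a' * b := by linear_combination k4
    obtain rfl : e2 = b * c' - b' * c := by linear_combination k5
    exact ⟨f2, h2, by linear_combination k6⟩
  have fin : ρ (x * y * x⁻¹ * y⁻¹) = 1 → x * y = y * x := fun e => by
    have := hi (e.trans (map_one ρ).symm)
    rwa [mul_inv_eq_one, mul_inv_eq_iff_eq_mul] at this
  have hw := P.mul_mem (P.mul_mem (P.mul_mem hx hy) (P.inv_mem hx)) (P.inv_mem hy)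
  obtain ⟨a, b, c, d, e, f, h⟩ := sh x hx
  obtain ⟨a', b', c', d', e', f', h'⟩ := sh y hy
  obtain ⟨t, ht, et⟩ := cm hx hy h h'
  rcases three_sub (P := P) h3 (fun g => ρ g 0 1) (fun g => ρ g 1 2) (fun g => ρ g 2 3) (add 0 1 (by simp))
    (add 1 2 (by simp)) (add 2 3 (by simp)) (fun g hg => by
      obtain ⟨a, b, c, d, e, f, h⟩ := sh g hg
      have e3 : ρ (g * g * g) = um 0 0 0 0 0 (a * b * c) := by
        rw [map_mul, map_mul, h, um_mul, um_mul]
        congr 1
        · linear_combination a * h3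
        · linear_combination b * h3
        · linear_combination c * h3
        · linear_combination (d + a * b) * h3
        · linear_combination (e + b * c) * h3
        · linear_combination (f + a * e + d * c) * h3
      have := um_inj ((e3.symm.trans (notv_row n e3)).trans um_one)
      rw [h]
      exact this.2.2.2.2.2) with z | z | z
  · have a0 : a = 0 := by simpa [h, um] using z x hx
    have a0' : a' = 0 := by simpa [h', um] using z y hy
    subst a0 a0'
    simp only [zero_mul, sub_self] at ht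
    exact fin (notv_col n ht)
  · have b0 : b = 0 := by simpa [h, um] using z x hx
    have b0' : b' = 0 := by simpa [h', um] using z y hy
    subst b0 b0'
    simp only [zero_mul, mul_zero, sub_self] at ht
    exact fin (notv_col n ht)
  · have c0 : c = 0 := by simpa [h, um] using z x hx
    have c0' : c' = 0 := by simpa [h', um] using z y hy
    subst c0 c0'
    simp only [mul_zero, sub_self] at ht
    exact fin (notv_row n ht)

theorem syl3 [Finite Γ] (hi : Function.Injective ρ) (n : NoTv ρ) (h3 : (3 : K) = 0) {P : Subgroup Γ}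
    (hP : IsPGroup 3 P) {a b : Γ} (ha : a ∈ P) (hb : b ∈ P) : a * b = b * a := by
  haveI : Fact (Nat.Prime 3) := ⟨by norm_num⟩
  haveI : CharP K 3 := (CharP.charP_iff_prime_eq_zero (by norm_num)).2 (by simpa using h3)
  obtain ⟨C, hC⟩ := exists_flag 3 ρ hP
  refine syl3_tri (ρ := cnj ρ C) (fun x y e => hi ?_) (notv_cnj n C) h3 hC ha hb
  have := congrArg (fun M => C.val * M * C⁻¹.val) e
  simpa [cnj_apply, mul_assoc] using this

end Cfsg.Agent.D4.LQ
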