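import Cfsg.Agent.D4.Defs3

/-!
Finite Jordan division rings of `2 × 2` matrices are commutative.
-/

set_option autoImplicit false

open Matrix
open scoped MatrixGroups

namespace Cfsg.Agent.D4

namespace LQ2

variable {K : Type*} [Field K]

theorem sq_of_tr {w : Matrix (Fin 2) (Fin 2) K} (h : w.trace = 0) : w * w = (-w.det) • 1 := by
  rw [trace_fin_two] at h
  have e : w 1 1 = -w 0 0 := by linear_combination h
  ext i j
  fin_cases i <;> fin_cases j <;> simp [mul_apply, det_fin_two, e] <;> ring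

theorem par {b : Matrix (Fin 2) (Fin 2) K} {v w : Fin 2 → K} (hb : b ≠ 0) (hv : v ≠ 0)
    (h1 : b *ᵥ v = 0) (h2 : b *ᵥ w = 0) : ∃ c : K, w = c • v := by
  have hD : v 0 * w 1 = v 1 * w 0 := by
    by_contra hD
    apply hb
    have hD' : v 0 * w 1 - v 1 * w 0 ≠ 0 := sub_ne_zero.2 hD
    ext i j
    have a1 := congrFun h1 i
    have a2 := congrFun h2 i
    simp only [mulVec, dotProduct, Fin.sum_univ_two, Pi.zero_apply] at a1 a2
    fin_cases j
    · exact mul_right_cancel₀ hD' (by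
        simp only [Fin.zero_eta, Fin.isValue, Matrix.zero_apply]
        linear_combination w 1 * a1 - v 1 * a2)
    · exact mul_right_cancel₀ hD' (by
        simp only [Fin.mk_one, Fin.isValue, Matrix.zero_apply]
        linear_combination v 0 * a2 - w 0 * a1)
  by_cases h0 : v 0 = 0
  · have h1' : v 1 ≠ 0 := fun e => hv (by ext i; fin_cases i <;> simp [h0, e])
    refine ⟨w 1 / v 1, ?_⟩
    have : w 0 = 0 := by
      rw [h0, zero_mul] at hD
      exact (mul_eq_zero.1 hD.symm).resolve_left h1'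
    ext i; fin_cases i <;> simp [h0, this, h1']
  · refine ⟨w 0 / v 0, ?_⟩
    ext i; fin_cases i
    · simp [h0]
    · simp only [Fin.mk_one, Fin.isValue, Pi.smul_apply, smul_eq_mul]
      field_simp
      linear_combination hD

variable {M : AddSubgroup (Matrix (Fin 2) (Fin 2) K)}

theorem hua (hi : ∀ a ∈ M, a ≠ 0 → ∃ b ∈ M, a * b = 1) {a b : Matrix (Fin 2) (Fin 2) K}
    (ha : a ∈ M) (hb : b ∈ M) : a * b * a ∈ M := by
  by_cases a0 : a = 0
  · simp [a0]
  by_cases b0 : b = 0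
  · simp [b0]
  obtain ⟨a', ha', ea⟩ := hi a ha a0
  obtain ⟨b', hb', eb⟩ := hi b hb b0
  have ea' := mul_eq_one_comm.1 ea
  have eb' := mul_eq_one_comm.1 eb
  by_cases c0 : b' - a = 0
  · rw [← sub_eq_zero.1 c0, eb', one_mul]
    exact hb'
  obtain ⟨d, hd, ed⟩ := hi _ (M.sub_mem hb' ha) c0
  have ed' := mul_eq_one_comm.1 ed
  have e1 : (a' + d) * (a - a * b * a) = 1 := by
    have : a - a * b * a = (b' - a) * (b * a) := by
      rw [sub_mul, ← mul_assoc, eb', one_mul, mul_assoc]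
    calc (a' + d) * (a - a * b * a) = a' * (a - a * b * a) + d * ((b' - a) * (b * a)) := by
          rw [add_mul, ← this]
      _ = 1 := by
          rw [← mul_assoc d, ed', one_mul, mul_sub, ea', mul_assoc a, ← mul_assoc a', ea', one_mul,
            sub_add_cancel]
  obtain ⟨e, he, ee⟩ := hi _ (M.add_mem ha' hd) (fun z => by simp [z] at e1)
  have : e = a - a * b * a := by
    rw [← mul_one e, ← e1, ← mul_assoc, mul_eq_one_comm.1 ee, one_mul]
  simpa [this] using M.sub_mem ha he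

/-- The scalars in `M`. -/
def k0 (h1 : 1 ∈ M) (hh : ∀ a ∈ M, ∀ c : K, c • (1 : Matrix (Fin 2) (Fin 2) K) ∈ M → c • a ∈ M)
    (hi : ∀ a ∈ M, a ≠ 0 → ∃ b ∈ M, a * b = 1) : Subfield K where
  carrier := {c | c • (1 : Matrix (Fin 2) (Fin 2) K) ∈ M}
  one_mem' := by simpa using h1
  zero_mem' := by simp
  add_mem' ha hb := by simpa [add_smul] using M.add_mem ha hb
  neg_mem' ha := by simpa using ha
  mul_mem' {a b} ha hb := by simpa [mul_smul] using hh _ hb a ha
  inv_mem' c hc := by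
    by_cases c0 : c = 0
    · simp [c0]
    obtain ⟨b, hb, e⟩ := hi _ hc (by simpa using c0)
    have : b = c⁻¹ • 1 := by
      rw [smul_mul_assoc, one_mul] at e
      rw [← e, smul_smul, inv_mul_cancel₀ c0, one_smul]
    rwa [this] at hb

theorem comm (h2 : (2 : K) ≠ 0) [Finite M] (h1 : 1 ∈ M)
    (hi : ∀ a ∈ M, a ≠ 0 → ∃ b ∈ M, a * b = 1) {a m : Matrix (Fin 2) (Fin 2) K}
    (ha : a ∈ M) (hm : m ∈ M) : a * m = m * a := by
  classical
  have sq : ∀ a ∈ M, a * a ∈ M := fun a ha => by simpa using hua hi ha h1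
  have jo : ∀ a ∈ M, ∀ b ∈ M, a * b + b * a ∈ M := fun a ha b hb => by
    have := M.sub_mem (M.sub_mem (sq _ (M.add_mem ha hb)) (sq a ha)) (sq b hb)
    convert this using 1
    noncomm_ring
  have pw : ∀ n, a ^ n ∈ M ∧ a ^ (n + 1) ∈ M := fun n => by
    induction n with
    | zero => simpa using ⟨h1, ha⟩
    | succ n ih =>
      refine ⟨ih.2, ?_⟩
      have := hua hi ha ih.1
      rwa [← pow_succ', ← pow_succ] at this
  have half : ∀ a ∈ M, (2 : K)⁻¹ • a ∈ M := fun a ha => by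
    have inj : Function.Injective fun x : M => x + x := fun x y e => Subtype.ext (by
      have := congrArg Subtype.val e
      simp only [AddSubgroup.coe_add, ← two_smul K] at this
      exact smul_right_injective _ h2 this)
    obtain ⟨x, hx⟩ := Finite.surjective_of_injective inj ⟨a, ha⟩
    have := congrArg Subtype.val hx
    simp only [AddSubgroup.coe_add, ← two_smul K] at this
    rw [← this, smul_smul, inv_mul_cancel₀ h2, one_smul]
    exact x.2
  have hh : ∀ a ∈ M, ∀ c : K, c • (1 : Matrix (Fin 2) (Fin 2) K) ∈ M → c • a ∈ M :=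
    fun a ha c hc => by
      have := half _ (jo a ha _ hc)
      rwa [mul_smul_comm, smul_mul_assoc, mul_one, one_mul, ← two_smul K, smul_smul,
        inv_mul_cancel₀ h2, one_smul] at this
  set k := k0 h1 hh hi
  have mk : ∀ {c : K}, c ∈ k ↔ c • (1 : Matrix (Fin 2) (Fin 2) K) ∈ M := Iff.rfl
  have : Finite k := Finite.of_injective (fun c : k => (⟨c.1 • 1, c.2⟩ : M)) fun x y e =>
    Subtype.ext (by simpa using congrFun (congrFun (congrArg Subtype.val e) 0) 0)
  have := Fintype.ofFinite k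
  obtain ⟨s, a0, rfl, t0⟩ : ∃ (s : K) (a0 : Matrix (Fin 2) (Fin 2) K), a = s • 1 + a0 ∧
      a0.trace = 0 := ⟨a.trace / 2, a - (a.trace / 2) • 1, by simp, by
        simp only [trace_sub, trace_smul, trace_one, Fintype.card_fin, smul_eq_mul]
        field_simp; simp⟩
  by_contra hne
  set w := a0 * m - m * a0 with hw
  have w0 : w ≠ 0 := fun e => hne (by
    rw [add_mul, mul_add, sub_eq_zero.1 e]; simp)
  obtain ⟨ε, hε⟩ : ∃ ε : K, a0 * a0 = ε • 1 := ⟨_, sq_of_tr t0⟩
  have ε0 : ε ≠ 0 := by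
    rintro rfl
    rw [zero_smul] at hε
    obtain ⟨p, hp⟩ := CharP.exists k
    obtain ⟨n, pp, hn⟩ := FiniteField.card k p
    have := Fact.mk pp
    have : CharP K p := (RingHom.charP_iff k.subtype k.subtype.injective p).1 hp
    have pa : ∀ j : ℕ, (s • 1 + a0) ^ (j + 1) = s ^ (j + 1) • 1 + (((j : K) + 1) * s ^ j) • a0 :=
      fun j => by
        induction j with
        | zero => simp
        | succ j ih =>
          rw [pow_succ, ih]
          simp only [add_mul, mul_add, smul_mul_assoc, mul_smul_comm, one_mul, mul_one, hε,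
            smul_zero, add_zero, smul_smul]
          push_cast
          module
    have hq : 0 < p ^ (n : ℕ) := pow_pos pp.pos _
    have e1 := pa (p ^ (n : ℕ) - 1)
    have e2 : ((p ^ (n : ℕ) - 1 : ℕ) : K) + 1 = 0 := by
      rw [← Nat.cast_succ, Nat.succ_eq_add_one, Nat.sub_add_cancel hq]
      simp [n.ne_zero]
    rw [e2, Nat.sub_add_cancel hq, zero_mul, zero_smul, add_zero] at e1
    have e3 : s ^ p ^ (n : ℕ) ∈ k := mk.2 (e1 ▸ (pw _).1)
    have e4 := congrArg Subtype.val (FiniteField.pow_card (⟨_, e3⟩ : k))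
    rw [hn] at e4
    simp only [SubmonoidClass.coe_pow] at e4
    have e5 : s ^ p ^ (n : ℕ) = s := by
      have := sub_pow_char_pow (p := p) (n := n) (s ^ p ^ (n : ℕ)) s
      rw [e4, sub_self] at this
      exact sub_eq_zero.1 (pow_eq_zero_iff hq.ne' |>.1 this)
    rw [e5] at e3
    have ha0 : a0 ∈ M := by simpa using M.sub_mem ha (mk.1 e3)
    obtain ⟨b, -, eb⟩ := hi a0 ha0 (fun e => w0 (by simp [hw, e]))
    apply w0
    have : a0 = 0 := by rw [← mul_one a0, ← eb, ← mul_assoc, hε, zero_mul]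
    simp [hw, this]
  have aw : a0 * w = -(w * a0) := by
    rw [hw, mul_sub, sub_mul, ← mul_assoc, hε, mul_assoc m, hε, mul_assoc]; simp
  set n := (2 : K) • (a0 * w) with hn
  have hnM : n ∈ M := by
    have := M.sub_mem (jo _ (sq _ ha) m hm) (M.add_mem (hua hi ha hm) (hua hi ha hm))
    convert this using 1
    rw [hn, two_smul]
    nth_rewrite 2 [aw]
    simp only [hw, add_mul, mul_add, smul_mul_assoc, mul_smul_comm, one_mul, mul_one, mul_sub,
      sub_mul, mul_assoc, smul_add]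
    module
  have n0 : n ≠ 0 := fun e => w0 (by
    have e1 : a0 * w = 0 := by simpa [hn, h2] using e
    have : a0 * (a0 * w) = 0 := by rw [e1, mul_zero]
    rw [← mul_assoc, hε] at this
    simpa [ε0] using this)
  have an : a0 * n = -(n * a0) := by
    rw [hn, mul_smul_comm, smul_mul_assoc, ← smul_neg, mul_assoc, ← mul_neg, ← aw]
  have tn : n.trace = 0 := by
    have : (a0 * w).trace = -(a0 * w).trace := by
      nth_rewrite 1 [aw]; rw [trace_neg, trace_mul_comm]
    rw [hn, trace_smul, smul_eq_mul]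
    linear_combination this
  obtain ⟨δ, hδ⟩ : ∃ δ : K, n * n = δ • 1 := ⟨_, sq_of_tr tn⟩
  have δ0 : δ ≠ 0 := by
    rintro rfl
    obtain ⟨b, -, eb⟩ := hi n hnM n0
    exact n0 (by rw [← mul_one n, ← eb, ← mul_assoc, hδ, zero_smul, zero_mul])
  have δk : δ ∈ k := mk.2 (hδ ▸ sq n hnM)
  have ha0 : a0 ∈ M := by
    have e1 : n * (s • 1 + a0) * n = δ • (s • 1 - a0) := by
      rw [mul_add, add_mul, mul_assoc n a0, an, mul_neg, ← mul_assoc, hδ]
      simp only [mul_smul_comm, smul_mul_assoc, mul_one, hδ, one_mul]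
      module
    have e2 := hh _ (e1 ▸ hua hi hnM ha) _ (mk.1 (k.inv_mem δk))
    rw [smul_smul, inv_mul_cancel₀ δ0, one_smul] at e2
    have := half _ (M.sub_mem ha e2)
    rwa [show s • 1 + a0 - (s • 1 - a0) = (2 : K) • a0 by module, smul_smul, inv_mul_cancel₀ h2,
      one_smul] at this
  have εk : ε ∈ k := mk.2 (hε ▸ sq a0 ha0)
  have odd : Fintype.card k % 2 = 1 := FiniteField.odd_card_of_char_ne_two fun e => h2 (by
    have : ((ringChar k : ℕ) : k) = 0 := ringChar.Nat.cast_ringChar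
    rw [e] at this
    exact congrArg Subtype.val this)
  obtain ⟨y, z, e⟩ := FiniteField.exists_root_sum_quadratic
    (f := Polynomial.C (⟨ε, εk⟩ : k) * Polynomial.X ^ 2)
    (g := Polynomial.C (⟨δ, δk⟩ : k) * Polynomial.X ^ 2 + Polynomial.C 0 * Polynomial.X +
      Polynomial.C (-1))
    (Polynomial.degree_C_mul_X_pow 2 fun e => ε0 (congrArg Subtype.val e))
    (Polynomial.degree_quadratic fun e => δ0 (congrArg Subtype.val e)) odd
  have e' : ε * y.1 ^ 2 + δ * z.1 ^ 2 - 1 = 0 := by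
    simpa [add_assoc, sub_eq_add_neg] using congrArg Subtype.val e
  set u := y.1 • a0 + z.1 • n with hu
  have huM : u ∈ M := M.add_mem (hh _ ha0 _ (mk.1 y.2)) (hh _ hnM _ (mk.1 z.2))
  have tu : u.trace = 0 := by simp [hu, t0, tn]
  have uu : u * u = 1 := by
    simp only [hu, add_mul, mul_add, smul_mul_assoc, mul_smul_comm, hε, hδ, an, smul_smul]
    rw [← sub_eq_zero]
    calc _ = (ε * y.1 ^ 2 + δ * z.1 ^ 2 - 1) • (1 : Matrix (Fin 2) (Fin 2) K) := by module
      _ = 0 := by rw [e', zero_smul]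
  obtain ⟨b, -, eb⟩ := hi _ (M.add_mem h1 huM) fun e => h2 (by
    simpa [tu] using congrArg trace e)
  have : 1 - u = 0 := by
    have e1 : (1 - u) * (1 + u) = 0 := by
      rw [mul_add, sub_mul, sub_mul, uu]; simp
    calc 1 - u = (1 - u) * ((1 + u) * b) := by rw [eb, mul_one]
      _ = 0 := by rw [← mul_assoc, e1, zero_mul]
  exact h2 (by simpa [tu] using congrArg trace this)

end LQ2

variable {K : Type*} [Field K] [IsAlgClosed K]

theorem jordan_eig (lf : LF K) (h2 : (2 : K) ≠ 0) (M : AddSubgroup (Matrix (Fin 2) (Fin 2) K))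
    [Finite M] (h1 : 1 ∈ M) (hi : ∀ a ∈ M, a ≠ 0 → ∃ b ∈ M, a * b = 1) :
    (∀ a ∈ M, ∀ b ∈ M, a * b * a ∈ M) ∧
      ∃ v : Fin 2 → K, v ≠ 0 ∧ ∀ a ∈ M, ∃ c : K, a *ᵥ v = c • v := by
  refine ⟨fun a ha b hb => LQ2.hua hi ha hb, ?_⟩
  by_cases hs : ∀ a ∈ M, ∃ c : K, a = c • 1
  · refine ⟨Pi.single 0 1, by simp, fun a ha => ?_⟩
    obtain ⟨c, rfl⟩ := hs a ha
    exact ⟨c, by rw [smul_mulVec, one_mulVec]⟩
  push Not at hs
  obtain ⟨a, ha, hs⟩ := hs
  obtain ⟨l, hl⟩ := Module.End.exists_eigenvalue (toLin' a)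
  obtain ⟨v, hv⟩ := hl.exists_hasEigenvector
  have e := hv.apply_eq_smul
  rw [toLin'_apply] at e
  refine ⟨v, hv.2, fun m hm => LQ2.par (b := a - l • 1) (sub_ne_zero.2 (hs l)) hv.2 ?_ ?_⟩
  · rw [sub_mulVec, e, smul_mulVec, one_mulVec, sub_self]
  · rw [sub_mulVec, mulVec_mulVec, LQ2.comm h2 h1 hi ha hm, ← mulVec_mulVec, e, smul_mulVec,
      one_mulVec, mulVec_smul, sub_self]

end Cfsg.Agent.D4
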