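import Cfsg.Agent.D4.Defs3

/-!
Lifting conjugacy from the simple group to the linear group.
-/

set_option autoImplicit false

open Matrix
open scoped MatrixGroups

namespace Cfsg.Agent.D4

variable {K : Type*} [Field K] {Γ X : Type*} [Group Γ] [Group X] {ρ : Γ →* M4 K} {π : Γ →* X}

theorem lift_four {a b c d κ : K} (h2 : (2 : K) ≠ 0) (ha : a * a = κ) (hb : b * b = κ)
    (hc : c * c = -κ) (hd : d * d = -κ) (e : a * b * c * d = 1) :
    a + b + c + d = 0 ∨ (κ * κ = 1 ∧ ((a + b + c + d) / 2) ^ 4 = 1) ∨ (a = b ∧ c = d) := by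
  rcases mul_self_eq_mul_self_iff.1 (hb.trans ha.symm) with rfl | rfl <;>
    rcases mul_self_eq_mul_self_iff.1 (hd.trans hc.symm) with rfl | rfl
  · exact Or.inr (Or.inr ⟨rfl, rfl⟩)
  · have k : κ * κ = 1 := by linear_combination e + c * c * ha + κ * hc
    refine Or.inr (Or.inl ⟨k, ?_⟩)
    rw [show (b + b + c + -c) / 2 = b by field_simp; ring]
    linear_combination (b * b + κ) * ha + k
  · have k : κ * κ = 1 := by linear_combination e + d * d * ha + κ * hc
    refine Or.inr (Or.inl ⟨k, ?_⟩)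
    rw [show (a + -a + d + d) / 2 = d by field_simp; ring]
    linear_combination (d * d - κ) * hc + k
  · exact Or.inl (by ring)

theorem Hyp.lift_comm (h : Hyp ρ π) {t : Γ} (ht : π (t * t) = 1) {y : Γ}
    (hy : Commute (π y) (π t)) : y * t = t * y ∨ ρ (y * t) = -ρ (t * y) := by
  obtain ⟨z, hz, e⟩ := h.exists_ker_of_eq (a := y * t * y⁻¹) (b := t) (by
    rw [map_mul, map_mul, map_inv, hy.eq, mul_inv_cancel_right])
  have e1 : z * z = 1 := by
    have e2 : y * t * y⁻¹ * (y * t * y⁻¹) = t * t := by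
      calc y * t * y⁻¹ * (y * t * y⁻¹) = y * (t * t) * y⁻¹ := by group
        _ = t * t := by rw [← h.ker_comm ht, mul_inv_cancel_right]
    rw [e, mul_assoc, ← mul_assoc t, ← h.ker_comm hz, mul_assoc z t, ← mul_assoc] at e2
    exact mul_eq_right.1 e2
  obtain ⟨c, hc⟩ := (h.ker z).1 hz
  have e3 : c * c = 1 * 1 := smul_one_inj (K := K) (by
    rw [mul_smul, ← hc, ← smul_one_mul, ← hc, ← map_mul, e1, map_one]; simp)
  have e4 : y * t = z * (t * y) := by rw [← mul_assoc, ← e, inv_mul_cancel_right]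
  rcases mul_self_eq_mul_self_iff.1 e3 with rfl | rfl
  · refine Or.inl (h.inj ?_)
    rw [e4, map_mul, hc, one_smul, one_mul]
  · refine Or.inr ?_
    rw [e4, map_mul, hc]; simp

variable [IsAlgClosed K] [Finite Γ]

theorem Hyp.ker_two (h : Hyp ρ π) {Y : Type} [Group Y] (e : X ≃* Y) {A : Type}
    [CommGroup A] (hm : HasSchurMultiplier Y A) {n : ℕ} (hn : Odd n)
    (hA : ∀ a : A, a ^ (2 * n) = 1) {z : Γ} (hz : π z = 1) : z * z = 1 := by
  let s : Shrink.{0} Γ ≃* Γ := Shrink.mulEquiv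
  have : Finite (Shrink.{0} Γ) := Finite.of_equiv _ s.toEquiv.symm
  obtain ⟨f, hf⟩ := hm.2 (Shrink.{0} Γ) (e.toMonoidHom.comp (π.comp s.toMonoidHom))
    ⟨e.surjective.comp (h.surj.comp s.surjective), fun x hx => Subgroup.mem_center_iff.2 fun y =>
      s.injective (by
        rw [map_mul, map_mul, h.ker_comm (z := s x) (e.map_eq_one_iff.1 hx)]), fun x _ => by
      have := map_commutator_eq _ s.symm.toMonoidHom
      rw [h.perfect, MonoidHom.range_eq_top.2 s.symm.surjective, ← MonoidHom.range_eq_map,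
        MonoidHom.range_eq_top.2 s.symm.surjective] at this
      exact this.le (Subgroup.mem_top x)⟩
  obtain ⟨a, ha⟩ := hf ⟨s.symm z, by simp [hz]⟩
  have hc : Nat.Coprime n 4 := by
    simpa using (Nat.coprime_two_right.2 hn).pow_right 2
  refine h.ker_eq_one (by rw [map_mul, hz, one_mul]) hc (s.symm.injective ?_)
  have e2 := congrArg f (hA a)
  rw [map_pow, ha, map_one] at e2
  rw [← sq, ← pow_mul, map_pow, map_one]
  exact congrArg Subtype.val e2

theorem Hyp.real_lift (h : Hyp ρ π) (k2 : ∀ z, π z = 1 → z * z = 1)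
    (one : ∀ a b : X, orderOf a = 2 → orderOf b = 2 → IsConj a b) {g : Γ} {w : X}
    (hw : orderOf w = 2) (hw' : orderOf (w * π g) = 2) : IsConj g g⁻¹ := by
  obtain ⟨x, rfl⟩ := h.surj w
  obtain ⟨c, hc⟩ := isConj_iff.1 (one _ _ hw hw')
  obtain ⟨k, rfl⟩ := h.surj c
  have hx : π (x * x) = 1 := by rw [map_mul, ← sq, ← hw, pow_orderOf_eq_one]
  obtain ⟨z, hz, e⟩ := h.exists_ker_of_eq (a := x * g) (b := k * x * k⁻¹) (by
    rw [map_mul, map_mul, map_mul, map_inv, hc])
  have e1 : x * g * (x * g) = x * x := by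
    calc x * g * (x * g) = z * (k * x * k⁻¹ * z) * (k * x * k⁻¹) := by rw [e]; group
      _ = z * z * (k * (x * x) * k⁻¹) := by rw [← h.ker_comm hz]; group
      _ = x * x := by rw [k2 z hz, ← h.ker_comm hx]; group
  refine isConj_iff.2 ⟨x⁻¹, ?_⟩
  calc x⁻¹ * g * x⁻¹⁻¹ = x⁻¹ * x⁻¹ * (x * g * (x * g)) * g⁻¹ := by group
    _ = g⁻¹ := by rw [e1]; group

theorem Hyp.ord4 (h : Hyp ρ π) (n : NoRf ρ) (h2 : (2 : K) ≠ 0) {s : Γ}
    (hs : orderOf (π s) = 4) : (ρ s).trace = 0 ∨ (s ^ 4 = 1 ∧ ((ρ s).trace / 2) ^ 4 = 1) ∨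
    ∀ y y' : X, Commute y (π s ^ 2) → Commute y' (π s ^ 2) →
      Commute y (π s) ∨ Commute y' (π s) ∨ Commute (y * y') (π s) := by
  have h4 : π s ^ 4 = 1 := by rw [← hs, pow_orderOf_eq_one]
  obtain ⟨B, d, hd⟩ := exists_diag ρ (fun _ : Unit => s) (fun _ _ => rfl) fun _ =>
    ⟨4 * 4, by rw [show ((4 * 4 : ℕ) : K) = 2 ^ 4 by norm_num]; exact pow_ne_zero _ h2,
      h.ker_pow h4⟩
  replace hd := hd ()
  generalize d () = d at hd
  have hd2 : D4.cnj ρ B (s * s) = diagonal fun i => d i * d i := by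
    rw [map_mul, hd, diagonal_mul_diagonal]
  have ht : π (s * s * (s * s)) = 1 := by
    rw [← h4, ← map_pow]; congr 1; simp only [pow_succ, pow_zero, one_mul, mul_assoc]
  have ht1 : π (s * s) ≠ 1 := fun e => by
    have : orderOf (π s) ∣ 2 := orderOf_dvd_of_pow_eq_one (by rw [sq, ← map_mul, e])
    rw [hs] at this
    omega
  have dt := (h.cnj B).det s
  rw [hd, det_diagonal, Fin.prod_univ_four] at dt
  have tr : (ρ s).trace = d 0 + d 1 + d 2 + d 3 := by
    rw [← trace_cnj B, hd, trace_diagonal, Fin.sum_univ_four]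
  obtain ⟨κ, hκ, e⟩ := (h.cnj B).inv_wt (n.cnj B) h2 hd2 ht ht1
  have κ0 : κ ≠ -κ := fun e => by
    have : κ = 0 := (mul_eq_zero.1 (by linear_combination e : (2 : K) * κ = 0)).resolve_left h2
    simp [this] at hκ
  obtain ⟨i, j, k, l, al, hi, hj, hk, hl, pr, sm⟩ : ∃ i j k l : Fin 4,
      (∀ m, m = i ∨ m = j ∨ m = k ∨ m = l) ∧ d i * d i = κ ∧ d j * d j = κ ∧ d k * d k = -κ ∧
      d l * d l = -κ ∧ d i * d j * d k * d l = 1 ∧ (ρ s).trace = d i + d j + d k + d l := by
    rcases e with e | e | e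
    · exact ⟨0, 1, 2, 3, by decide, congrFun e 0, congrFun e 1, congrFun e 2, congrFun e 3, dt, tr⟩
    · exact ⟨0, 2, 1, 3, by decide, congrFun e 0, congrFun e 2, congrFun e 1, congrFun e 3,
        by linear_combination dt, by linear_combination tr⟩
    · exact ⟨0, 3, 1, 2, by decide, congrFun e 0, congrFun e 3, congrFun e 1, congrFun e 2,
        by linear_combination dt, by linear_combination tr⟩
  rw [sm]
  rcases lift_four h2 hi hj hk hl pr with e | ⟨e, e'⟩ | ⟨e, e'⟩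
  · exact Or.inl e
  · refine Or.inr (Or.inl ⟨(h.cnj B).inj ?_, e'⟩)
    rw [map_pow, hd, diagonal_pow, map_one, ← diagonal_one]
    congr 1
    ext m
    rcases al m with rfl | rfl | rfl | rfl <;> simp only [Pi.pow_apply]
    · linear_combination (d m * d m + κ) * hi + e
    · linear_combination (d m * d m + κ) * hj + e
    · linear_combination (d m * d m - κ) * hk + e
    · linear_combination (d m * d m - κ) * hl + e
  refine Or.inr (Or.inr fun y y' hy hy' => ?_)
  have sq : ∀ a b, d a * d a = d b * d b → d a = d b := fun a b hab => by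
    rcases al a with rfl | rfl | rfl | rfl <;> rcases al b with rfl | rfl | rfl | rfl <;>
      first | rfl | exact e | exact e.symm | exact e' | exact e'.symm |
        exact (κ0 (by simp_all)).elim
  have key : ∀ y : Γ, y * (s * s) = s * s * y → Commute (π y) (π s) := fun y hy => by
    refine Commute.map ((h.cnj B).inj ?_ : y * s = s * y) π
    have := congrArg (D4.cnj ρ B) hy
    rw [map_mul, map_mul _ _ y, hd2] at this
    rw [map_mul, map_mul, hd]
    ext a b
    have e1 := congrFun (congrFun this a) b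
    rw [mul_diagonal, diagonal_mul] at e1 ⊢
    by_cases e0 : D4.cnj ρ B y a b = 0
    · rw [e0, zero_mul, mul_zero]
    · rw [sq a b (mul_right_cancel₀ e0 (e1.symm.trans (mul_comm _ _))), mul_comm]
  obtain ⟨y, rfl⟩ := h.surj y
  obtain ⟨y', rfl⟩ := h.surj y'
  rw [_root_.sq, ← map_mul] at hy hy'
  rcases h.lift_comm ht hy with a | a
  · exact Or.inl (key y a)
  rcases h.lift_comm ht hy' with b | b
  · exact Or.inr (Or.inl (key y' b))
  refine Or.inr (Or.inr ?_)
  rw [← map_mul]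
  refine key _ (h.inj ?_)
  generalize s * s = t at a b ⊢
  simp only [map_mul] at a b ⊢
  rw [mul_assoc, b, mul_neg, ← mul_assoc, a, neg_mul, neg_neg, mul_assoc]

variable (p : ℕ) [Fact p.Prime] [CharP K p]

omit [IsAlgClosed K] [Finite Γ] in
theorem trace_pow_pp (ρ : Γ →* M4 K) (a : ℕ) (g : Γ) :
    (ρ g).trace ^ p ^ a = (ρ (g ^ p ^ a)).trace := by
  induction a with
  | zero => simp
  | succ a ih => rw [pow_succ, pow_mul, ih, trace_pow_p, pow_mul]

theorem trace_part (g : Γ) : ∃ k : ℕ, (ρ (g ^ k)).trace = (ρ g).trace ∧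
    (ρ (g ^ k)⁻¹).trace = (ρ g⁻¹).trace ∧ ¬ p ∣ orderOf (g ^ k) := by
  have hp : p.Prime := Fact.out
  obtain ⟨a, m, hm, e⟩ := Nat.exists_eq_pow_mul_and_not_dvd (orderOf_pos g).ne' p hp.ne_one
  have hc : Nat.Coprime (p ^ a) m := ((Nat.Prime.coprime_iff_not_dvd hp).2 hm).pow_left a
  obtain ⟨k, h0, h1⟩ := Nat.chineseRemainder hc 0 1
  have e1 : (g ^ k) ^ p ^ a = g ^ p ^ a := by
    rw [← pow_mul, pow_eq_pow_iff_modEq, e, mul_comm k]
    simpa using h1.mul_left' (p ^ a)
  have inj : ∀ x y : K, x ^ p ^ a = y ^ p ^ a → x = y := fun x y hxy =>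
    (iterateFrobenius K p a).injective hxy
  refine ⟨k, inj _ _ ?_, inj _ _ ?_, fun hd => hm (hd.trans (orderOf_dvd_of_pow_eq_one ?_))⟩
  · rw [trace_pow_pp, trace_pow_pp, e1]
  · rw [trace_pow_pp, trace_pow_pp, inv_pow, inv_pow, e1]
  · rw [← pow_mul, ← orderOf_dvd_iff_pow_eq_one, e]
    exact Nat.mul_dvd_mul_right ((Nat.modEq_zero_iff_dvd).1 h0) m

end Cfsg.Agent.D4
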