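import Cfsg.Agent.D4.R3g

/-!
Characteristic two: a transvection group with a frame `G(3, 3, 3)` is `SU₄(2)`.
-/

set_option autoImplicit false

open Matrix

namespace Cfsg.Agent.D4

variable {K : Type*} [Field K] {Γ : Type*} [Group Γ] {ρ : Γ →* M4 K} {u v w f g h : V4 K}

section aux

variable {ω : K} {k : ℕ}

theorem r3e_three (h2 : (2 : K) = 0) : (3 : K) ≠ 0 :=
  fun e => one_ne_zero (α := K) (by linear_combination e - h2)

theorem r3e_rs (e x : Fin k → V4 K) (w v : V4 K) (c : K) :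
    rs e x (w - c • v) = rs e x w - c • rs e x v := by
  simp only [rs, dotProduct_sub, dotProduct_smul, sub_smul, Finset.sum_sub_distrib, smul_sub,
    Finset.smul_sum, smul_smul, smul_eq_mul]
  abel

theorem r3e_dot {e x : Fin k → V4 K} (hf : ∀ i, f ⬝ᵥ e i = 0) (v : V4 K) :
    f ⬝ᵥ rs e x v = f ⬝ᵥ v := by
  simp [rs, dotProduct_sum, hf]

theorem r3e_dot' {e x : Fin k → V4 K} (hv : ∀ i, x i ⬝ᵥ v = 0) (f : V4 K) :
    rs x e f ⬝ᵥ v = f ⬝ᵥ v := by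
  simp [rs, sum_dotProduct, hv]

theorem r3e_dg {e x : Fin k → V4 K} (F : Fr ρ e x ω) (hω : ω ^ 2 + ω + 1 = 0) (hk : 3 ≤ k)
    (a : D ρ v f) {j l : Fin k} (hjl : j ≠ l) {δ : K} (hδ : δ ^ 3 = 1) : ∃ v' f', D ρ v' f' ∧
    x j ⬝ᵥ v' = δ * (x j ⬝ᵥ v) ∧ x l ⬝ᵥ v' = δ ^ 2 * (x l ⬝ᵥ v) ∧
    (∀ m, m ≠ j → m ≠ l → x m ⬝ᵥ v' = x m ⬝ᵥ v) ∧ rs e x v' = rs e x v ∧ rs x e f' = rs x e f := by
  obtain ⟨v', f', a', e1, -, e3, e4⟩ := F.r3_dg hω hk a
    (d := fun m => if m = j then δ else if m = l then δ ^ 2 else 1)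
    (fun m => by
      split_ifs
      · exact hδ
      · linear_combination (δ ^ 3 + 1) * hδ
      · ring)
    (by
      rw [Fintype.prod_eq_mul j l hjl fun m hm => by simp [hm.1, hm.2]]
      simp only [if_true, if_neg hjl.symm]
      (linear_combination hδ))
  exact ⟨v', f', a', by simp [e1], by simp [e1, hjl.symm], fun m h1 h2 => by simp [e1, h1, h2],
    e3, e4⟩

theorem r3e_four (r : RH ρ) (L : Lam1 ρ) (h2 : (2 : K) = 0) (hω : ω ^ 2 + ω + 1 = 0)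
    {e x : Fin 3 → V4 K} (F : Fr ρ e x ω) : ∃ E X : Fin 4 → V4 K, Fr ρ E X ω := by
  by_contra hn
  have h3 := r3e_three h2
  have d := F.du
  have ty : ∀ v f, D ρ v f → (∀ i, Zr e x v f i) ∨ ∃ i j l, i ≠ j ∧ l ≠ i ∧ l ≠ j ∧
      Zr e x v f l ∧ pp e x v f i = 1 ∧ pp e x v f j = 1 ∧
        (rs e x v ≠ 0 → D ρ (rs e x v) (rs x e f)) := fun v f a => by
    rcases tri3 r.toTame L h3 hω F a with q | ⟨j, p, z⟩ | ⟨i, j, l, a1, a2, a3, a4, a5, a6, -, q⟩ | q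
    · exact Or.inl q
    · exact (hn (F.snoc (by norm_num) a p z)).elim
    · exact Or.inr ⟨i, j, l, a1, a2, a3, a4, a5, a6, fun h => (q.resolve_left fun q => h q.1).2⟩
    · exact (hn (r3_four h3 hω F a q.1 q.2)).elim
  obtain ⟨v, f, a, ⟨i0, hi⟩, hv⟩ := r.outer d (by norm_num) (by norm_num)
  obtain ⟨i, j, l, hij, hli, hlj, z, pi, pj, b⟩ := (ty v f a).resolve_left fun q => hi (q i0).2
  replace b := b hv
  obtain ⟨y, η, c, zc, hy⟩ : ∃ y η, D ρ y η ∧ (∀ i, Zr e x y η i) ∧ rs x e f ⬝ᵥ y ≠ 0 := by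
    obtain ⟨y, η, c, hy⟩ : ∃ y η, D ρ y η ∧ rs x e f ⬝ᵥ y ≠ 0 := by
      by_contra hc
      push Not at hc
      exact b.2.2.1 (r.covec hc)
    rcases ty y η c with q | ⟨_, _, _, -, -, -, -, -, -, q⟩
    · exact ⟨y, η, c, q, hy⟩
    · rw [← r3e_dot (x := x) (d.rs_dot f)] at hy
      exact ⟨_, _, q fun e => hy (by simp [e]), fun i => ⟨d.dot_rs _ _, d.rs_dot _ _⟩, hy⟩
  have hη : η ⬝ᵥ v ≠ 0 := by
    rw [← r3e_dot (x := x) fun i => (zc i).2]
    exact r.toTame.ne b c hy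
  obtain ⟨δ, hδ, hδ'⟩ : ∃ δ : K, δ ^ 3 = 1 ∧ δ ≠ (η ⬝ᵥ v) * (rs x e f ⬝ᵥ y) := by
    by_cases h : 1 = (η ⬝ᵥ v) * (rs x e f ⬝ᵥ y)
    · exact ⟨ω, r3_cube hω, h ▸ r3_ne_one h3 hω⟩
    · exact ⟨1, by ring, h⟩
  obtain ⟨v2, f2, a2, e1, -, e2, -⟩ := (c.act a).sw d hli.symm (F.one _ _ hli.symm)
  obtain ⟨v3, f3, a3, e3, e4, e5, e6, -⟩ := r3e_dg F hω le_rfl a2 hlj.symm hδ
  have k1 : ∀ m, x m ⬝ᵥ (v - (η ⬝ᵥ v) • y) = x m ⬝ᵥ v := fun m => by simp [(zc m).1]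
  simp only [k1] at e1
  have x1 : x i ⬝ᵥ v3 = 0 := by rw [e5 i hij hli.symm, e1, Equiv.swap_apply_left, z.1]
  have x2 : x j ⬝ᵥ v3 = δ * (x j ⬝ᵥ v) := by
    rw [e3, e1, Equiv.swap_apply_of_ne_of_ne hij.symm hlj.symm]
  have x3 : x l ⬝ᵥ v3 = δ ^ 2 * (x i ⬝ᵥ v) := by rw [e4, e1, Equiv.swap_apply_right]
  simp only [pp] at pi pj
  have s : f ⬝ᵥ v3 = δ - (η ⬝ᵥ v) * (rs x e f ⬝ᵥ y) := by
    rw [d.dot_eq f v3, e6, e2, r3e_rs, dotProduct_sub, b.1, h2, dotProduct_smul,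
      r3e_dot (d.rs_dot f), Finset.sum_eq_single j (fun m _ hm => ?_) (by simp), x2, smul_eq_mul]
    · linear_combination (δ) * pj
    · by_cases hm' : m = i
      · rw [hm', x1, zero_mul]
      · rw [show m = l by omega, z.2, mul_zero]
  have n1 := left_ne_zero_of_mul_eq_one pi
  have n2 := left_ne_zero_of_mul_eq_one pj
  have nz : ∀ m, x m ⬝ᵥ (v3 - (f ⬝ᵥ v3) • v) ≠ 0 := fun m => by
    rw [dotProduct_sub, dotProduct_smul, s, smul_eq_mul]
    by_cases h1 : m = i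
    · rw [h1, x1, zero_sub]
      exact neg_ne_zero.2 (mul_ne_zero (sub_ne_zero.2 hδ') n1)
    by_cases h2 : m = j
    · rw [h2, x2, ← sub_mul, sub_sub_cancel]
      exact mul_ne_zero (mul_ne_zero hη hy) n2
    · rw [show m = l by omega, x3, z.1, mul_zero, sub_zero]
      exact mul_ne_zero (pow_ne_zero _ (by rintro rfl; simp at hδ)) n1
  rcases ty _ _ (a.act a3) with q | ⟨_, _, m, -, -, -, q, -⟩
  · exact nz 0 (q 0).1
  · exact nz m q.1

theorem r3e_cls (h2 : (2 : K) = 0) {z : V4 K} (z0 : z ≠ 0) (z4 : ∀ i, z i ^ 4 = z i)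
    (z3 : ∑ i, z i ^ 3 = 0) : (∃ i j, i ≠ j ∧ z i ^ 3 = 1 ∧ z j ^ 3 = 1 ∧
      ∀ m, m ≠ i → m ≠ j → z m = 0) ∨ ∀ j, z j ^ 3 = 1 := by
  classical
  have := CharTwo.of_one_ne_zero_of_two_eq_zero one_ne_zero h2
  have h1 : ∀ i, z i ≠ 0 → z i ^ 3 = 1 := fun i h =>
    mul_left_cancel₀ h (by linear_combination z4 i)
  obtain ⟨S, hS⟩ : ∃ S : Finset (Fin 4), ∀ i, i ∈ S ↔ z i ≠ 0 :=
    ⟨Finset.univ.filter fun i => z i ≠ 0, by simp⟩
  have h3 : (S.card : K) = 0 := by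
    rw [← z3, ← Finset.sum_subset (Finset.subset_univ S) fun i _ h => by
      rw [not_not.1 (mt (hS i).2 h)]; simp, Finset.sum_congr rfl fun i h => h1 i ((hS i).1 h)]
    simp
  rw [CharP.cast_eq_zero_iff K 2] at h3
  have h4 : S.card ≠ 0 := fun e => z0 (funext fun i => by
    by_contra h
    simpa [Finset.card_eq_zero.1 e] using (hS i).2 h)
  have h5 : Sᶜ.card + S.card = 4 := Finset.card_compl_add_card S
  by_cases h6 : S.card = 2
  · obtain ⟨i, j, hij, rfl⟩ := Finset.card_eq_two.1 h6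
    refine Or.inl ⟨i, j, hij, h1 i ((hS i).1 (by simp)), h1 j ((hS j).1 (by simp)),
      fun m a b => not_not.1 (mt (hS m).2 (by simp [a, b]))⟩
  · have hm := Finset.card_eq_zero.1 (show Sᶜ.card = 0 by omega)
    refine Or.inr fun j => h1 j ((hS j).1 (by_contra fun hj => ?_))
    simpa [hm] using Finset.mem_compl.2 hj

theorem r3e_to (r : RH ρ) (L : Lam1 ρ) (h2 : (2 : K) = 0) (hω : ω ^ 2 + ω + 1 = 0)
    (F : Fr ρ (fun i : Fin 4 => Pi.single i 1) (fun i => Pi.single i 1) ω) (a : D ρ v f) :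
    ∃ (c : K) (z : V4 K), c ≠ 0 ∧ z ≠ 0 ∧ (∀ i, z i ^ 4 = z i) ∧ ∑ i, z i ^ 3 = 0 ∧ v = c • z ∧
      f = c⁻¹ • fun i => z i ^ 2 := by
  obtain ⟨t1, t2⟩ : (∀ j, (v j = 0 ∧ f j = 0) ∨ v j * f j = 1) ∧
      ∀ i j, v i * f i = 1 → v j * f j = 1 → v j ^ 3 = v i ^ 3 := by
    have := r3_gen r.toTame L (r3e_three h2) hω F (by norm_num) a
    simp only [Zr, pp, single_one_dotProduct, dotProduct_single_one] at this
    rcases this with q | q | ⟨-, ⟨l, z⟩, q, q'⟩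
    · exact ⟨fun j => Or.inl (q j), fun i j p _ => by simp [(q i).1] at p⟩
    · exact ⟨fun j => Or.inr (by linear_combination q.1 j - v j * f j * h2),
        fun i j _ _ => q.2 j i⟩
    · refine ⟨q, fun i j pi pj => ?_⟩
      by_cases hij : i = j
      · rw [hij]
      · linear_combination (q' i j l hij pi pj z).1 - v i ^ 3 * h2
  obtain ⟨i, hi⟩ := Function.ne_iff.1 a.2.1
  have pi := (t1 i).resolve_left fun q => hi q.1
  have key : ∀ j, (f i * v j) ^ 3 = f j * v j ∧ (f i * v j) ^ 4 = f i * v j ∧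
      f j = f i * (f i * v j) ^ 2 := fun j => by
    rcases t1 j with q | pj
    · simp [q.1, q.2]
    · have := t2 i j pi pj
      refine ⟨?_, ?_, ?_⟩ <;> (first | linear_combination ((f i) ^ 2 * (v i) ^ 2 + (f i) * (v i) + 1) * pi + (-1) * pj + ((f i) ^ 3) * this | linear_combination ((f i) ^ 3 * (v i) ^ 2 * (v j) + (f i) ^ 2 * (v i) * (v j) + (f i) * (v j)) * pi + ((f i) ^ 4 * (v j)) * this | linear_combination (-(f i) ^ 2 * (f j) * (v i) ^ 2 - (f i) * (f j) * (v i) - (f j)) * pi + ((f i) ^ 3 * (v j) ^ 2) * pj + (-(f i) ^ 3 * (f j)) * this)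
  refine ⟨v i, f i • v, hi, smul_ne_zero (right_ne_zero_of_mul_eq_one pi) a.2.1,
    fun j => (key j).2.1, ?_, by rw [smul_smul, pi, one_smul], funext fun j => ?_⟩
  · rw [← h2, ← a.1]
    exact Finset.sum_congr rfl fun j _ => (key j).1
  · rw [← eq_inv_of_mul_eq_one_right pi]
    exact (key j).2.2

theorem r3e_pair {z : V4 K} {i j : Fin 4} (hij : i ≠ j) (h : ∀ m, m ≠ i → m ≠ j → z m = 0) :
    z = z i • Pi.single i 1 + z j • Pi.single j 1 := by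
  ext m
  by_cases h1 : m = i
  · simp [h1, hij]
  by_cases h2 : m = j
  · simp [h2, hij.symm]
  · simp [h1, h2, h m h1 h2]

theorem r3e_from (r : RH ρ) (L : Lam1 ρ) (h2 : (2 : K) = 0) (hω : ω ^ 2 + ω + 1 = 0)
    (F : Fr ρ (fun i : Fin 4 => Pi.single i 1) (fun i => Pi.single i 1) ω) {z : V4 K} (z0 : z ≠ 0)
    (z4 : ∀ i, z i ^ 4 = z i) (z3 : ∑ i, z i ^ 3 = 0) : D ρ z fun i => z i ^ 2 := by
  rcases r3e_cls h2 z0 z4 z3 with ⟨i, j, hij, hi, hj, h⟩ | h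
  · exact (F.r3_root hω (by norm_num) hij (b := z i) (c := z j) (β := z i ^ 2) (γ := z j ^ 2)
      (by (linear_combination hi)) (by (linear_combination hj)) (by (linear_combination hi + hj + h2))).of_eq (r3e_pair hij h)
      (r3e_pair (z := fun i => z i ^ 2) hij fun m a b => by simp [h m a b])
  obtain ⟨y, b, h'⟩ : ∃ y : V4 K, D ρ y (fun i => y i ^ 2) ∧ ∀ j, y j ^ 3 = 1 := by
    by_contra hc
    refine r.mono_false F (r3_ne_one (r3e_three h2) hω) fun v f a => ?_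
    obtain ⟨c, y, hc0, y0, y4, y3, rfl, rfl⟩ := r3e_to r L h2 hω F a
    rcases r3e_cls h2 y0 y4 y3 with ⟨i, j, hij, hi, hj, h⟩ | h
    · have k : ∀ i, y i ^ 3 = 1 → pp (fun i : Fin 4 => Pi.single i 1) (fun i => Pi.single i 1)
          (c • y) (c⁻¹ • fun i => y i ^ 2) i = 1 := fun i hi => by
        simp only [pp, single_one_dotProduct, dotProduct_single_one, Pi.smul_apply, smul_eq_mul]
        linear_combination (c * c⁻¹) * hi + mul_inv_cancel₀ hc0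
      refine r3_mon hij (k i hi) (k j hj) ?_
      simp only [single_one_dotProduct, dotProduct_single_one]
      exact ⟨r3e_pair hij fun m a b => by simp [h m a b], r3e_pair hij fun m a b => by simp [h m a b]⟩
    · exact (hc ⟨y, by simpa [smul_smul, hc0] using a.smul (inv_ne_zero hc0), h⟩).elim
  obtain ⟨d, hd⟩ : ∃ d : Fin 4 → K, ∀ j, d j = z j * y j ^ 2 := ⟨_, fun _ => rfl⟩
  have d3 : ∀ j, d j ^ 3 = 1 := fun j => by
    rw [hd, mul_pow, h j, ← pow_mul, mul_comm 2, pow_mul, h' j]; simp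
  obtain ⟨P, hP⟩ : ∃ P, P = ∏ j, d j := ⟨_, rfl⟩
  have P3 : P ^ 3 = 1 := by rw [hP, ← Finset.prod_pow]; simp [d3]
  obtain ⟨v', f', a', e1, e2, -⟩ := F.r3_dg hω (by norm_num) b (d := fun j => d j * P ^ 2)
    (fun j => by rw [mul_pow, d3, ← pow_mul, mul_comm 2, pow_mul, P3]; simp)
    (by rw [Finset.prod_mul_distrib, ← hP, Finset.prod_const, Finset.card_univ, Fintype.card_fin]
        linear_combination (P ^ 6 + P ^ 3 + 1) * P3)
  simp only [single_one_dotProduct, dotProduct_single_one] at e1 e2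
  refine (a'.smul' (c := P) (d := P ^ 2) (by linear_combination P3)).of_eq (funext fun j => ?_)
    (funext fun j => ?_)
  · rw [Pi.smul_apply, e1, hd, smul_eq_mul]
    have h2 := h' j
    linear_combination (-(z j)) * h2 - z j * y j ^ 3 * P3
  · rw [Pi.smul_apply, e2, hd, smul_eq_mul]
    have h2 := h' j
    linear_combination (-(y j) ^ 3 * (z j) ^ 2 - (z j) ^ 2) * h2 -
      z j ^ 2 * y j ^ 6 * (P ^ 3 + 1) * P3

end aux

variable {e x : Fin 3 → V4 K} {ω : K}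

theorem RH.u4t (r : RH ρ) (L : Lam1 ρ) (h2 : (2 : K) = 0) (hω : ω ^ 2 + ω + 1 = 0)
    (F : Fr ρ e x ω) : IsU4T ρ := by
  obtain ⟨e, x, F⟩ := r3e_four r L h2 hω F
  obtain ⟨B, hB⟩ := r3_std F.du ρ
  have F' := Fr.r3_cnj hB id Function.injective_id F
  refine ⟨h2, ⟨ω, hω⟩, B, fun v f => ⟨r3e_to (r.cnj B) (L.cnj B) h2 hω F', ?_⟩⟩
  rintro ⟨c, z, hc, z0, z4, z3, rfl, rfl⟩
  exact (r3e_from (r.cnj B) (L.cnj B) h2 hω F' z0 z4 z3).smul hc

end Cfsg.Agent.D4
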