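import Cfsg.Agent.D4.R3g

/-!
Odd characteristic: a reflection group with a frame `G(3, 3, 3)` does not exist.
-/

set_option autoImplicit false

open Matrix

namespace Cfsg.Agent.D4

variable {K : Type*} [Field K] {Γ : Type*} [Group Γ] {ρ : Γ →* M4 K} {u v w f g h : V4 K}

section aux

variable {ω : K}

theorem r3o_no4 (r : RH ρ) (L : Lam1 ρ) (h2 : (2 : K) ≠ 0) (h3 : (3 : K) ≠ 0)
    (hω : ω ^ 2 + ω + 1 = 0) {e x : Fin 4 → V4 K} (F : Fr ρ e x ω) : False := by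
  refine r.mono_false F (r3_ne_one h3 hω) fun v f a => ?_
  have s : ∑ i, pp e x v f i = 2 := by
    have := F.du.dot_eq f v
    rw [F.du.full v, dotProduct_zero, add_zero, a.1] at this
    exact this.symm
  rcases r3_gen r.toTame L h3 hω F (by norm_num) a with q | q | ⟨⟨i, pi⟩, ⟨l, z⟩, q, q'⟩
  · simp only [fun i => (q i).pp0, Finset.sum_const_zero] at s
    exact (h2 s.symm).elim
  · rw [Fin.sum_univ_four] at s
    exact (h2 (by linear_combination q.1 0 + q.1 1 + q.1 2 + q.1 3 - 3 * s)).elim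
  · by_cases hj : ∃ j, j ≠ i ∧ pp e x v f j = 1
    · obtain ⟨j, hj, pj⟩ := hj
      exact r3_mon hj.symm pi pj ((q' i j l hj.symm pi pj z).2.resolve_right fun e => h2 e.1)
    · push Not at hj
      rw [Finset.sum_eq_single i (fun j _ h => ((q j).resolve_right (hj j h)).pp0) (by simp),
        pi] at s
      exact (one_ne_zero (α := K) (by linear_combination -s)).elim

theorem r3o_four (r : RH ρ) (L : Lam1 ρ) (h2 : (2 : K) ≠ 0) (h3 : (3 : K) ≠ 0)
    (hω : ω ^ 2 + ω + 1 = 0) {e x : Fin 3 → V4 K} (F : Fr ρ e x ω) :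
    ∃ E X : Fin 4 → V4 K, Fr ρ E X ω := by
  obtain ⟨v, f, a, ⟨i, hi⟩, hv⟩ := r.outer F.du (by norm_num) (by norm_num)
  rcases tri3 r.toTame L h3 hω F a with q | ⟨j, p, z⟩ | ⟨_, _, _, -, -, -, -, -, -, -, q⟩ | q
  · exact (hi (q i).2).elim
  · exact F.snoc (by norm_num) a p z
  · exact (q.elim (fun q => hv q.1) fun q => h2 q.1).elim
  · exact r3_four h3 hω F a q.1 q.2

theorem RH.not_three (r : RH ρ) (L : Lam1 ρ) (h2 : (2 : K) ≠ 0) (h3 : (3 : K) ≠ 0)
    (hω : ω ^ 2 + ω + 1 = 0) {e x : Fin 3 → V4 K} (F : Fr ρ e x ω) : False :=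
  let ⟨_, _, F⟩ := r3o_four r L h2 h3 hω F
  r3o_no4 r L h2 h3 hω F

end aux

end Cfsg.Agent.D4
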