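import Cfsg.Agent.D4.R4c1

/-!
Roots on a frame `G(4, 4, 4)`: the Pauli group.
-/

set_option autoImplicit false

open Matrix

namespace Cfsg.Agent.D4

variable {K : Type*} [Field K] {Γ : Type*} [Group Γ] {ρ : Γ →* M4 K} {u v w f g h : V4 K}

namespace R4c

open R4

def Z1 : M4 K := !![1, 0, 0, 0; 0, 1, 0, 0; 0, 0, -1, 0; 0, 0, 0, -1]
def Z2 : M4 K := !![1, 0, 0, 0; 0, -1, 0, 0; 0, 0, 1, 0; 0, 0, 0, -1]
def X1 : M4 K := !![0, 1, 0, 0; 1, 0, 0, 0; 0, 0, 0, 1; 0, 0, 1, 0]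
def X2 : M4 K := !![0, 0, 1, 0; 0, 0, 0, 1; 1, 0, 0, 0; 0, 1, 0, 0]

/-- The Pauli matrices. -/
inductive Q : M4 K → Prop
  | sc (c : K) : Q (c • 1)
  | z1 : Q Z1
  | z2 : Q Z2
  | x1 : Q X1
  | x2 : Q X2
  | mul {A B : M4 K} : Q A → Q B → Q (A * B)

theorem Q.smul {A : M4 K} (a : Q A) (c : K) : Q (c • A) := by
  simpa using (Q.sc c).mul a

theorem Q.neg {A : M4 K} (a : Q A) : Q (-A) := by simpa using a.smul (-1)

theorem Q.one : Q (1 : M4 K) := by simpa using Q.sc (1 : K)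

/-- The normaliser of the Pauli matrices. -/
def Nm (M : M4 K) : Prop := ∀ P, Q P → ∃ P', Q P' ∧ P * M = M * P'

theorem Nm.of {M : M4 K} (h1 : ∃ P', Q P' ∧ Z1 * M = M * P') (h2 : ∃ P', Q P' ∧ Z2 * M = M * P')
    (h3 : ∃ P', Q P' ∧ X1 * M = M * P') (h4 : ∃ P', Q P' ∧ X2 * M = M * P') : Nm M := by
  intro P hP
  induction hP with
  | sc c => exact ⟨_, Q.sc c, by simp⟩
  | z1 => exact h1
  | z2 => exact h2
  | x1 => exact h3
  | x2 => exact h4
  | mul _ _ a b =>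
    obtain ⟨A, a, ea⟩ := a
    obtain ⟨B, b, eb⟩ := b
    exact ⟨_, a.mul b, by rw [mul_assoc, eb, ← mul_assoc, ea, mul_assoc]⟩

theorem Nm.mul {M N : M4 K} (a : Nm M) (b : Nm N) : Nm (M * N) := fun P hP => by
  obtain ⟨A, h1, ea⟩ := a P hP
  obtain ⟨B, h2, eb⟩ := b A h1
  exact ⟨B, h2, by rw [← mul_assoc, ea, mul_assoc, eb, mul_assoc]⟩

theorem Nm.smul {M : M4 K} (a : Nm M) (c : K) : Nm (c • M) := fun P hP => by
  obtain ⟨A, h1, ea⟩ := a P hP
  exact ⟨A, h1, by rw [mul_smul_comm, ea, smul_mul_assoc]⟩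

theorem Q.comm {P : M4 K} (a : Q P) : P * Z2 = Z2 * P ∨ P * Z2 = -(Z2 * P) := by
  induction a with
  | sc c => left; simp
  | z1 => left; simp [Z1, Z2]
  | z2 => left; rfl
  | x1 => right; simp [X1, Z2]
  | x2 => left; simp [X2, Z2]
  | @mul A B _ _ a b =>
    rw [mul_assoc]
    rcases a with a | a <;> rcases b with b | b <;> rw [b]
    · left; rw [← mul_assoc, a, mul_assoc]
    · right; rw [mul_neg, ← mul_assoc, a, mul_assoc]
    · right; rw [← mul_assoc, a, neg_mul, mul_assoc]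
    · left; rw [mul_neg, ← mul_assoc, a, neg_mul, neg_neg, mul_assoc]

theorem diag_eq (a b c d : K) :
    diagonal ![a, b, c, d] = !![a, 0, 0, 0; 0, b, 0, 0; 0, 0, c, 0; 0, 0, 0, d] := by
  ext i j; fin_cases i <;> fin_cases j <;> simp

theorem Q.diag {a b c d : K} (h0 : a ≠ 0) (h1 : b ^ 2 = a ^ 2) (h2 : c ^ 2 = a ^ 2)
    (h3 : a * d = b * c) : Q !![a, 0, 0, 0; 0, b, 0, 0; 0, 0, c, 0; 0, 0, 0, d] := by
  rcases sq_eq_sq_iff_eq_or_eq_neg.1 h1 with rfl | rfl <;>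
    rcases sq_eq_sq_iff_eq_or_eq_neg.1 h2 with rfl | rfl
  · obtain rfl := mul_left_cancel₀ h0 h3
    convert Q.sc d using 1
    ext i j; fin_cases i <;> fin_cases j <;> simp
  · obtain rfl := mul_left_cancel₀ h0 h3
    convert Q.z1.smul b using 1
    simp [Z1]
  · obtain rfl : d = -c := mul_left_cancel₀ h0 (by linear_combination h3)
    convert Q.z2.smul c using 1
    simp [Z2]
  · obtain rfl : d = a := mul_left_cancel₀ h0 (by linear_combination h3)
    convert (Q.z1.mul Q.z2).smul d using 1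
    simp [Z1, Z2]

theorem nm_diag {t : Fin 4 → K} (h0 : t 0 ≠ 0) (h4 : ∀ i, t i ^ 4 = t 0 ^ 4)
    (hp : (t 0 * t 1 * t 2 * t 3) ^ 2 = t 0 ^ 8) : Nm (diagonal t) := by
  have n : ∀ i, t i ≠ 0 := fun i h => pow_ne_zero 4 h0 (by rw [← h4 i, h]; simp)
  have n1 := n 1
  have n2 := n 2
  have n3 := n 3
  have e1 := h4 1
  have e2 := h4 2
  have e3 := h4 3
  rw [show t = ![t 0, t 1, t 2, t 3] by ext i; fin_cases i <;> rfl, diag_eq]
  generalize t 0 = a, t 1 = b, t 2 = c, t 3 = d at *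
  have k1 : b ^ 2 * c ^ 2 = a ^ 2 * d ^ 2 := mul_left_cancel₀ (pow_ne_zero 2 (mul_ne_zero h0 n3))
    (by linear_combination hp - a ^ 4 * e3)
  have k2 : a ^ 2 * b ^ 2 = c ^ 2 * d ^ 2 := mul_left_cancel₀ (pow_ne_zero 2 (mul_ne_zero n2 n3))
    (by linear_combination hp - d ^ 4 * e2 - a ^ 4 * e3)
  have k3 : a ^ 2 * c ^ 2 = b ^ 2 * d ^ 2 := mul_left_cancel₀ (pow_ne_zero 2 (mul_ne_zero n1 n3))
    (by linear_combination hp - d ^ 4 * e1 - a ^ 4 * e3)
  refine Nm.of ⟨_, Q.z1, by simp [Z1]⟩ ⟨_, Q.z2, by simp [Z2]⟩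
    ⟨_, Q.x1.mul (Q.diag (a := a / b) (b := b / a) (c := c / d) (d := d / c) (div_ne_zero h0 n1)
      ?_ ?_ ?_), ?_⟩
    ⟨_, Q.x2.mul (Q.diag (a := a / c) (b := b / d) (c := c / a) (d := d / b) (div_ne_zero h0 n2)
      ?_ ?_ ?_), ?_⟩
  · field_simp; exact e1
  · field_simp; linear_combination k1
  · field_simp; linear_combination -k1
  · simp [X1]; refine ⟨?_, ?_, ?_, ?_⟩ <;> field_simp
  · field_simp; linear_combination k1
  · field_simp; exact e2
  · field_simp; linear_combination -k1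
  · simp [X2]; refine ⟨?_, ?_, ?_, ?_⟩ <;> field_simp

/-- The swap of two coordinates. -/
def sw (K : Type*) [Field K] (i j : Fin 4) : M4 K :=
  1 - vecMulVec (E K i - E K j) (E K i - E K j)

theorem sw_symm (i j : Fin 4) : sw K i j = sw K j i := by
  rw [sw, sw, ← neg_sub (E K i), neg_vecMulVec, vecMulVec_neg, neg_neg]

theorem sw01 : sw K 0 1 = !![0, 1, 0, 0; 1, 0, 0, 0; 0, 0, 1, 0; 0, 0, 0, 1] := by
  ext i j; fin_cases i <;> fin_cases j <;> simp [sw, vecMulVec_apply]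

theorem sw12 : sw K 1 2 = !![1, 0, 0, 0; 0, 0, 1, 0; 0, 1, 0, 0; 0, 0, 0, 1] := by
  ext i j; fin_cases i <;> fin_cases j <;> simp [sw, vecMulVec_apply]

theorem sw23 : sw K 2 3 = !![1, 0, 0, 0; 0, 1, 0, 0; 0, 0, 0, 1; 0, 0, 1, 0] := by
  ext i j; fin_cases i <;> fin_cases j <;> simp [sw, vecMulVec_apply]

theorem sw_tr {i j l : Fin 4} (hij : i ≠ j) (hjl : j ≠ l) (hil : i ≠ l) :
    sw K i l = sw K i j * sw K j l * sw K i j := by
  simp only [sw, mul_sub, sub_mul, one_mul, mul_one, vv_mul, smul_mul_assoc, sub_dotProduct,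
    dotProduct_sub, E, single_one_dotProduct, Pi.single_apply, hij, hjl, hil, hij.symm, hjl.symm,
    hil.symm, if_true, if_false]
  simp only [sub_vecMulVec, vecMulVec_sub]
  module

theorem nm_sw {i j : Fin 4} (hij : i ≠ j) : Nm (sw K i j) := by
  have a : Nm (sw K 0 1) := by
    rw [sw01]
    exact Nm.of ⟨_, Q.z1, by simp [Z1]⟩ ⟨_, (Q.z1.mul Q.z2).neg, by simp [Z1, Z2]⟩
      ⟨_, Q.x1, by simp [X1]⟩ ⟨_, Q.x1.mul Q.x2, by simp [X1, X2]⟩
  have b : Nm (sw K 1 2) := by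
    rw [sw12]
    exact Nm.of ⟨_, Q.z2, by simp [Z1, Z2]⟩ ⟨_, Q.z1, by simp [Z1, Z2]⟩
      ⟨_, Q.x2, by simp [X1, X2]⟩ ⟨_, Q.x1, by simp [X1, X2]⟩
  have c : Nm (sw K 2 3) := by
    rw [sw23]
    exact Nm.of ⟨_, Q.z1, by simp [Z1]⟩ ⟨_, Q.z1.mul Q.z2, by simp [Z1, Z2]⟩
      ⟨_, Q.x1, by simp [X1]⟩ ⟨_, Q.x1.mul Q.x2, by simp [X1, X2]⟩
  have tr : ∀ {i j l : Fin 4}, i ≠ j → j ≠ l → i ≠ l → Nm (sw K i j) → Nm (sw K j l) →
      Nm (sw K i l) := fun h1 h2 h3 a b => sw_tr (K := K) h1 h2 h3 ▸ (a.mul b).mul a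
  have d := tr (by decide) (by decide) (by decide) a b
  have e := tr (by decide) (by decide) (by decide) b c
  have f := tr (by decide) (by decide) (by decide) a e
  fin_cases i <;> fin_cases j <;> first
    | exact (hij rfl).elim
    | assumption
    | (rw [sw_symm]; assumption)

theorem nm_r0 (h2 : (2 : K) ≠ 0) : Nm (1 - vecMulVec (fun _ => 1) (fun _ => (2 : K)⁻¹) : M4 K) := by
  have e : (1 - vecMulVec (fun _ => 1) (fun _ => (2 : K)⁻¹) : M4 K) =
      (2 : K)⁻¹ • !![1, -1, -1, -1; -1, 1, -1, -1; -1, -1, 1, -1; -1, -1, -1, 1] := by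
    ext i j; fin_cases i <;> fin_cases j <;> simp [vecMulVec_apply] <;> field_simp <;> ring
  rw [e]
  exact Nm.smul (Nm.of ⟨_, (Q.z1.mul Q.x1).neg, by simp [Z1, X1]⟩
    ⟨_, (Q.z2.mul Q.x2).neg, by simp [Z2, X2]⟩ ⟨_, Q.x1, by simp [X1]⟩ ⟨_, Q.x2, by simp [X2]⟩) _

theorem nm_half (h2 : (2 : K) ≠ 0) (hp : ∀ i, 2 * (v i * f i) = 1) (h4 : ∀ i, v i ^ 4 = v 0 ^ 4)
    (hq : (v 0 * v 1 * v 2 * v 3) ^ 2 = v 0 ^ 8) : Nm (1 - vecMulVec v f) := by
  have n : ∀ i, v i ≠ 0 := fun i => left_ne_zero_of_mul (right_ne_zero_of_mul_eq_one (hp i))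
  have a := nm_diag (n 0) h4 hq
  have b := nm_diag (t := fun i => (v i)⁻¹) (inv_ne_zero (n 0)) (fun i => by simp [h4 i])
    (by rw [← mul_inv, ← mul_inv, ← mul_inv, inv_pow, hq, inv_pow])
  convert (a.mul (nm_r0 h2)).mul b using 1
  ext i j
  have hj := hp j
  have := n i
  have := n j
  rw [mul_diagonal, diagonal_mul]
  simp only [Matrix.sub_apply, vecMulVec_apply, one_apply]
  split_ifs with h
  · subst h; field_simp; linear_combination -hj
  · field_simp; linear_combination -(v i) * hj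

theorem nm_mon (m : Mon (E K) (E K) v f) (hr : ∀ (i j : Fin 4) (a b : K), i ≠ j → a ≠ 0 → b ≠ 0 →
    v = a • E K i + b • E K j → f = a⁻¹ • E K i + b⁻¹ • E K j → b ^ 4 = a ^ 4) :
    Nm (1 - vecMulVec v f) := by
  rcases m with ⟨i, j, a, b, hij, ha, hb, h1, h2⟩ | ⟨i, a, ha, rfl, rfl⟩
  · have h4 := hr i j a b hij ha hb h1 h2
    subst h1 h2
    let t : Fin 4 → K := fun l => if l = i then -(b / a) else if l = j then -(a / b) else 1
    have t4 : ∀ l, t l ^ 4 = 1 := fun l => by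
      simp only [t]; split_ifs
      · field_simp; exact h4
      · field_simp; exact h4.symm
      · simp
    have tp : t 0 * t 1 * t 2 * t 3 = 1 := by
      rw [← Fin.prod_univ_four, Fintype.prod_eq_mul i j hij fun l h => by simp [t, h.1, h.2]]
      simp only [t, if_true, hij.symm, if_false]
      field_simp
    have c := nm_diag (t := t) (fun h => by simpa [h] using t4 0) (fun l => by rw [t4, t4])
      (by rw [tp, show 8 = 4 * 2 by rfl, pow_mul, t4])
    convert (nm_sw hij).mul c using 1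
    ext l m
    rw [mul_diagonal]
    simp only [sw, Matrix.sub_apply, vecMulVec_apply, one_apply, t, Pi.add_apply, Pi.sub_apply,
      Pi.smul_apply, E, Pi.single_apply, smul_eq_mul]
    by_cases h1 : l = i <;> by_cases h2 : l = j <;> by_cases h3 : m = i <;> by_cases h5 : m = j <;>
      simp_all <;> field_simp
  · let t : Fin 4 → K := fun l => if l = i then -1 else 1
    have t2 : ∀ l, t l ^ 2 = 1 := fun l => by simp only [t]; split_ifs <;> simp
    have t4 : ∀ l, t l ^ 4 = 1 := fun l => by rw [show 4 = 2 * 2 by rfl, pow_mul, t2, one_pow]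
    convert nm_diag (t := t) (fun h => by simpa [h] using t4 0) (fun l => by rw [t4, t4])
      (by rw [show 8 = 4 * 2 by rfl, pow_mul, t4]; simp [mul_pow, t2]) using 1
    ext l m
    simp only [Matrix.sub_apply, vecMulVec_apply, one_apply, t, diagonal_apply,
      Pi.smul_apply, E, Pi.single_apply, smul_eq_mul]
    clear hr t2 t4
    by_cases h1 : l = i <;> by_cases h3 : m = i
    · simp [h1, h3]; field_simp; ring
    · simp [h1, h3, Ne.symm h3]
    · simp [h1, h3]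
    · simp [h1, h3]

/-- The reflections do not all normalise the Pauli matrices. -/
theorem pauli_false (r : RH ρ) (h2 : (2 : K) ≠ 0) {y : K} (hy : y ^ 2 = -1)
    (F : Fr ρ (E K) (E K) y) (hv : ∀ v f, D ρ v f → Nm (1 - vecMulVec v f)) : False := by
  have h01 : (0 : Fin 4) ≠ 1 := by decide
  have a1 := (F.one 0 1 h01).2
  let H : Subgroup Γ :=
    { carrier := {g | Nm (ρ g) ∧ Nm (ρ g⁻¹)}
      mul_mem' := fun a b => ⟨by rw [map_mul]; exact a.1.mul b.1, by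
        rw [_root_.mul_inv_rev, map_mul]; exact b.2.mul a.2⟩
      one_mem' := ⟨fun P h => ⟨P, h, by simp⟩, fun P h => ⟨P, h, by simp⟩⟩
      inv_mem' := fun a => ⟨a.2, by rw [inv_inv]; exact a.1⟩ }
  have hH : ∀ g, Nm (ρ g) := fun g => by
    obtain ⟨n, hn, c, hc⟩ := r.refl_gen a1 H (fun k v f a hk => ⟨hk ▸ hv v f a, by
      rw [rho_inv_eq (M := 1 - vecMulVec v f) (by rw [hk, refl_sq a.1])]; exact hv v f a⟩) g
    rw [hc]; exact hn.1.smul c
  let N : Subgroup Γ :=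
    { carrier := {g | Q (ρ g) ∧ Q (ρ g⁻¹)}
      mul_mem' := fun a b => ⟨by rw [map_mul]; exact a.1.mul b.1, by
        rw [_root_.mul_inv_rev, map_mul]; exact b.2.mul a.2⟩
      one_mem' := ⟨by simpa using Q.one, by simpa using Q.one⟩
      inv_mem' := fun a => ⟨a.2, by rw [inv_inv]; exact a.1⟩ }
  have cj : ∀ n g, Q (ρ n) → Q (ρ (g * n * g⁻¹)) := fun n g hn => by
    obtain ⟨P, h1, e⟩ := hH g⁻¹ _ hn
    rwa [map_mul, map_mul, mul_assoc, e, ← mul_assoc, mul_inv_rho, one_mul]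
  have hN : N.Normal := ⟨fun n hn g => ⟨cj n g hn.1, by
    have := cj n⁻¹ g hn.2
    rwa [show g * n⁻¹ * g⁻¹ = (g * n * g⁻¹)⁻¹ by group] at this⟩⟩
  have a2 := nrt F (by norm_num) hy h01 (φ := -1) (ψ := -1) (by ring) (by ring)
  obtain ⟨s, hs⟩ := a1.isIn
  obtain ⟨t, ht⟩ := a2.isIn
  have e : ρ (s * t) = -Z1 := by
    rw [map_mul, hs, ht]
    ext i j
    fin_cases i <;> fin_cases j <;>
      simp [Z1, Matrix.mul_apply, Fin.sum_univ_four, vecMulVec_apply, one_apply]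
  have e' : ρ (s * t)⁻¹ = -Z1 := rho_inv_eq (by
    rw [e]; ext i j; fin_cases i <;> fin_cases j <;> simp [Z1])
  obtain ⟨n, hn, c, hc⟩ := r.simp N hN ⟨s * t, ⟨e ▸ Q.z1.neg, e' ▸ Q.z1.neg⟩, fun c hc => by
    rw [e] at hc
    have k0 := congrFun (congrFun hc 0) 0
    have k2 := congrFun (congrFun hc 2) 2
    simp [Z1] at k0 k2
    exact h2 (by linear_combination k2 - k0)⟩ s
  have q : Q (sw K 0 1) := by
    have := hn.1.smul c
    rw [← hc, hs] at this
    simpa [sw] using this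
  rw [sw01] at q
  rcases q.comm with h | h
  · have := congrFun (congrFun h 0) 1
    simp [Z2] at this
    exact h2 (by linear_combination -this)
  · have := congrFun (congrFun h 2) 2
    simp [Z2] at this
    exact h2 (by linear_combination this)

end R4c

end Cfsg.Agent.D4
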