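import Cfsg.Agent.D4.R4b
import Cfsg.Agent.D4.R4c2

/-!
The group does not contain `G(4, 4, 4)`.
-/

set_option autoImplicit false

open Matrix

namespace Cfsg.Agent.D4

variable {K : Type*} [Field K] {Γ : Type*} [Group Γ] {ρ : Γ →* M4 K}

namespace R4c

open R4

variable {v w f g : V4 K} {y : K}

theorem half_std (L : Lam ρ) (h2 : (2 : K) ≠ 0) (hy : y ^ 2 = -1) (F : Fr ρ (E K) (E K) y)
    (a : D ρ v f) (hp : ∀ i, 2 * (v i * f i) = 1) (i j : Fin 4) : v j ^ 4 = v i ^ 4 := by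
  simpa using half_ratio L h2 F (by norm_num) hy a (fun i => by simpa [pp] using hp i) i j

theorem core (L : Lam ρ) (h2 : (2 : K) ≠ 0) (hy : y ^ 2 = -1) (F : Fr ρ (E K) (E K) y)
    (a : D ρ v f) (b : D ρ w g) (hf : ∀ i, 2 * (v i * f i) = 1) (hg : ∀ i, 2 * (w i * g i) = 1)
    {c κ : K} (w0 : w 0 = c * v 0) (w1 : w 1 = c * v 1) (w2 : w 2 = c * v 2)
    (w3 : w 3 = κ * c * v 3) (hκ : κ ^ 2 = -1) : (3 : K) = 0 := by
  have n : ∀ i, v i ≠ 0 := fun i => left_ne_zero_of_mul (right_ne_zero_of_mul_eq_one (hf i))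
  have n' : ∀ i, w i ≠ 0 := fun i => left_ne_zero_of_mul (right_ne_zero_of_mul_eq_one (hg i))
  have c0 : c ≠ 0 := left_ne_zero_of_mul (w0 ▸ n' 0)
  have k0 := y0 hκ
  have ef : ∀ i, f i = (2 * v i)⁻¹ := fun i =>
    eq_inv_of_mul_eq_one_right (by linear_combination hf i)
  have eg : ∀ i, g i = (2 * w i)⁻¹ := fun i =>
    eq_inv_of_mul_eq_one_right (by linear_combination hg i)
  have n0 := n 0
  have n1 := n 1
  have n2 := n 2
  have n3 := n 3
  have u := nrt F (by norm_num) hy (i := 0) (j := 1) (by decide) (φ := -(v 1 / v 0))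
    (ψ := -(v 0 / v 1)) (by field_simp; exact half_std L h2 hy F a hf 0 1) (by field_simp)
  have e1 : f ⬝ᵥ w = c * (3 + κ) / 2 := by
    rw [v4_dot, ef, ef, ef, ef, w0, w1, w2, w3]; field_simp; ring
  have e2 : g ⬝ᵥ v = (3 - κ) / (2 * c) := by
    rw [v4_dot, eg, eg, eg, eg, w0, w1, w2, w3]; field_simp; linear_combination hκ
  have := L _ _ _ _ _ _ a b u fun h => by
    simp only [e1, e2, sub_dotProduct, dotProduct_sub, smul_dotProduct, dotProduct_smul,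
      single_one_dotProduct, dotProduct_single_one, smul_eq_mul, ef, eg, w0, w1] at h
    field_simp at h
    exact mul_ne_zero h2 (mul_ne_zero (mul_ne_zero h2 h2) k0) (by linear_combination h)
  rw [lam, e1, e2] at this
  rcases this with h | h <;> field_simp at h
  · exact mul_left_cancel₀ h2 (by linear_combination h + hκ)
  · exact (h2 (by linear_combination h + hκ)).elim

theorem move (hy : y ^ 2 = -1) (F : Fr ρ (E K) (E K) y) (b : D ρ w g)
    (hg : ∀ i, 2 * (w i * g i) = 1) {i j : Fin 4} (hij : i ≠ j) {φ : K} (hφ : φ ^ 4 = 1) :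
    ∃ w' g', D ρ w' g' ∧ (∀ i, 2 * (w' i * g' i) = 1) ∧ w' i = φ * w i ∧ w' j = φ⁻¹ * w j ∧
      ∀ l, l ≠ i → l ≠ j → w' l = w l := by
  have h0 : φ ≠ 0 := by rintro rfl; simp at hφ
  have s : Sw ρ (E K) (E K) i j φ :=
    ⟨h0, nrt F (by norm_num) hy hij hφ (mul_inv_cancel₀ h0)⟩
  have x1 := Sw.in_dg F.du hij (F.one i j hij) s
  set d : Fin 4 → K := Pi.mulSingle i φ * Pi.mulSingle j φ⁻¹ with hd
  have d0 : ∀ m, d m ≠ 0 := fun m => by
    simp only [hd, Pi.mul_apply, Pi.mulSingle_apply]; split_ifs <;> simp [h0]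
  have e1 : ∀ l, (dg (E K) (E K) d *ᵥ w) l = d l * w l := fun l => by
    simpa using F.du.dot_dg d w l
  have e2 : ∀ l, (g ᵥ* dg (E K) (E K) d⁻¹) l = (d l)⁻¹ * g l := fun l => by
    simpa using F.du.dg_dot d⁻¹ g l
  refine ⟨_, _, b.dg F.du d0 x1, fun l => ?_, ?_, ?_, fun l h1 h2 => ?_⟩
  · rw [e1, e2, ← hg l]; have := d0 l; field_simp
  · rw [e1]; simp [hd, hij]
  · rw [e1]; simp [hd, hij.symm]
  · rw [e1]; simp [hd, h1, h2]

theorem two_half (L : Lam ρ) (h2 : (2 : K) ≠ 0) (h3 : (3 : K) ≠ 0) (hy : y ^ 2 = -1)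
    (F : Fr ρ (E K) (E K) y) (a : D ρ v f) (b : D ρ w g) (hf : ∀ i, 2 * (v i * f i) = 1)
    (hg : ∀ i, 2 * (w i * g i) = 1) :
    (w 0 * w 1 * w 2 * w 3) ^ 2 * v 0 ^ 8 = (v 0 * v 1 * v 2 * v 3) ^ 2 * w 0 ^ 8 := by
  by_contra hne
  have n : ∀ i, v i ≠ 0 := fun i => left_ne_zero_of_mul (right_ne_zero_of_mul_eq_one (hf i))
  have n' : ∀ i, w i ≠ 0 := fun i => left_ne_zero_of_mul (right_ne_zero_of_mul_eq_one (hg i))
  have r := fun i => half_std L h2 hy F a hf 0 i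
  have r' := fun i => half_std L h2 hy F b hg 0 i
  have n0 := n 0
  have n1 := n 1
  have n2 := n 2
  have n3 := n 3
  have m0 := n' 0
  have m1 := n' 1
  have m2 := n' 2
  have m3 := n' 3
  have k : ∀ i, (v i * w 0 / (w i * v 0)) ^ 4 = 1 := fun i => by
    have := n' i
    rw [div_pow, mul_pow, mul_pow, r i, r' i]; field_simp
  obtain ⟨w1, g1, b1, hg1, p1, p2, p3⟩ := move hy F b hg (i := 1) (j := 3) (by decide) (k 1)
  obtain ⟨w2, g2, b2, hg2, q1, q2, q3⟩ := move hy F b1 hg1 (i := 2) (j := 3) (by decide) (k 2)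
  refine h3 (core L h2 hy F a b2 hf hg2 (c := w 0 / v 0)
    (κ := (w 1 * w 2 * w 3 * v 0 ^ 3) / (v 1 * v 2 * v 3 * w 0 ^ 3)) ?_ ?_ ?_ ?_ ?_)
  · rw [q3 0 (by decide) (by decide), p3 0 (by decide) (by decide)]; field_simp
  · rw [q3 1 (by decide) (by decide), p1]; field_simp
  · rw [q1, p3 2 (by decide) (by decide)]; field_simp
  · rw [q2, p2]; field_simp
  · have : ((w 1 * w 2 * w 3 * v 0 ^ 3) / (v 1 * v 2 * v 3 * w 0 ^ 3)) ^ 4 = 1 := by
      simp only [div_pow, mul_pow, r, r', ← pow_mul]; field_simp; ring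
    have : (((w 1 * w 2 * w 3 * v 0 ^ 3) / (v 1 * v 2 * v 3 * w 0 ^ 3)) ^ 2) ^ 2 = 1 := by
      rw [← pow_mul]; exact this
    refine (sq_eq_sq_iff_eq_or_eq_neg.1 (this.trans (one_pow 2).symm)).resolve_left fun h => hne ?_
    field_simp at h
    linear_combination w 0 ^ 2 * v 0 ^ 2 * h

theorem half_false (r : RH ρ) (L : Lam ρ) (h2 : (2 : K) ≠ 0) (h3 : (3 : K) ≠ 0) (hy : y ^ 2 = -1)
    (F : Fr ρ (E K) (E K) y) (hp : ∀ v f, D ρ v f → (∀ i, 2 * (v i * f i) = 1) →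
      (v 0 * v 1 * v 2 * v 3) ^ 2 = v 0 ^ 8) : False := by
  refine pauli_false r h2 hy F fun v f a => ?_
  rcases ty4 r.toTame L h2 hy F a with m | h | h
  · exact nm_mon m fun i j α β hij ha hb h1 h4 =>
      mon_ratio L h2 F (by norm_num) hy hij ha hb (a.of_eq h1.symm h4.symm)
  · have h' : ∀ i, 2 * (v i * f i) = 1 := fun i => by simpa [pp] using h i
    exact nm_half h2 h' (half_std L h2 hy F a h' 0) (hp v f a h')
  · exact (h3 h.1).elim

theorem std_false (r : RH ρ) (L : Lam ρ) (h2 : (2 : K) ≠ 0) (hy : y ^ 2 = -1)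
    (F : Fr ρ (E K) (E K) y) : False := by
  by_cases h3 : (3 : K) = 0
  · exact three_false r L h2 h3 hy F
  refine half_false r L h2 h3 hy F fun w g b hg => by_contra fun hw => ?_
  have F1 := F.scale (by norm_num) ![1, 0, 0, 0]
  obtain ⟨B, hB⟩ := r3_std F1.du ρ
  have F' := Fr.r3_cnj hB id Function.injective_id F1
  refine half_false (r.cnj B) (lam_cnj L B) h2 h3 hy F' fun v f a hf => ?_
  have a' := (hB v f).1 a
  have h0 := y0 hy
  have e1 : ∑ i, v i • y ^ (![1, 0, 0, 0] : Fin 4 → ℤ) i • E K i = ![y * v 0, v 1, v 2, v 3] := by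
    ext i; fin_cases i <;> simp [Fin.sum_univ_four, mul_comm]
  have e2 : ∑ i, f i • (y ^ (![1, 0, 0, 0] : Fin 4 → ℤ) i)⁻¹ • E K i =
      ![y⁻¹ * f 0, f 1, f 2, f 3] := by
    ext i; fin_cases i <;> simp [Fin.sum_univ_four, mul_comm]
  rw [e1, e2] at a'
  have := two_half L h2 h3 hy F a' b (fun i => by
    fin_cases i
    · have := hf 0; simp only [Fin.zero_eta, cons_val_zero]; field_simp; linear_combination this
    exacts [hf 1, hf 2, hf 3]) hg
  simp only [cons_val_zero, cons_val_one, cons_val] at this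
  have r' := fun i => half_std L h2 hy F b hg 0 i
  have w0 : w 0 ≠ 0 := left_ne_zero_of_mul (right_ne_zero_of_mul_eq_one (hg 0))
  have e3 : (w 0 * w 1 * w 2 * w 3) ^ 2 = -w 0 ^ 8 := by
    refine (sq_eq_sq_iff_eq_or_eq_neg.1 ?_).resolve_left hw
    rw [← pow_mul, show 2 * 2 = 4 by rfl, mul_pow, mul_pow, mul_pow, r' 1, r' 2, r' 3]; ring
  rw [e3] at this
  refine mul_left_cancel₀ (pow_ne_zero 8 w0) ?_
  linear_combination this + w 0 ^ 8 * ((v 0 * v 1 * v 2 * v 3) ^ 2 +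
    v 0 ^ 8 * (y ^ 6 - y ^ 4 + y ^ 2 - 1)) * hy

end R4c

theorem RH.not_four (r : RH ρ) (L : Lam ρ) (h2 : (2 : K) ≠ 0) {e x : Fin 4 → V4 K} {i : K}
    (hi : i ^ 2 = -1) (F : Fr ρ e x i) : False := by
  obtain ⟨B, hB⟩ := r3_std F.du ρ
  exact R4c.std_false (r.cnj B) (R4c.lam_cnj L B) h2 hi
    (Fr.r3_cnj hB id Function.injective_id F)

end Cfsg.Agent.D4
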