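import Cfsg.Agent.D4.R4b
import Cfsg.Agent.D4.R3g

/-!
Roots on a frame `G(4, 4, 4)`: ratios of coordinates, characteristic three.
-/

set_option autoImplicit false

open Matrix

namespace Cfsg.Agent.D4

variable {K : Type*} [Field K] {Γ : Type*} [Group Γ] {ρ : Γ →* M4 K} {u v w f g h : V4 K}

namespace R4c

open R4

section ratio

variable {k : ℕ} {e x : Fin k → V4 K} {y : K} {i j l : Fin k}

theorem mon_ratio (L : Lam ρ) (h2 : (2 : K) ≠ 0) (F : Fr ρ e x y) (hk : 3 ≤ k) (hy : y ^ 2 = -1)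
    (hij : i ≠ j) {a b : K} (ha : a ≠ 0) (hb : b ≠ 0)
    (A : D ρ (a • e i + b • e j) (a⁻¹ • x i + b⁻¹ • x j)) : b ^ 4 = a ^ 4 := by
  have d := F.du
  obtain ⟨l, hli, hlj⟩ := exists_third hk i j
  by_cases hs : b ^ 2 = a ^ 2
  · linear_combination (b ^ 2 + a ^ 2) * hs
  have k : ∀ φ : K, φ ^ 2 = 1 → 2 * (a * b) - φ * (a ^ 2 + b ^ 2) = a * b ∨
      2 * (a * b) - φ * (a ^ 2 + b ^ 2) = 2 * (a * b) := fun φ hφ => by
    have n1 := nrt F hk hy hij (φ := φ) (ψ := φ) (by linear_combination (φ ^ 2 + 1) * hφ)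
      (by linear_combination hφ)
    have n2 := nrt F hk hy hlj.symm (φ := 1) (ψ := 1) (by ring) (by ring)
    have := L _ _ _ _ _ _ A n1 n2 fun h => hs (by
      simp only [sub_dotProduct, dotProduct_sub, add_dotProduct, dotProduct_add, smul_dotProduct,
        dotProduct_smul, d.eq, d.ne hij, d.ne hij.symm, d.ne hli, d.ne hlj, d.ne hli.symm,
        d.ne hlj.symm, smul_eq_mul] at h
      field_simp at h
      grind)
    simp only [lam, sub_dotProduct, dotProduct_sub, add_dotProduct, dotProduct_add,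
      smul_dotProduct, dotProduct_smul, d.eq, d.ne hij, d.ne hij.symm, smul_eq_mul] at this
    rcases this with h | h <;> field_simp at h
    · left; grind
    · right; grind
  have ab := mul_ne_zero ha hb
  rcases k 1 (by ring) with h | h <;> rcases k (-1) (by ring) with h' | h'
  · exact (mul_ne_zero h2 ab (by linear_combination h + h')).elim
  · exact (ab (by linear_combination h + h')).elim
  · exact (ab (by linear_combination h + h')).elim
  · linear_combination (a ^ 2 - b ^ 2) * h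

theorem half_ratio (L : Lam ρ) (h2 : (2 : K) ≠ 0) (F : Fr ρ e x y) (hk : 3 ≤ k) (hy : y ^ 2 = -1)
    (a : D ρ v f) (hp : ∀ i, 2 * pp e x v f i = 1) (i j : Fin k) :
    (x j ⬝ᵥ v) ^ 4 = (x i ⬝ᵥ v) ^ 4 := by
  by_cases hij : i = j
  · rw [hij]
  by_cases hX : x i ⬝ᵥ v - 1 * (x j ⬝ᵥ v) = 0
  · rw [show x j ⬝ᵥ v = x i ⬝ᵥ v by linear_combination -hX]
  obtain ⟨l, hli, hlj⟩ := exists_third hk i j
  have := lam_third L h2 F hk hy a hij hli hlj (right_ne_zero_of_mul_eq_one (hp l)) (φ := 1)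
    (ψ := 1) (by ring) (by ring) hX
  rw [lam_sw] at this
  have pi := hp i
  have pj := hp j
  simp only [pp] at pi pj
  generalize x i ⬝ᵥ v = A, x j ⬝ᵥ v = B, f ⬝ᵥ e i = C, f ⬝ᵥ e j = E at *
  rcases this with h | h
  · have : A ^ 2 + B ^ 2 = 0 := by
      linear_combination (-2 * A * B) * h + (A * B - B ^ 2) * pi + (A * B - A ^ 2) * pj
    linear_combination (B ^ 2 - A ^ 2) * this
  · have : (A + B) ^ 2 = 0 := by
      linear_combination (-2 * A * B) * h + (A * B - B ^ 2) * pi + (A * B - A ^ 2) * pj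
    have := pow_eq_zero_iff two_ne_zero |>.1 this
    rw [show B = -A by linear_combination this]; ring

theorem three_ratio (L : Lam ρ) (h2 : (2 : K) ≠ 0) (F : Fr ρ e x y) (hk : 3 ≤ k)
    (hy : y ^ 2 = -1) (a : D ρ v f) (h3 : (3 : K) = 0)
    (hp : ∀ i, pp e x v f i = 1 ∨ pp e x v f i = 2) (i j : Fin k) :
    (x j ⬝ᵥ v) ^ 4 * pp e x v f i = (x i ⬝ᵥ v) ^ 4 * pp e x v f j := by
  by_cases hij : i = j
  · rw [hij]
  have p0 : ∀ i, pp e x v f i ≠ 0 := fun i => by rcases hp i with h | h <;> simp [h, h2]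
  by_cases hq : pp e x v f i = pp e x v f j
  · rw [← hq]
    congr 1
    by_cases hX : x i ⬝ᵥ v - 1 * (x j ⬝ᵥ v) = 0
    · rw [show x j ⬝ᵥ v = x i ⬝ᵥ v by linear_combination -hX]
    obtain ⟨l, hli, hlj⟩ := exists_third hk i j
    have := lam_third L h2 F hk hy a hij hli hlj (p0 l) (φ := 1) (ψ := 1) (by ring) (by ring) hX
    rw [lam_sw] at this
    have pi := hp i
    simp only [pp] at pi hq
    generalize x i ⬝ᵥ v = A, x j ⬝ᵥ v = B, f ⬝ᵥ e i = C, f ⬝ᵥ e j = E at *
    have key : A ^ 2 + B ^ 2 = 0 ∨ (A + B) ^ 2 = 0 := by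
      rcases pi with pi | pi <;> rcases this with h | h
      · right
        linear_combination (-A * B) * h + (2 * A * B - B ^ 2 - A ^ 2) * pi +
          (A ^ 2 - A * B) * hq + A * B * h3
      · left
        linear_combination (-A * B) * h + (2 * A * B - B ^ 2 - A ^ 2) * pi + (A ^ 2 - A * B) * hq
      · left
        linear_combination A * B * h - (2 * A * B - B ^ 2 - A ^ 2) * pi - (A ^ 2 - A * B) * hq +
          (A ^ 2 + B ^ 2 - A * B) * h3
      · right
        linear_combination A * B * h - (2 * A * B - B ^ 2 - A ^ 2) * pi - (A ^ 2 - A * B) * hq +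
          (A ^ 2 + B ^ 2) * h3
    rcases key with h | h
    · linear_combination (B ^ 2 - A ^ 2) * h
    · have := pow_eq_zero_iff two_ne_zero |>.1 h
      rw [show B = -A by linear_combination this]; ring
  have := lam_ne L h2 F hk hy a hij hq (φ := 1) (ψ := 1) (by ring) (by ring)
  rw [lam_sw] at this
  have pi := hp i
  have pj := hp j
  simp only [pp] at pi pj hq ⊢
  generalize x i ⬝ᵥ v = A, x j ⬝ᵥ v = B, f ⬝ᵥ e i = C, f ⬝ᵥ e j = E at *
  rcases pi with pi | pi <;> rcases pj with pj | pj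
  · exact (hq (pi.trans pj.symm)).elim
  · rw [pi, pj]; rcases this with h | h <;> grind
  · rw [pi, pj]; rcases this with h | h <;> grind
  · exact (hq (pi.trans pj.symm)).elim

end ratio

/-- The types of roots on a full frame. -/
theorem ty4 (t : Tame ρ) (L : Lam ρ) (h2 : (2 : K) ≠ 0) {y : K} (hy : y ^ 2 = -1)
    {e x : Fin 4 → V4 K} (F : Fr ρ e x y) (a : D ρ v f) : Mon e x v f ∨
      (∀ i, 2 * pp e x v f i = 1) ∨ ((3 : K) = 0 ∧ ∀ i, pp e x v f i = 1 ∨ pp e x v f i = 2) := by
  rcases tyk t L h2 hy F (by norm_num) a with t | ⟨j, p, z⟩ | t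
  · have := sum_add_rs e x v
    rw [F.du.full] at this
    exact (a.2.1 (by simpa [fun i => (t i).1] using this.symm)).elim
  · have := F.du.dot_eq f v
    rw [F.du.full v, dotProduct_zero, Fintype.sum_eq_single j fun i h => by simp [(z i h).1], a.1,
      show (x j ⬝ᵥ v) * (f ⬝ᵥ e j) = 1 from p] at this
    exact (one_ne_zero (α := K) (by linear_combination this)).elim
  · exact t

theorem lam_cnj (L : Lam ρ) (B : (M4 K)ˣ) : Lam (cnj ρ B) := fun v f w g u h a b c n => by
  have k := fun φ v => dot_cnj B⁻¹ φ v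
  simp only [inv_inv] at k
  have := L _ _ _ _ _ _ ((D.cnj_iff B).1 a) ((D.cnj_iff B).1 b) ((D.cnj_iff B).1 c)
    (by simpa only [NS, k] using n)
  simpa only [lam, k] using this

/-- The standard frame. -/
abbrev E (K : Type*) [Field K] : Fin 4 → V4 K := fun i => Pi.single i 1

theorem det_refl (a : f ⬝ᵥ v = 2) : (1 - vecMulVec v f).det = -1 := by
  rw [sub_eq_add_neg, ← neg_vecMulVec, det_one_add_vv, dotProduct_neg, a]; ring

/-- Unitary reflections. -/
theorem uni_false (r : RH ρ) (h2 : (2 : K) ≠ 0) (σ : K →+* K) (hσ : ∀ c, σ c = c ^ 3) {y : K}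
    (F : Fr ρ (E K) (E K) y) (hv : ∀ v f, D ρ v f → ∀ i j, σ (v j * f i) = v i * f j) : False := by
  let st : M4 K → M4 K := fun M => (M.map σ)ᵀ
  have sm : ∀ A B, st (A * B) = st B * st A := fun A B => by
    simp only [st, Matrix.map_mul, transpose_mul]
  have s1 : st 1 = 1 := by simp [st]
  have ss : ∀ (c : K) A, st (c • A) = c ^ 3 • st A := fun c A => by
    ext i j; simp [st, hσ, mul_pow]
  let U : Subgroup Γ :=
    { carrier := {g | st (ρ g) * ρ g = 1}
      mul_mem' := fun {a b} ha hb => by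
        simp only [Set.mem_ofPred_eq] at ha hb ⊢
        rw [map_mul, sm, mul_assoc, ← mul_assoc (st (ρ a)), ha, one_mul, hb]
      one_mem' := by simp [s1]
      inv_mem' := fun {a} ha => by
        simp only [Set.mem_ofPred_eq] at ha ⊢
        have h1 : st (ρ a) = ρ a⁻¹ := (rho_inv_eq (mul_eq_one_comm.1 ha)).symm
        have h3 : st (ρ a⁻¹) * st (ρ a) = 1 := by rw [← sm, mul_inv_rho, s1]
        rwa [h1] at h3 }
  have hU : ∀ k v f, D ρ v f → ρ k = 1 - vecMulVec v f → k ∈ U := fun k v f a hk => by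
    have : st (ρ k) = ρ k := by
      rw [hk]
      ext i j
      simp only [st, transpose_apply, map_apply, Matrix.sub_apply, map_sub, vecMulVec_apply, hv v f a]
      by_cases h : i = j
      · subst h; simp
      · simp [h, Ne.symm h]
    show st (ρ k) * ρ k = 1
    rw [this, hk, refl_sq a.1]
  have h01 : (0 : Fin 4) ≠ 1 := by decide
  have h12 : (1 : Fin 4) ≠ 2 := by decide
  let N : Subgroup Γ := U ⊓ (detMonoidHom.comp ρ).ker
  have hN : N.Normal := ⟨fun n hn g => by
    refine ⟨?_, (MonoidHom.normal_ker _).conj_mem n hn.2 g⟩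
    obtain ⟨m, hm, c, hc⟩ := r.refl_gen (F.one 0 1 h01).2 U hU g
    have e : ρ (g * n * g⁻¹) = ρ (m * n * m⁻¹) := by
      have : ρ m⁻¹ = c • ρ g⁻¹ := rho_inv_eq (by rw [mul_smul_comm, ← smul_mul_assoc, ← hc,
        mul_inv_rho])
      simp only [map_mul, this, hc, smul_mul_assoc, mul_smul_comm]
    have := U.mul_mem (U.mul_mem hm hn.1) (U.inv_mem hm)
    show st (ρ _) * ρ _ = 1
    rw [e]; exact this⟩
  have a1 := (F.one 0 1 h01).2
  have a2 := (F.one 1 2 h12).2
  obtain ⟨s, hs⟩ := a1.isIn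
  obtain ⟨t, ht⟩ := a2.isIn
  obtain ⟨n, hn, c, hc⟩ := r.simp N hN ⟨s * t, ⟨U.mul_mem (hU _ _ _ a1 hs) (hU _ _ _ a2 ht), by
    show (ρ (s * t)).det = 1
    rw [map_mul, det_mul, hs, ht, det_refl a1.1, det_refl a2.1]; ring⟩, fun c hc => by
      have := congrFun (congrFun hc 1) 0
      rw [map_mul, hs, ht] at this
      simp [Matrix.mul_apply, vecMulVec_apply, one_apply] at this⟩ s
  have e1 : st (ρ s) * ρ s = 1 := hU _ _ _ a1 hs
  have e2 : st (ρ n) * ρ n = 1 := hn.1
  have e3 : (ρ n).det = 1 := hn.2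
  rw [hc, ss, smul_mul_assoc, mul_smul_comm, e2, smul_smul] at e1
  have e4 := smul_one_inj (e1.trans (one_smul K _).symm)
  have e5 := congrArg det hc
  rw [hs, det_refl a1.1, det_smul, e3, Fintype.card_fin] at e5
  exact h2 (by linear_combination -e5 - e4)

theorem three_false (r : RH ρ) (L : Lam ρ) (h2 : (2 : K) ≠ 0) (h3 : (3 : K) = 0) {y : K}
    (hy : y ^ 2 = -1) (F : Fr ρ (E K) (E K) y) : False := by
  have : Fact (Nat.Prime 3) := ⟨Nat.prime_three⟩
  have : CharP K 3 := (CharP.charP_iff_prime_eq_zero Nat.prime_three).2 (by exact_mod_cast h3)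
  refine uni_false r h2 (frobenius K 3) (fun c => rfl) F fun v f a i j => ?_
  rw [frobenius_def]
  have key : (∀ i, pp (E K) (E K) v f i = 1 ∨ pp (E K) (E K) v f i = 2) →
      (v j * f i) ^ 3 = v i * f j := fun hp => by
    have := three_ratio L h2 F (by norm_num) hy a h3 hp i j
    have pi := hp i
    have pj := hp j
    simp only [pp, single_one_dotProduct, dotProduct_single_one] at this pi pj
    have vi : v i ≠ 0 := fun h => by rcases pi with p | p <;> simp [h, h2.symm] at p
    have vj : v j ≠ 0 := fun h => by rcases pj with p | p <;> simp [h, h2.symm] at p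
    have p3 : (v i * f i) ^ 3 = v i * f i := by
      rcases pi with p | p <;> rw [p]
      · ring
      · linear_combination 2 * h3
    refine mul_left_cancel₀ (mul_ne_zero (pow_ne_zero 3 vi) vj) ?_
    linear_combination v j ^ 4 * p3 + this
  rcases ty4 r.toTame L h2 hy F a with m | hp | hp
  · rcases m with ⟨i', j', α, β, hij, ha, hb, rfl, rfl⟩ | ⟨i', α, ha, rfl, rfl⟩
    · have := mon_ratio L h2 F (by norm_num) hy hij ha hb a
      simp only [Pi.add_apply, Pi.smul_apply, Pi.single_apply, smul_eq_mul]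
      by_cases h1 : i = i' <;> by_cases h4 : i = j' <;> by_cases h5 : j = i' <;>
        by_cases h6 : j = j' <;> simp_all <;> field_simp <;> simp_all
    · simp only [Pi.smul_apply, Pi.single_apply, smul_eq_mul]
      by_cases h1 : i = i' <;> by_cases h5 : j = i' <;> simp [h1, h5]
      field_simp
      linear_combination h3
  · exact key fun i => Or.inr (by linear_combination 2 * hp i - pp (E K) (E K) v f i * h3)
  · exact key hp.2

end R4c

end Cfsg.Agent.D4
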