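import Cfsg.Agent.D4.RPl
import Cfsg.Agent.D4.RBlk

/-!
A block carrying the reflection group of order `336` is impossible.
-/

set_option autoImplicit false

open Matrix

namespace Cfsg.Agent.D4

variable {K : Type*} [Field K] {Γ : Type*} [Group Γ] {ρ : Γ →* M4 K} {u v w f g h : V4 K}

section Plane

variable {e x : Fin 2 → V4 K} {a0 a1 c0 c1 : K} {b β : V4 K}

/-- A root in the coordinates of a plane. -/
structure Ro2 (ρ : Γ →* M4 K) (e x : Fin 2 → V4 K) (a0 a1 c0 c1 : K) (b β : V4 K) : Prop where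
  d : D ρ (a0 • e 0 + a1 • e 1 + b) (c0 • x 0 + c1 • x 1 + β)
  b0 : x 0 ⬝ᵥ b = 0
  b1 : x 1 ⬝ᵥ b = 0
  c0 : β ⬝ᵥ e 0 = 0
  c1 : β ⬝ᵥ e 1 = 0

theorem Pl.d01 (P : Pl ρ e x) : x 0 ⬝ᵥ e 1 = 0 := P.du.ne (by decide)
theorem Pl.d10 (P : Pl ρ e x) : x 1 ⬝ᵥ e 0 = 0 := P.du.ne (by decide)

theorem Ro2.sw (P : Pl ρ e x) (r : Ro2 ρ e x a0 a1 c0 c1 b β) : Ro2 ρ e x a1 a0 c1 c0 b β :=
  ⟨(P.n1.act r.d).of_eq (by simp [P.du.eq, P.d01, P.d10, r.b0, r.b1]; module)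
    (by simp [P.du.eq, P.d01, P.d10, r.c0, r.c1]; module), r.b0, r.b1, r.c0, r.c1⟩

theorem Ro2.ng (P : Pl ρ e x) (r : Ro2 ρ e x a0 a1 c0 c1 b β) : Ro2 ρ e x (-a0) a1 (-c0) c1 b β :=
  ⟨(P.d0.act r.d).of_eq (by simp [P.du.eq, P.d01, r.b0]; module)
    (by simp [P.du.eq, P.d10, r.c0]; module), r.b0, r.b1, r.c0, r.c1⟩

theorem Ro2.nrm (h2 : (2 : K) ≠ 0) (r : Ro2 ρ e x a0 a1 c0 c1 b β) (p0 : a0 * c0 = 1)
    (p1 : 2 * (a1 * c1) = 1) (q : a0 ^ 2 - a0 * a1 + 2 * a1 ^ 2 = 0) : ∃ k t : K, t ≠ 0 ∧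
      k ^ 2 - k + 2 = 0 ∧ Ro2 ρ e x k 1 ((1 - k) / 2) (1 / 2) (t • b) (t⁻¹ • β) := by
  have h1 : a1 ≠ 0 := by rintro rfl; simp at p1
  refine ⟨a0 / a1, a1⁻¹, inv_ne_zero h1, by field_simp; linear_combination q,
    (r.d.smul (inv_ne_zero h1)).of_eq ?_ ?_, by simp [r.b0], by simp [r.b1], by simp [r.c0],
    by simp [r.c1]⟩
  · match_scalars <;> field_simp
  · match_scalars <;> field_simp
    · linear_combination -c0 * q + (a0 - a1) * p0
    · linear_combination -p1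

theorem Ro2.nop (P : Pl ρ e x) (N : NoP ρ) (r : Ro2 ρ e x a0 a1 c0 c1 b β)
    (n : a0 * c1 ≠ a1 * c0) : a0 * c0 ≠ a1 * c1 := by
  simpa [pp, P.du.eq, P.d01, P.d10, r.b0, r.b1, r.c0, r.c1] using N e x _ _ P r.d (by
    simpa [NSP, P.du.eq, P.d01, P.d10, r.b0, r.b1, r.c0, r.c1] using n)

theorem Ro2.p3 (P : Pl ρ e x) (L : Lam ρ) (N : NoP ρ) (r : Ro2 ρ e x a0 a1 c0 c1 b β)
    (n : a0 * c1 ≠ a1 * c0) : (7 : K) ≠ 0 ∧ ∃ k t : K, t ≠ 0 ∧
      k ^ 2 - k + 2 = 0 ∧ Ro2 ρ e x k 1 ((1 - k) / 2) (1 / 2) (t • b) (t⁻¹ • β) := by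
  have h2 := P.two_ne
  have m := r.nop P N n
  have e0 : x 0 ⬝ᵥ (a0 • e 0 + a1 • e 1 + b) = a0 := by simp [P.du.eq, P.d01, r.b0]
  have e1 : x 1 ⬝ᵥ (a0 • e 0 + a1 • e 1 + b) = a1 := by simp [P.du.eq, P.d10, r.b1]
  have f0 : (c0 • x 0 + c1 • x 1 + β) ⬝ᵥ e 0 = c0 := by simp [P.du.eq, P.d10, r.c0]
  have f1 : (c0 • x 0 + c1 • x 1 + β) ⬝ᵥ e 1 = c1 := by simp [P.du.eq, P.d01, r.c1]
  rcases P.cases L r.d (by rwa [NSP, e0, e1, f0, f1]) with ⟨p, q, -⟩ | ⟨p, q, -⟩ |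
    ⟨h7, i, j, hij, p, q, ε, hε, s⟩
  · rw [pp, e0, f0] at p
    rw [pp, e1, f1] at q
    exact absurd (mul_left_cancel₀ h2 (p.trans q.symm)) m
  · rw [pp, e0, f0] at p
    rw [pp, e1, f1] at q
    exact absurd (p.trans q.symm) m
  refine ⟨h7, ?_⟩
  fin_cases i <;> fin_cases j <;> simp only [Fin.zero_eta, Fin.mk_one, ne_eq, not_true, pp, e0, e1,
    f0, f1] at hij p q s <;> rcases hε with rfl | rfl
  · exact r.nrm h2 p q (by linear_combination s)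
  · exact (r.ng P).nrm h2 (by linear_combination p) q (by linear_combination s)
  · exact (r.sw P).nrm h2 p q (by linear_combination s)
  · exact ((r.sw P).ng P).nrm h2 (by linear_combination p) q (by linear_combination s)

theorem Ro2.ext (P : Pl ρ e x) {k : K} (hk : k ^ 2 - k + 2 = 0)
    (r : Ro2 ρ e x k 1 ((1 - k) / 2) (1 / 2) b β) :
    2 * β ⬝ᵥ b = 1 ∧ D ρ (e 1 + b) (x 1 + (2 : K) • β) := by
  have h2 := P.two_ne
  constructor
  · have := r.d.1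
    simp [P.du.eq, P.d01, P.d10, r.b0, r.b1, r.c0, r.c1] at this
    field_simp at this
    linear_combination this + hk
  · refine ((r.d.act P.d0).smul' (c := -k) (d := -((1 - k) / 2))
      (by field_simp; linear_combination -hk)).of_eq ?_ ?_
    · simp [P.du.eq, P.d10, r.c0]
      match_scalars <;> field_simp <;> grind
    · simp [P.du.eq, P.d01, r.b0]
      match_scalars <;> field_simp <;> grind

end Plane

variable {e x : Fin 3 → V4 K} {a0 a1 a2 c0 c1 c2 a0' a1' a2' c0' c1' c2' κ : K} {b β b' β' : V4 K}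

/-- A vector in the coordinates of a frame. -/
def cv (e : Fin 3 → V4 K) (a0 a1 a2 : K) (b : V4 K) : V4 K := a0 • e 0 + a1 • e 1 + a2 • e 2 + b

/-- A root in the coordinates of a frame. -/
structure Ro (ρ : Γ →* M4 K) (e x : Fin 3 → V4 K) (a0 a1 a2 c0 c1 c2 : K) (b β : V4 K) :
    Prop where
  d : D ρ (cv e a0 a1 a2 b) (cv x c0 c1 c2 β)
  hb : ∀ i, x i ⬝ᵥ b = 0
  hc : ∀ i, β ⬝ᵥ e i = 0

theorem Du.cv_dot (d : Du e x) (hb : ∀ i, x i ⬝ᵥ b = 0) (hc : ∀ i, β ⬝ᵥ e i = 0) :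
    cv x c0 c1 c2 β ⬝ᵥ cv e a0 a1 a2 b = c0 * a0 + c1 * a1 + c2 * a2 + β ⬝ᵥ b := by
  simp [cv, d _ _, hb, hc, mul_comm]

theorem Ro.act (d : Du e x) (r : Ro ρ e x a0 a1 a2 c0 c1 c2 b β)
    (r' : Ro ρ e x a0' a1' a2' c0' c1' c2' b' β') (s t : K)
    (hs : c0 * a0' + c1 * a1' + c2 * a2' + β ⬝ᵥ b' = s)
    (ht : c0' * a0 + c1' * a1 + c2' * a2 + β' ⬝ᵥ b = t) :
    Ro ρ e x (a0' - s * a0) (a1' - s * a1) (a2' - s * a2) (c0' - t * c0) (c1' - t * c1)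
      (c2' - t * c2) (b' - s • b) (β' - t • β) :=
  ⟨(r.d.act r'.d).of_eq (by rw [d.cv_dot r'.hb r.hc, hs]; unfold cv; module)
    (by rw [d.cv_dot r.hb r'.hc, ht]; unfold cv; module), fun i => by simp [r.hb, r'.hb],
    fun i => by simp [r.hc, r'.hc]⟩

theorem Ro.act0 (d : Du e x) (r : Ro ρ e x a0 a1 a2 c0 c1 c2 0 0)
    (r' : Ro ρ e x a0' a1' a2' c0' c1' c2' b' β') (s t : K)
    (hs : c0 * a0' + c1 * a1' + c2 * a2' = s) (ht : c0' * a0 + c1' * a1 + c2' * a2 = t) :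
    Ro ρ e x (a0' - s * a0) (a1' - s * a1) (a2' - s * a2) (c0' - t * c0) (c1' - t * c1)
      (c2' - t * c2) b' β' := by
  simpa using r.act d r' s t (by simpa using hs) (by simpa using ht)

/-- The frame carries the reflection group of order `336`. -/
structure K3 (ρ : Γ →* M4 K) (e x : Fin 3 → V4 K) (κ : K) : Prop where
  du : Du e x
  d0 : Ro ρ e x 1 0 0 2 0 0 0 0
  n01 : Ro ρ e x 1 (-1) 0 1 (-1) 0 0 0
  n12 : Ro ρ e x 0 1 (-1) 0 1 (-1) 0 0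
  w : Ro ρ e x κ 1 1 ((1 - κ) / 2) (1 / 2) (1 / 2) 0 0
  hk : κ ^ 2 - κ + 2 = 0
  h2 : (2 : K) ≠ 0
  h7 : (7 : K) ≠ 0

theorem Ro.s01 (F : K3 ρ e x κ) (r : Ro ρ e x a0 a1 a2 c0 c1 c2 b β) :
    Ro ρ e x a1 a0 a2 c1 c0 c2 b β := by
  convert F.n01.act0 F.du r _ _ rfl rfl using 1 <;> ring

theorem Ro.s12 (F : K3 ρ e x κ) (r : Ro ρ e x a0 a1 a2 c0 c1 c2 b β) :
    Ro ρ e x a0 a2 a1 c0 c2 c1 b β := by
  convert F.n12.act0 F.du r _ _ rfl rfl using 1 <;> ring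

theorem Ro.n0 (F : K3 ρ e x κ) (r : Ro ρ e x a0 a1 a2 c0 c1 c2 b β) :
    Ro ρ e x (-a0) a1 a2 (-c0) c1 c2 b β := by
  convert F.d0.act0 F.du r _ _ rfl rfl using 1 <;> ring

theorem Ro.s02 (F : K3 ρ e x κ) (r : Ro ρ e x a0 a1 a2 c0 c1 c2 b β) :
    Ro ρ e x a2 a1 a0 c2 c1 c0 b β := ((r.s01 F).s12 F).s01 F

theorem Ro.n2 (F : K3 ρ e x κ) (r : Ro ρ e x a0 a1 a2 c0 c1 c2 b β) :
    Ro ρ e x a0 a1 (-a2) c0 c1 (-c2) b β := ((r.s02 F).n0 F).s02 F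

theorem K3.pl (F : K3 ρ e x κ) : Pl ρ ![e 0, e 1] ![x 0, x 1] where
  du i j := by fin_cases i <;> fin_cases j <;> simp [F.du _ _]
  d0 := by simpa [cv] using F.d0.d
  d1 := by simpa [cv] using (F.d0.s01 F).d
  n1 := by simpa [cv, sub_eq_add_neg] using F.n01.d

theorem K3.ne (F : K3 ρ e x κ) : κ ≠ 1 - κ := fun h => F.h7 (by
  linear_combination 4 * F.hk - (2 * κ - 1) * h)

theorem K3.ne0 (F : K3 ρ e x κ) : 1 - κ ≠ 0 := fun h => F.h2 (by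
  linear_combination F.hk + κ * h)

theorem Ro.two (F : K3 ρ e x κ) (r : Ro ρ e x a0 a1 a2 c0 c1 c2 b β) :
    Ro2 ρ ![e 0, e 1] ![x 0, x 1] a0 a1 c0 c1 (a2 • e 2 + b) (c2 • x 2 + β) :=
  ⟨by simpa [cv, add_assoc] using r.d, by simp [F.du _ _, r.hb], by simp [F.du _ _, r.hb],
    by simp [F.du _ _, r.hc], by simp [F.du _ _, r.hc]⟩

theorem Ro.lam (F : K3 ρ e x κ) (L : Lam ρ) (r : Ro ρ e x a0 a1 a2 c0 c1 c2 0 0)
    (r' : Ro ρ e x a0' a1' a2' c0' c1' c2' b β) (s t : K)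
    (hs : c0 * a0' + c1 * a1' + c2 * a2' = s) (ht : c0' * a0 + c1' * a1 + c2' * a2 = t)
    (n : s * c0' * a0 ≠ t * a0' * c0) : s * t = 1 ∨ s * t = 2 := by
  have := L _ _ _ _ _ _ r.d r'.d F.d0.d (fun e => n (mul_left_cancel₀ F.h2 (by
    rw [F.du.cv_dot r'.hb r.hc, F.du.cv_dot F.d0.hb r'.hc, F.du.cv_dot r.hb F.d0.hc,
      F.du.cv_dot r.hb r'.hc, F.du.cv_dot r'.hb F.d0.hc, F.du.cv_dot F.d0.hb r.hc, hs, ht] at e
    simp only [zero_dotProduct, dotProduct_zero] at e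
    linear_combination e)))
  simpa [D4.lam, F.du.cv_dot r'.hb r.hc, F.du.cv_dot r.hb r'.hc, hs, ht] using this

theorem K3.kill1 (F : K3 ρ e x κ) (L : Lam ρ) (N : NoP ρ)
    (r : Ro ρ e x 1 κ 0 (1 / 2) ((1 - κ) / 2) 0 b β) : False := by
  have h2 := F.h2
  have hk := F.hk
  have h3 : (3 : K) = 0 := by
    rcases F.w.lam F L r (1 / 2) (1 / 2) (by ring) (by ring) (fun e => F.ne (by
      field_simp at e; exact e)) with e | e <;> field_simp at e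
    · linear_combination -e
    · exact absurd (by linear_combination -e) F.h7
  refine ((F.w.act0 F.du r (1 / 2) (1 / 2) (by ring) (by ring)).s12 F).two F |>.nop F.pl N
    (fun e => ?_) ?_
  · field_simp at e
    exact F.ne (by grind)
  · field_simp
    grind

theorem K3.kill2 (F : K3 ρ e x κ) (L : Lam ρ) (N : NoP ρ)
    (r : Ro ρ e x (1 - κ) 1 0 (κ / 2) (1 / 2) 0 b β) : False := by
  have h2 := F.h2
  have hk := F.hk
  have e1 : (1 - κ) / 2 * (1 - κ) + 1 / 2 * 1 + 1 / 2 * 0 = -(κ / 2) := by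
    field_simp; linear_combination hk
  have e2 : κ / 2 * κ + 1 / 2 * 1 + 0 * 1 = -((1 - κ) / 2) := by
    field_simp; linear_combination hk
  have h3 : (3 : K) = 0 := by
    rcases F.w.lam F L r _ _ e1 e2 (fun e => F.ne (by
      field_simp at e; grind)) with e | e <;> field_simp at e
    · exact absurd (by linear_combination -e - hk) h2
    · exact mul_left_cancel₀ h2 (by linear_combination -e - hk)
  refine (F.w.act0 F.du r _ _ e1 e2).two F |>.nop F.pl N (fun e => ?_) ?_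
  · field_simp at e
    exact F.ne (by grind)
  · field_simp
    grind

theorem K3.p3 (F : K3 ρ e x κ) (L : Lam ρ) (N : NoP ρ) (r : Ro ρ e x a0 a1 a2 c0 c1 c2 b β)
    (n : a0 * c1 ≠ a1 * c0) : ∃ k t : K, t ≠ 0 ∧ k ^ 2 - k + 2 = 0 ∧
      Ro ρ e x k 1 (t * a2) ((1 - k) / 2) (1 / 2) (t⁻¹ * c2) (t • b) (t⁻¹ • β) := by
  obtain ⟨-, k, t, h0, hk, q⟩ := (r.two F).p3 F.pl L N n
  exact ⟨k, t, h0, hk, by simpa [cv, add_assoc, smul_smul] using q.d, fun i => by simp [r.hb],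
    fun i => by simp [r.hc]⟩

theorem K3.kill3 (F : K3 ρ e x κ) (t : Tame ρ) (r : Ro ρ e x 1 0 (-1) 1 0 (-1) b β) : b = 0 := by
  have h0 : β ⬝ᵥ b = 0 := by
    have := r.d.1
    rw [F.du.cv_dot r.hb r.hc] at this
    linear_combination this
  have r0 := (F.n01.s12 F)
  have r1 := F.d0.s02 F
  have r2 := F.w.s02 F
  have k1 : ∀ c0 c1 c2 : K, cv x c0 c1 c2 0 ⬝ᵥ b = 0 := fun _ _ _ => by simp [cv, r.hb]
  have k2 : ∀ c0 c1 c2 : K, β ⬝ᵥ cv e c0 c1 c2 0 = 0 := fun _ _ _ => by simp [cv, r.hc]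
  refine (heis_tri (s := 1) (t := 1) (t.notv F.h2) r0.d r1.d r2.d (fun e => F.ne ?_)
    (by simpa [cv] using r.d) h0 (k1 ..) (k2 ..) (k1 ..) (k2 ..) (k1 ..) (k2 ..)).1.resolve_left
    one_ne_zero
  have h2 := F.h2
  have hk := F.hk
  simp only [F.du.cv_dot r0.hb r0.hc, dotProduct_zero] at e
  field_simp at e
  exact mul_left_cancel₀ h2 (by linear_combination -e)

theorem K3.sym (F : K3 ρ e x κ) (t : Tame ρ) (L : Lam ρ) (N : NoP ρ)
    (r : Ro ρ e x a0 a1 a2 c0 c1 c2 b β) (hb : b ≠ 0) : a0 * c1 = a1 * c0 := by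
  by_contra n
  have h2 := F.h2
  have hκ := F.hk
  obtain ⟨k, s, h0, hk, q⟩ := F.p3 L N r n
  obtain ⟨e1, q1⟩ := (q.two F).ext F.pl hk
  obtain ⟨A, B, y, η, hy, m⟩ : ∃ A B y η, y ≠ 0 ∧ Ro ρ e x 0 1 A 0 1 B y η :=
    ⟨s * a2, 2 * (s⁻¹ * c2), s • b, (2 : K) • s⁻¹ • β, smul_ne_zero h0 hb,
      by simpa [cv, add_assoc, smul_smul] using q1, q.hb, fun i => by simp [r.hc]⟩
  replace m := m.s01 F
  by_cases hAB : A = B
  · subst hAB
    by_cases hA : A = 0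
    · subst hA
      have := (m.s02 F).act F.du (F.w.s01 F) 1 (1 / 2) (by simp) (by simp)
      exact F.kill1 L N (by simpa using this)
    have l1 := (F.w.s02 F).lam F L m _ _ rfl rfl fun e => F.ne (by
      field_simp at e; exact mul_left_cancel₀ hA (by linear_combination -e))
    have l2 := ((F.w.s02 F).n2 F).lam F L m _ _ rfl rfl fun e => F.ne (by
      field_simp at e; exact mul_left_cancel₀ hA (by linear_combination e))
    have : A = 1 ∨ A = -1 := by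
      rcases l1 with l1 | l1 <;> rcases l2 with l2 | l2 <;> field_simp at l1 l2
      · exact absurd (mul_left_cancel₀ h2 (by linear_combination l1 - l2)) hA
      · exact Or.inr (mul_left_cancel₀ h2 (by linear_combination l1 - l2))
      · exact Or.inl (mul_left_cancel₀ h2 (by linear_combination l1 - l2))
      · exact absurd (mul_left_cancel₀ h2 (by linear_combination l1 - l2)) hA
    rcases this with rfl | rfl
    exacts [hy (F.kill3 t (m.n2 F)), hy (F.kill3 t m)]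
  obtain ⟨k', s', -, hk', q'⟩ := F.p3 L N (m.s12 F) (by simpa using Ne.symm hAB)
  rcases mul_eq_zero.1 (by linear_combination hk' - hκ : (k' - κ) * (k' - (1 - κ)) = 0) with e | e <;>
    obtain rfl := sub_eq_zero.1 e
  · exact F.kill1 L N (by simpa using q'.s01 F)
  · exact F.kill2 L N (by simpa using q')

theorem K3.off (F : K3 ρ e x κ) (t : Tame ρ) (L : Lam ρ) (N : NoP ρ)
    (r : Ro ρ e x a0 a1 a2 c0 c1 c2 b β) (hb : b ≠ 0) : a0 * c1 = 0 := by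
  have h2 := F.h2
  have key : ∀ {a0 a1 a2 c0 c1 c2 : K}, Ro ρ e x a0 a1 a2 c0 c1 c2 b β → a0 * (c1 - c2) = 0 := by
    intro a0 a1 a2 c0 c1 c2 r
    have e1 := F.sym t L N r hb
    have e2 := F.sym t L N (r.s12 F) hb
    have e3 := F.sym t L N ((r.s01 F).s12 F) hb
    have e4 := F.sym t L N (((F.w.act0 F.du r _ _ rfl rfl).s01 F).s12 F) hb
    field_simp at e4
    refine (mul_eq_zero.1 ?_).resolve_left (mul_ne_zero h2 (sub_ne_zero.2 F.ne))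
    grind
  exact mul_left_cancel₀ h2 (by linear_combination key r + key (r.n2 F))

theorem K3.zero (F : K3 ρ e x κ) (t : Tame ρ) (L : Lam ρ) (N : NoP ρ)
    (r : Ro ρ e x a0 a1 a2 c0 c1 c2 b β) (hb : b ≠ 0) : c0 = 0 := by
  by_contra h0
  have h2 := F.h2
  have h1 : a0 ≠ 0 := by
    have := t.ne r.d F.d0.d (by simpa [F.du.cv_dot F.d0.hb r.hc] using h0)
    simpa [F.du.cv_dot r.hb F.d0.hc, h2] using this
  obtain rfl := (mul_eq_zero.1 (F.off t L N r hb)).resolve_left h1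
  obtain rfl := (mul_eq_zero.1 (F.off t L N (r.s12 F) hb)).resolve_left h1
  obtain rfl := (mul_eq_zero.1 (F.off t L N (r.s01 F) hb)).resolve_right h0
  obtain rfl := (mul_eq_zero.1 (F.off t L N ((r.s12 F).s01 F) hb)).resolve_right h0
  have := F.off t L N ((F.w.s01 F).act0 F.du r _ _ rfl rfl) hb
  field_simp at this
  exact mul_ne_zero (mul_ne_zero h1 h0) F.ne0 (by linear_combination -this)

theorem RH.not_p3 (r : RH ρ) (L : Lam ρ) (N : NoP ρ) {e x : Fin 2 → V4 K} (P : Pl ρ e x)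
    (a : D ρ v f) (n : NSP e x v f) : False := by
  have h2 := P.two_ne
  obtain ⟨h7, k, s, -, hk, q⟩ := Ro2.p3 P L N (a0 := x 0 ⬝ᵥ v) (a1 := x 1 ⬝ᵥ v) (c0 := f ⬝ᵥ e 0)
    (c1 := f ⬝ᵥ e 1) ⟨a.of_eq (by simpa using sum_add_rs e x v) (by simpa using sum_add_rs' e x f),
      P.du.dot_rs v 0, P.du.dot_rs v 1, P.du.rs_dot f 0, P.du.rs_dot f 1⟩ n
  generalize s • rs e x v = b, s⁻¹ • rs x e f = β at q
  obtain ⟨e1, q1⟩ := q.ext P hk
  have F : K3 ρ ![e 0, e 1, b] ![x 0, x 1, (2 : K) • β] k :=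
    { du := fun i j => by
        fin_cases i <;> fin_cases j <;>
          simp [P.du.eq, P.d01, P.d10, q.b0, q.b1, q.c0, q.c1, e1]
      d0 := ⟨by simpa [cv] using P.d0, by simp, by simp⟩
      n01 := ⟨by simpa [cv, sub_eq_add_neg] using P.n1, by simp, by simp⟩
      n12 := ⟨(P.d1.act q1).neg.of_eq (by simp [cv, P.du.eq, q.b1]; module)
        (by simp [cv, P.du.eq, q.c1]; module), by simp, by simp⟩
      w := ⟨by simpa [cv, smul_smul, h2] using q.d, by simp, by simp⟩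
      hk := hk
      h2 := h2
      h7 := h7 }
  generalize ![e 0, e 1, b] = E, ![x 0, x 1, (2 : K) • β] = X at F
  obtain ⟨z, η, o, ⟨i, hi⟩, hz⟩ := r.outer F.du (by decide) (by decide)
  have R : Ro ρ E X (X 0 ⬝ᵥ z) (X 1 ⬝ᵥ z) (X 2 ⬝ᵥ z) (η ⬝ᵥ E 0) (η ⬝ᵥ E 1) (η ⬝ᵥ E 2)
      (rs E X z) (rs X E η) :=
    ⟨o.of_eq (by simpa [cv, Fin.sum_univ_three] using sum_add_rs E X z)
      (by simpa [cv, Fin.sum_univ_three] using sum_add_rs' E X η), F.du.dot_rs z, F.du.rs_dot η⟩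
  fin_cases i
  exacts [hi (F.zero r.toTame L N R hz), hi (F.zero r.toTame L N (R.s01 F) hz),
    hi (F.zero r.toTame L N (R.s02 F) hz)]

end Cfsg.Agent.D4
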