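import Cfsg.Agent.D4.Defs2
import Cfsg.Agent.D4.Rk

/-!
If all triangles of reflections are symmetric, the group preserves a symmetric form up to scalars.
-/

set_option autoImplicit false

open Matrix

namespace Cfsg.Agent.D4

variable {K : Type*} [Field K] {Γ : Type*} [Group Γ] {ρ : Γ →* M4 K} {u v w f g h : V4 K}

theorem RH.exists_root (r : RH ρ) : ∃ v f, D ρ v f := by
  by_contra hn
  push Not at hn
  have := r.vec (v := Pi.single 0 1) fun w g a => absurd a (hn w g)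
  simpa using congrFun this 0

theorem RH.nb_span (r : RH ρ) (a0 : D ρ v f) {η : V4 K}
    (hη : ∀ w g, D ρ w g → f ⬝ᵥ w ≠ 0 → η ⬝ᵥ w = 0) : η = 0 := by
  let W : Submodule K (V4 K) :=
    { carrier := {x | ∀ η : V4 K, (∀ w g, D ρ w g → f ⬝ᵥ w ≠ 0 → η ⬝ᵥ w = 0) → η ⬝ᵥ x = 0}
      add_mem' := fun ha hb η h => by rw [dotProduct_add, ha η h, hb η h, add_zero]
      zero_mem' := fun η _ => dotProduct_zero η
      smul_mem' := fun c _ ha η h => by rw [dotProduct_smul, ha η h, smul_zero] }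
  rcases r.irr W (fun u h b x hx e η hη => by
    by_cases e0 : f ⬝ᵥ u = 0
    swap
    · exact hη u h b e0
    by_contra e1
    refine e (hx h fun w g c e2 => by_contra fun e3 => ?_)
    have := hη _ _ (b.act c) (by simpa [e0] using e2)
    simp [hη w g c e2, e1, e3] at this) with e | e
  · refine absurd (r.covec (φ := f) fun w g c => by_contra fun e2 => c.2.1 ?_) a0.2.2.1
    exact (Submodule.mem_bot K).1 (e ▸ fun η hη => hη w g c e2 : w ∈ ⊥)
  · by_contra h0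
    obtain ⟨x, hx⟩ := exists_dot_ne_zero' h0
    exact hx ((e ▸ Submodule.mem_top : x ∈ W) η hη)

theorem RH.nb_span' (r : RH ρ) (a0 : D ρ v f) {y : V4 K}
    (hy : ∀ w g, D ρ w g → f ⬝ᵥ w ≠ 0 → g ⬝ᵥ y = 0) : y = 0 :=
  r.dual.nb_span (D.dual_iff.2 a0) fun g w c e => by
    rw [dotProduct_comm] at e ⊢
    exact hy w g (D.dual_iff.1 c) (r.toTame.ne (D.dual_iff.1 c) a0 e)

theorem RH.form_eq_zero (r : RH ρ) {M : M4 K} (hM : Mᵀ = M)
    (hr : ∀ u h, D ρ u h → ∃ c : K, u ᵥ* M = c • h) (v0 : v ≠ 0) (hv : v ᵥ* M = 0) : M = 0 := by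
  rcases r.irr (LinearMap.ker M.vecMulLinear) (fun u h b x hx e => by
    obtain ⟨c, hc⟩ := hr u h b
    have h1 : x ᵥ* M = 0 := hx
    have : c * (h ⬝ᵥ x) = 0 := by
      rw [← smul_eq_mul, ← smul_dotProduct, ← hc, ← dotProduct_mulVec, ← vecMul_transpose, hM, h1,
        dotProduct_zero]
    change u ᵥ* M = 0
    rw [hc, (mul_eq_zero.1 this).resolve_right e, zero_smul]) with e | e
  · exact absurd ((Submodule.mem_bot K).1 (e ▸ hv : v ∈ ⊥)) v0
  · ext i j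
    have : Pi.single i 1 ᵥ* M = 0 :=
      (e ▸ Submodule.mem_top : Pi.single i 1 ∈ LinearMap.ker M.vecMulLinear)
    simpa using congrFun this j

theorem RH.sym (r : RH ρ) (n : ∀ v f w g u h, D ρ v f → D ρ w g → D ρ u h → ¬ NS v f w g u h) :
    IsO ρ := by
  obtain ⟨v0, f0, a0⟩ := r.exists_root
  let ι := {p : V4 K × V4 K // D ρ p.1 p.2 ∧ f0 ⬝ᵥ p.1 ≠ 0}
  let x : ι → V4 K := fun p => p.1.1
  let χ : ι → V4 K := fun p => (f0 ⬝ᵥ p.1.1 / p.1.2 ⬝ᵥ v0) • p.1.2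
  have ne : ∀ p : ι, p.1.2 ⬝ᵥ v0 ≠ 0 := fun p => r.toTame.ne a0 p.2.1 p.2.2
  have hx : ∀ η : V4 K, (∀ i, η ⬝ᵥ x i = 0) → η = 0 := fun η h =>
    r.nb_span a0 fun w g c e => h ⟨(w, g), c, e⟩
  have hχ : ∀ y : V4 K, (∀ i, χ i ⬝ᵥ y = 0) → y = 0 := fun y h =>
    r.nb_span' a0 fun w g c e => by
      simpa [χ, e, ne ⟨(w, g), c, e⟩] using h ⟨(w, g), c, e⟩
  have sy : ∀ i j, χ i ⬝ᵥ x j = χ j ⬝ᵥ x i := fun i j => by
    have := not_not.1 (n _ _ _ _ _ _ a0 i.2.1 j.2.1)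
    have hi := ne i
    have hj := ne j
    simp only [χ, x, smul_dotProduct, smul_eq_mul]
    field_simp
    linear_combination this
  obtain ⟨S, hS⟩ := exists_theta (RingHom.id K) 1 x χ hx fun i j => by simpa using sy i j
  replace hS : ∀ i, χ i = x i ᵥ* S := hS
  have S1 : Sᵀ = S := by
    ext k l
    have : ∀ i, x i ᵥ* (Sᵀ - S) = 0 := fun i => hx _ fun j => by
      rw [vecMul_sub, sub_dotProduct, ← hS, vecMul_transpose, dotProduct_comm (S *ᵥ _),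
        dotProduct_mulVec, ← hS, sy, sub_self]
    have := hx ((Sᵀ - S) *ᵥ Pi.single l 1) fun i => by
      rw [dotProduct_comm, dotProduct_mulVec, this, zero_dotProduct]
    simpa [sub_eq_zero] using congrFun this k
  have S2 : S.det ≠ 0 := fun e => by
    obtain ⟨y, y0, hy⟩ := exists_mulVec_eq_zero_iff.2 e
    exact y0 (hχ y fun i => by rw [hS, ← dotProduct_mulVec, hy, dotProduct_zero])
  have S3 : ∀ u h, D ρ u h → ∃ c : K, u ᵥ* S = c • h := fun u h b => by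
    by_cases e0 : f0 ⬝ᵥ u = 0
    swap
    · exact ⟨_, (hS ⟨(u, h), b, e0⟩).symm⟩
    obtain ⟨i, hi⟩ : ∃ i, h ⬝ᵥ x i ≠ 0 := by
      by_contra hc
      push Not at hc
      exact b.2.2.1 (hx h hc)
    have e1 := hS ⟨(_, _), b.act i.2.1, by simpa [e0] using i.2.2⟩
    have e2 := hS i
    simp only [χ, x, dotProduct_sub, dotProduct_smul, sub_dotProduct, smul_dotProduct, e0,
      r.zero a0 b e0, smul_zero, sub_zero, sub_vecMul, smul_vecMul] at e1 e2 hi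
    refine ⟨(h ⬝ᵥ i.1.1)⁻¹ * (f0 ⬝ᵥ i.1.1 / i.1.2 ⬝ᵥ v0 * (i.1.2 ⬝ᵥ u)), ?_⟩
    rw [mul_smul, eq_inv_smul_iff₀ hi]
    linear_combination (norm := module) e1 - e2
  refine ⟨S, S2, fun k => ?_⟩
  have S4 : ∀ u h, D ρ u h → ∃ c : K, u ᵥ* ((ρ k)ᵀ * S * ρ k) = c • h := fun u h b => by
    obtain ⟨c, hc⟩ := S3 _ _ (b.conj k)
    exact ⟨c, by rw [← vecMul_vecMul, ← vecMul_vecMul, vecMul_transpose, hc, smul_vecMul,
      vecMul_vecMul, inv_mul_rho, vecMul_one]⟩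
  obtain ⟨c, hc⟩ := S3 _ _ a0
  obtain ⟨d, hd⟩ := S4 _ _ a0
  have c0 : c ≠ 0 := by
    rintro rfl
    exact a0.2.1 (eq_zero_of_vecMul_eq_zero S2 (by simpa using hc))
  refine ⟨d / c, sub_eq_zero.1 (r.form_eq_zero ?_ (fun u h b => ?_) a0.2.1 ?_)⟩
  · simp [S1, mul_assoc]
  · obtain ⟨c', hc'⟩ := S3 _ _ b
    obtain ⟨d', hd'⟩ := S4 _ _ b
    exact ⟨d' - d / c * c', by rw [vecMul_sub, vecMul_smul, hc', hd']; module⟩
  · rw [vecMul_sub, vecMul_smul, hc, hd, smul_smul, div_mul_cancel₀ _ c0, sub_self]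

end Cfsg.Agent.D4
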