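import Cfsg.Agent.D4.WBas
import Cfsg.Agent.D4.Defs4

/-!
Self-dual and anti-self-dual forms in dimension four.
-/

set_option autoImplicit false

open Matrix
open scoped MatrixGroups

namespace Cfsg.Agent.D4.So4

variable {K : Type*} [Field K]

theorem alt_form {A : M4 K} (h2 : (2 : K) ≠ 0) (hA : Aᵀ = -A) :
    A = !![0, A 0 1, A 0 2, A 0 3; -A 0 1, 0, A 1 2, A 1 3; -A 0 2, -A 1 2, 0, A 2 3;
      -A 0 3, -A 1 3, -A 2 3, 0] := by
  have e : ∀ i j, A i j = -A j i := fun i j => congrFun (congrFun hA j) i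
  have d : ∀ i, A i i = 0 := fun i => by
    have := e i i
    exact (mul_eq_zero.1 (by linear_combination this : (2 : K) * A i i = 0)).resolve_left h2
  ext i j
  fin_cases i <;> fin_cases j <;> simp [d] <;> exact e _ _

theorem mul_hat {A : M4 K} (h2 : (2 : K) ≠ 0) (hA : Aᵀ = -A) : A * hat A = (-pf A) • 1 := by
  rw [alt_form h2 hA]
  ext i j
  fin_cases i <;> fin_cases j <;> simp [hat, pf, mul_apply, Fin.sum_univ_four] <;> ring

theorem pf_conj (M : M4 K) (a b c d e f : K) :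
    pf (M * !![0, a, b, c; -a, 0, d, e; -b, -d, 0, f; -c, -e, -f, 0] * Mᵀ) =
      M.det * (a * f - b * e + c * d) := by
  simp [pf, mul_apply, Fin.sum_univ_four, det_succ_row_zero, Fin.sum_univ_succ, Fin.succAbove]
  ring

theorem pf_Jp (M : M4 K) (j : Fin 3) : pf (M * Jp j * Mᵀ) = M.det := by
  fin_cases j
  · simpa [Jp] using pf_conj M (-1) 0 0 0 0 (-1)
  · simpa [Jp] using pf_conj M 0 (-1) 0 0 1 0
  · simpa [Jp] using pf_conj M 0 0 (-1) (-1) 0 0

theorem pf_Jm (M : M4 K) (j : Fin 3) : pf (M * Jm j * Mᵀ) = -M.det := by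
  fin_cases j
  · simpa [Jm] using pf_conj M (-1) 0 0 0 0 1
  · simpa [Jm] using pf_conj M 0 (-1) 0 0 (-1) 0
  · simpa [Jm] using pf_conj M 0 0 (-1) 1 0 0

theorem Jp_t (j : Fin 3) : (Jp j : M4 K)ᵀ = -Jp j := by
  fin_cases j <;> ext a b <;> fin_cases a <;> fin_cases b <;> simp [Jp]

theorem Jm_t (j : Fin 3) : (Jm j : M4 K)ᵀ = -Jm j := by
  fin_cases j <;> ext a b <;> fin_cases a <;> fin_cases b <;> simp [Jm]

theorem Jp_sq (j : Fin 3) : (Jp j : M4 K) * Jp j = -1 := by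
  fin_cases j <;> ext a b <;> fin_cases a <;> fin_cases b <;>
    simp [Jp, mul_apply, Fin.sum_univ_four]

theorem Jm_sq (j : Fin 3) : (Jm j : M4 K) * Jm j = -1 := by
  fin_cases j <;> ext a b <;> fin_cases a <;> fin_cases b <;>
    simp [Jm, mul_apply, Fin.sum_univ_four]

theorem Jp_Jm (i j : Fin 3) : (Jp i : M4 K) * Jm j = Jm j * Jp i := by
  fin_cases i <;> fin_cases j <;> simp [Jp, Jm]

theorem hat_conj (h2 : (2 : K) ≠ 0) {M J : M4 K} (h : Mᵀ * M = 1) (t : Jᵀ = -J)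
    (q : J * J = -1) : (M * J * Mᵀ)ᵀ = -(M * J * Mᵀ) ∧
      hat (M * J * Mᵀ) = pf (M * J * Mᵀ) • (M * J * Mᵀ) := by
  have h' := mul_eq_one_comm.1 h
  have a : (M * J * Mᵀ)ᵀ = -(M * J * Mᵀ) := by simp [t, mul_assoc]
  have s : M * J * Mᵀ * (M * J * Mᵀ) = -1 := by
    calc _ = M * (J * (Mᵀ * M) * J) * Mᵀ := by simp only [mul_assoc]
      _ = -1 := by rw [h, mul_one, q]; simp [h']
  refine ⟨a, ?_⟩
  have := congrArg (M * J * Mᵀ * ·) (mul_hat h2 a)
  simp only [← mul_assoc, s] at this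
  rw [← neg_inj, ← neg_one_mul, this, mul_smul_comm, mul_one, neg_smul]

theorem sd (h2 : (2 : K) ≠ 0) {A : M4 K} (hA : Aᵀ = -A) (e : hat A = A) :
    A = ∑ i, (-(Jp i * A).trace / 4) • Jp i := by
  have h4 : (4 : K) ≠ 0 := by simpa [← mul_ne_zero_iff] using (by norm_num : (4 : K) = 2 * 2) ▸ mul_ne_zero h2 h2
  have a : A 2 3 = A 0 1 := by simpa [hat] using congrFun (congrFun e 0) 1
  have b : A 1 3 = -A 0 2 := by
    have := congrFun (congrFun e 0) 2
    simp [hat] at this; linear_combination -this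
  have c : A 1 2 = A 0 3 := by simpa [hat] using congrFun (congrFun e 0) 3
  rw [alt_form h2 hA, a, b, c]
  ext i j
  fin_cases i <;> fin_cases j <;>
    simp [Jp, Fin.sum_univ_three, trace, Fin.sum_univ_four] <;> field_simp <;> ring

theorem asd (h2 : (2 : K) ≠ 0) {A : M4 K} (hA : Aᵀ = -A) (e : hat A = -A) :
    A = ∑ i, (-(Jm i * A).trace / 4) • Jm i := by
  have h4 : (4 : K) ≠ 0 := by simpa [← mul_ne_zero_iff] using (by norm_num : (4 : K) = 2 * 2) ▸ mul_ne_zero h2 h2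
  have a : A 2 3 = -A 0 1 := by simpa [hat] using congrFun (congrFun e 0) 1
  have b : A 1 3 = A 0 2 := by simpa [hat] using congrFun (congrFun e 0) 2
  have c : A 1 2 = -A 0 3 := by simpa [hat] using congrFun (congrFun e 0) 3
  rw [alt_form h2 hA, a, b, c]
  ext i j
  fin_cases i <;> fin_cases j <;>
    simp [Jm, Fin.sum_univ_three, trace, Fin.sum_univ_four] <;> field_simp <;> ring

theorem coef_p (h2 : (2 : K) ≠ 0) (c : Fin 3 → K) (i : Fin 3) :
    -(Jp i * ∑ k, c k • Jp k : M4 K).trace / 4 = c i := by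
  have h4 : (4 : K) ≠ 0 := by simpa [← mul_ne_zero_iff] using (by norm_num : (4 : K) = 2 * 2) ▸ mul_ne_zero h2 h2
  fin_cases i <;> simp [Jp, Fin.sum_univ_three, trace, Fin.sum_univ_four] <;> field_simp <;> ring

theorem coef_m (h2 : (2 : K) ≠ 0) (c : Fin 3 → K) (i : Fin 3) :
    -(Jm i * ∑ k, c k • Jm k : M4 K).trace / 4 = c i := by
  have h4 : (4 : K) ≠ 0 := by simpa [← mul_ne_zero_iff] using (by norm_num : (4 : K) = 2 * 2) ▸ mul_ne_zero h2 h2
  fin_cases i <;> simp [Jm, Fin.sum_univ_three, trace, Fin.sum_univ_four] <;> field_simp <;> ring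

theorem tri_p (c : M3 K) : ((∑ k, c k 0 • Jp k) * (∑ k, c k 1 • Jp k) * ∑ k, c k 2 • Jp k : M4 K) 0 0
    = -c.det := by
  simp [Jp, Fin.sum_univ_three, mul_apply, Fin.sum_univ_four, det_fin_three]
  ring

theorem tri_m (c : M3 K) : ((∑ k, c k 0 • Jm k) * (∑ k, c k 1 • Jm k) * ∑ k, c k 2 • Jm k : M4 K) 0 0
    = c.det := by
  simp [Jm, Fin.sum_univ_three, mul_apply, Fin.sum_univ_four, det_fin_three]
  ring

theorem Jp_tri : (Jp 0 * Jp 1 * Jp 2 : M4 K) = -1 := by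
  ext a b; fin_cases a <;> fin_cases b <;> simp [Jp]

theorem Jm_tri : (Jm 0 * Jm 1 * Jm 2 : M4 K) = 1 := by
  ext a b; fin_cases a <;> fin_cases b <;> simp [Jm]

/-- The common shape of `cp` and `cm`. -/
def cj (J : Fin 3 → M4 K) (M : M4 K) : M3 K := of fun i j => -(J i * M * J j * Mᵀ).trace / 4

variable {J : Fin 3 → M4 K} (co : ∀ (c : Fin 3 → K) i, -(J i * ∑ k, c k • J k).trace / 4 = c i)
include co

theorem cj_one : cj J 1 = 1 := by
  ext i j
  have := co (Pi.single j 1) i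
  simp only [cj, of_apply, mul_one, transpose_one, one_apply]
  simpa [Pi.single_apply] using this

theorem cj_eq_one {M : M4 K} (h : Mᵀ * M = 1) (e : ∀ j, M * J j * Mᵀ = ∑ i, cj J M i j • J i) :
    cj J M = 1 ↔ ∀ j, M * J j = J j * M := by
  refine ⟨fun a j => ?_, fun a => ?_⟩
  · have := congrArg (· * M) (e j)
    simpa [a, one_apply, mul_assoc, h] using this
  · rw [← cj_one co]
    ext i j
    simp only [cj, of_apply, mul_assoc, one_mul, transpose_one, mul_one]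
    rw [← mul_assoc M, a, mul_assoc, mul_eq_one_comm.1 h, mul_one]

theorem cj_mul {M N : M4 K} (e : ∀ j, M * J j * Mᵀ = ∑ i, cj J M i j • J i)
    (e' : ∀ j, N * J j * Nᵀ = ∑ i, cj J N i j • J i) : cj J (M * N) = cj J M * cj J N := by
  ext i j
  rw [← co (fun k => (cj J M * cj J N) k j) i]
  have : M * N * J j * (M * N)ᵀ = ∑ k, (cj J M * cj J N) k j • J k := by
    calc _ = M * (N * J j * Nᵀ) * Mᵀ := by simp only [transpose_mul, mul_assoc]
      _ = ∑ l, cj J N l j • (M * J l * Mᵀ) := by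
        rw [e', Finset.mul_sum, Finset.sum_mul]; simp only [mul_smul_comm, smul_mul_assoc]
      _ = _ := by
        simp only [e, Finset.smul_sum, mul_apply, Finset.sum_smul, smul_smul, mul_comm]
        exact Finset.sum_comm
  rw [← this]
  simp only [cj, of_apply, mul_assoc]

omit co in
theorem cj_t (M : M4 K) : (cj J M)ᵀ = cj J Mᵀ := by
  ext i j
  simp only [cj, transpose_apply, of_apply, transpose_transpose]
  rw [mul_assoc, trace_mul_comm, ← mul_assoc]

omit co in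
theorem tri {M : M4 K} (h : Mᵀ * M = 1) :
    M * J 0 * Mᵀ * (M * J 1 * Mᵀ) * (M * J 2 * Mᵀ) = M * (J 0 * J 1 * J 2) * Mᵀ := by
  calc _ = M * (J 0 * (Mᵀ * M) * J 1 * (Mᵀ * M) * J 2) * Mᵀ := by simp only [mul_assoc]
    _ = _ := by simp only [h, mul_one]

omit co in
theorem eq_zero_of {N : M4 K} (hJ : ∀ j, J j *ᵥ Pi.single 0 1 = Pi.single j.succ 1)
    (c : ∀ j, N * J j = J j * N) (z : N *ᵥ Pi.single 0 1 = 0) : N = 0 := by
  ext i j
  have : N *ᵥ Pi.single j 1 = 0 := by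
    refine Fin.cases z (fun j => ?_) j
    rw [← hJ, mulVec_mulVec, c, ← mulVec_mulVec, z, mulVec_zero]
  simpa using congrFun this i

omit co in
theorem comm_iff {J' : Fin 3 → M4 K} (hJ : ∀ j, J j *ᵥ Pi.single 0 1 = Pi.single j.succ 1)
    (hJ' : ∀ j, J' j *ᵥ Pi.single 0 1 = Pi.single j.succ 1) (c : ∀ i j, J' i * J j = J j * J' i)
    (M : M4 K) : (∀ j, M * J j = J j * M) ↔
      ∃ (a : K) (c : Fin 3 → K), M = a • 1 + ∑ i, c i • J' i := by
  have s : ∀ (a : K) (b : Fin 3 → K) j,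
      (a • 1 + ∑ i, b i • J' i) * J j = J j * (a • 1 + ∑ i, b i • J' i) := fun a b j => by
    simp [add_mul, mul_add, Finset.sum_mul, Finset.mul_sum, c]
  refine ⟨fun e => ⟨M 0 0, fun i => M i.succ 0, sub_eq_zero.1 (eq_zero_of hJ (fun j => ?_) ?_)⟩,
    fun ⟨a, b, e⟩ j => e ▸ s a b j⟩
  · rw [sub_mul, mul_sub, e, s]
  · simp only [sub_mulVec, add_mulVec, sum_mulVec, smul_mulVec, hJ', one_mulVec]
    ext i
    refine Fin.cases ?_ (fun i => ?_) i
    · simp
    · fin_cases i <;> simp [Fin.sum_univ_three]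

omit co in
theorem Jp_e (j : Fin 3) : (Jp j : M4 K) *ᵥ Pi.single 0 1 = Pi.single j.succ 1 := by
  ext i; fin_cases j <;> fin_cases i <;> simp [Jp]

omit co in
theorem Jm_e (j : Fin 3) : (Jm j : M4 K) *ᵥ Pi.single 0 1 = Pi.single j.succ 1 := by
  ext i; fin_cases j <;> fin_cases i <;> simp [Jm]

end Cfsg.Agent.D4.So4
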