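import Cfsg.Agent.D4.Defs3

/-!
Small subgroups without four-dimensional projective representation.
-/

set_option autoImplicit false
set_option linter.unusedSectionVars false

open Matrix
open scoped MatrixGroups

namespace Cfsg.Agent.D4

variable {K : Type*} [Field K] {Γ X : Type*} [Group Γ] [Group X] {ρ : Γ →* M4 K} {π : Γ →* X}

namespace Sm

theorem orbit (τ : Equiv.Perm (Fin 4)) (k : Fin 4) : ∃ i, 0 < i ∧ i ≤ 4 ∧ (τ ^ i) k = k := by
  obtain ⟨a, b, hab, e⟩ := Fintype.exists_ne_map_eq_of_card_lt (fun i : Fin 5 => (τ ^ (i : ℕ)) k) (by simp)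
  wlog h : a < b generalizing a b
  · exact this b a hab.symm e.symm (lt_of_le_of_ne (not_lt.1 h) hab.symm)
  refine ⟨b - a, by omega, by omega, (τ ^ (a : ℕ)).injective ?_⟩
  rw [← Equiv.Perm.mul_apply, ← pow_add, Nat.add_sub_cancel' (le_of_lt h), e]

theorem diag_pow {g : Γ} {d : Fin 4 → K} (h : ρ g = diagonal d) (n : ℕ) :
    ρ (g ^ n) = diagonal fun k => d k ^ n := by
  rw [map_pow, h, diagonal_pow]; rfl

theorem diag_mul {g g' : Γ} {d d' : Fin 4 → K} (h : ρ g = diagonal d) (h' : ρ g' = diagonal d') :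
    ρ (g * g') = diagonal fun k => d k * d' k := by
  rw [map_mul, h, h', diagonal_mul_diagonal]

theorem diag_one {g : Γ} {d : Fin 4 → K} (h : ρ g = diagonal d) (e : g = 1) (k : Fin 4) : d k = 1 := by
  rw [e, map_one, ← diagonal_one] at h
  exact (congrFun (diagonal_injective h) k).symm

theorem diag_pow_one {g : Γ} {d : Fin 4 → K} (h : ρ g = diagonal d) {n : ℕ} (e : g ^ n = 1) (k : Fin 4) :
    d k ^ n = 1 := diag_one (diag_pow h n) e k

theorem diag_ne {g : Γ} {d : Fin 4 → K} (h : ρ g = diagonal d) (k : Fin 4) : d k ≠ 0 := fun e => by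
  have := (isUnit_iff_isUnit_det _).1 (isUnit_rho ρ g)
  rw [h, det_diagonal] at this
  exact this.ne_zero (Finset.prod_eq_zero (Finset.mem_univ k) e)

theorem diag_inv {g : Γ} {d : Fin 4 → K} (h : ρ g = diagonal d) : ρ g⁻¹ = diagonal fun k => (d k)⁻¹ :=
  rho_inv_eq (by
    rw [h, diagonal_mul_diagonal, ← diagonal_one]
    exact congrArg diagonal (funext fun k => mul_inv_cancel₀ (diag_ne h k)))

theorem eq_one_of_diag (hi : Function.Injective ρ) {g : Γ} {d : Fin 4 → K} (h : ρ g = diagonal d)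
    (e : ∀ k, d k = 1) : g = 1 :=
  hi (by rw [h, map_one, ← diagonal_one]; exact congrArg diagonal (funext e))

theorem cnj_inj (hi : Function.Injective ρ) (B : (M4 K)ˣ) : Function.Injective (cnj ρ B) := fun a b e => hi (by
  have := congrArg (fun M => B.val * M * B⁻¹.val) e
  simpa [cnj_apply, mul_assoc] using this)

/-- Entries of an element conjugating one diagonal matrix to another. -/
theorem entry {n a : Γ} {d d' : Fin 4 → K} (h : ρ a = diagonal d) (h' : ρ (n * a * n⁻¹) = diagonal d')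
    {i k : Fin 4} (e : ρ n i k ≠ 0) : d' i = d k := by
  have : ρ n * diagonal d = diagonal d' * ρ n := by rw [← h, ← h', ← map_mul, ← map_mul, inv_mul_cancel_right]
  have := congrFun (congrFun this i) k
  rw [mul_diagonal, diagonal_mul, mul_comm] at this
  exact (mul_right_cancel₀ e this).symm

/-- The determinant of a commutator on an invariant block. -/
theorem det_block (S : Finset (Fin 4)) {x y : Γ} {δ : Fin 4 → K}
    (hx : ∀ i k, ρ x i k ≠ 0 → (i ∈ S ↔ k ∈ S)) (hy : ∀ i k, ρ y i k ≠ 0 → (i ∈ S ↔ k ∈ S))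
    (e : ρ x * ρ y = diagonal δ * (ρ y * ρ x)) : ∏ k ∈ S, δ k = 1 := by
  let P : M4 K := diagonal fun k => if k ∈ S then 1 else 0
  have PP : P * P = P := by
    rw [diagonal_mul_diagonal]; exact congrArg diagonal (funext fun k => by split_ifs <;> simp)
  have cm : ∀ {g : Γ}, (∀ i k, ρ g i k ≠ 0 → (i ∈ S ↔ k ∈ S)) → ρ g * P = P * ρ g := fun {g} hg => by
    ext i k
    rw [mul_diagonal, diagonal_mul]
    by_cases e : ρ g i k = 0
    · simp [e]
    · simp [hg i k e]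
  have mul : ∀ {A B : M4 K}, A * P = P * A → (P * A + (1 - P)) * (P * B + (1 - P)) = P * (A * B) + (1 - P) :=
    fun {A B} hA => by
      have e1 : P * A * (P * B) = P * (A * B) := by rw [mul_assoc, ← mul_assoc A, hA, mul_assoc, ← mul_assoc P, PP]
      have e2 : P * A * P = P * A := by rw [mul_assoc, hA, ← mul_assoc, PP]
      simp only [add_mul, mul_add, mul_sub, sub_mul, e1, e2, ← mul_assoc P P, PP, mul_one, one_mul]
      abel
  have un : ∀ {g : Γ}, ρ g * P = P * ρ g → (P * ρ g + (1 - P)).det ≠ 0 := fun {g} hg e => by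
    have := congrArg det (mul (B := ρ g⁻¹) hg)
    rw [det_mul, e, zero_mul, mul_inv_rho, mul_one, add_sub_cancel, det_one] at this
    exact zero_ne_one this
  have cd : diagonal δ * P = P * diagonal δ := by
    rw [diagonal_mul_diagonal, diagonal_mul_diagonal]; exact congrArg diagonal (funext fun k => mul_comm _ _)
  have := mul (B := ρ y) (cm hx)
  rw [e, ← mul cd, ← mul (cm hy)] at this
  have := congrArg det this
  rw [det_mul, det_mul, det_mul, mul_comm (det _), eq_comm,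
    mul_eq_right₀ (mul_ne_zero (un (cm hy)) (un (cm hx)))] at this
  rw [← this, diagonal_mul_diagonal, ← diagonal_one, diagonal_sub, diagonal_add, det_diagonal,
    ← Fintype.prod_ite_mem]
  exact Finset.prod_congr rfl fun k _ => by split_ifs <;> simp

theorem eq_one_of_cop {a : K} {m n : ℕ} (hm : a ^ m = 1) (hn : a ^ n = 1) (h : Nat.Coprime m n) : a = 1 := by
  rw [← pow_one a, ← h]
  exact pow_gcd_eq_one.2 ⟨hm, hn⟩

end Sm

open Sm

variable [IsAlgClosed K] [Finite Γ]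

omit [Finite Γ] in
theorem Hyp.ord_false (h : Hyp ρ π) {l : ℕ} (hl : l = 7 ∨ l = 11) (hK : (l : K) ≠ 0) {x : X}
    (h1 : x ≠ 1) (h7 : x ^ l = 1) (hc : IsConj x (x ^ 3)) : False := by
  have c4 : Nat.Coprime l 4 := by rcases hl with rfl | rfl <;> norm_num
  obtain ⟨g, rfl, hg⟩ := h.exists_lift c4 h7
  obtain ⟨k, hk⟩ := isConj_iff.1 hc
  obtain ⟨n, rfl⟩ := h.surj k
  have e := h.conj_lift (b := g ^ 3) (k := n) c4 hg (by rw [pow_right_comm, hg, one_pow])
    (by rw [hk, map_pow])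
  obtain ⟨B, d, hd⟩ := exists_diag ρ (fun _ : Unit => g) (fun _ _ => rfl) fun _ => ⟨l, hK, hg⟩
  obtain ⟨τ, -, hτ⟩ := wt_perm (D4.cnj ρ B) n
  have k1 := hτ g _ _ (hd ()) (e ▸ diag_pow (hd ()) 3)
  have k2 : ∀ i k, d () ((τ ^ i) k) ^ 3 ^ i = d () k := fun i => by
    induction i with
    | zero => simp
    | succ i ih => intro k; rw [pow_succ', Equiv.Perm.mul_apply, pow_succ' 3, pow_mul, k1, ih]
  refine h1 ((congrArg π (eq_one_of_diag (h.cnj B).inj (hd ()) fun k => ?_)).trans (map_one π))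
  obtain ⟨i, i0, i5, hi⟩ := orbit τ k
  have k3 := k2 i k
  rw [hi] at k3
  refine eq_one_of_cop (m := 3 ^ i - 1) (mul_right_cancel₀ (diag_ne (hd ()) k) ?_) (diag_pow_one (hd ()) hg k) ?_
  · rw [← pow_succ, Nat.sub_add_cancel (Nat.one_le_pow _ _ (by norm_num)), k3, one_mul]
  · rcases hl with rfl | rfl <;> interval_cases i <;> norm_num

theorem Hyp.ord7_false (h : Hyp ρ π) (hK : (7 : K) ≠ 0) {x : X} (h1 : x ≠ 1)
    (h7 : x ^ 7 = 1) (hc : IsConj x (x ^ 3)) : False :=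
  h.ord_false (Or.inl rfl) (by exact_mod_cast hK) h1 h7 hc

theorem Hyp.ord11_false (h : Hyp ρ π) (hK : (11 : K) ≠ 0) {x : X} (h1 : x ≠ 1)
    (h7 : x ^ 11 = 1) (hc : IsConj x (x ^ 3)) : False :=
  h.ord_false (Or.inr rfl) (by exact_mod_cast hK) h1 h7 hc

theorem Hyp.e9_false (h : Hyp ρ π) (hK : (3 : K) ≠ 0) {a b n m : X} (h1 : a ≠ 1)
    (ha : a ^ 3 = 1) (hb : b ^ 3 = 1) (hab : a * b = b * a) (n1 : n * a * n⁻¹ = b)
    (n2 : n * b * n⁻¹ = a⁻¹) (m1 : m * a * m⁻¹ = a * b) (m2 : m * b * m⁻¹ = a * b⁻¹) :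
    False := by
  have c3 : Nat.Coprime 3 4 := by norm_num
  obtain ⟨a, rfl, ha'⟩ := h.exists_lift c3 ha
  obtain ⟨b, rfl, hb'⟩ := h.exists_lift c3 hb
  replace ha := ha'
  replace hb := hb'
  obtain ⟨n, rfl⟩ := h.surj n
  obtain ⟨m, rfl⟩ := h.surj m
  have hab : Commute a b := h.comm_of_lift c3 hb hab
  have n1 := h.conj_lift c3 ha hb n1
  have n2 := h.conj_lift (b := a⁻¹) c3 hb (by rw [inv_pow, ha, inv_one]) (by rw [n2, map_inv])
  have m1 := h.conj_lift (b := a * b) c3 ha (by rw [hab.mul_pow, ha, hb, one_mul]) (by rw [m1, map_mul])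
  have m2 := h.conj_lift (b := a * b⁻¹) c3 hb (by rw [hab.inv_right.mul_pow, ha, inv_pow, hb, inv_one, one_mul])
    (by rw [m2, map_mul, map_inv])
  obtain ⟨B, d, hd⟩ := exists_diag ρ ![a, b] (by simp [Fin.forall_fin_two, hab.eq])
    (by simp only [Fin.forall_fin_two]; exact ⟨⟨3, by exact_mod_cast hK, ha⟩, 3, by exact_mod_cast hK, hb⟩)
  have da : D4.cnj ρ B a = _ := hd 0
  have db : D4.cnj ρ B b = _ := hd 1
  obtain ⟨τ, -, hτ⟩ := wt_perm (D4.cnj ρ B) n
  obtain ⟨σ, -, hσ⟩ := wt_perm (D4.cnj ρ B) m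
  have t1 := hτ a _ _ da (n1 ▸ db)
  have t2 := hτ b _ _ db (n2 ▸ diag_inv da)
  have s1 := hσ a _ _ da (m1 ▸ diag_mul da db)
  have s2 := hσ b _ _ db (m2 ▸ diag_mul da (diag_inv db))
  obtain ⟨k, hk⟩ : ∃ k, d 0 k ≠ 1 := by
    by_contra e
    push Not at e
    exact h1 (by rw [eq_one_of_diag (h.cnj B).inj da e, map_one])
  have hω : IsPrimitiveRoot (d 0 k) 3 := by
    have := Fact.mk Nat.prime_three
    exact (orderOf_eq_prime (diag_pow_one da ha k) hk) ▸ IsPrimitiveRoot.orderOf _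
  have ω0 := diag_ne da k
  choose u hu using fun i => hω.eq_pow_of_pow_eq_one (diag_pow_one da ha i)
  choose v hv using fun i => hω.eq_pow_of_pow_eq_one (diag_pow_one db hb i)
  have pm : ∀ i, d 0 k ^ (i % 3) = d 0 k ^ i := fun i => by
    conv_rhs => rw [← Nat.div_add_mod i 3, pow_add, pow_mul, hω.pow_eq_one, one_pow, one_mul]
  have inj : ∀ i j : ℕ, d 0 k ^ i = d 0 k ^ j → (i : ZMod 3) = j := fun i j e =>
    (ZMod.natCast_eq_natCast_iff' i j 3).2 (hω.pow_inj (Nat.mod_lt _ (by norm_num)) (Nat.mod_lt _ (by norm_num))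
      (by rw [pm, pm, e]))
  let w : Fin 4 → ZMod 3 × ZMod 3 := fun i => (u i, v i)
  have wt : ∀ i, w (τ i) = (-(w i).2, (w i).1) := fun i => by
    have e1 := inj (v (τ i)) (u i) (by rw [(hv _).2, (hu _).2, t1])
    have e2 := inj (u (τ i) + v i) 0 (by
      rw [pow_add, (hv _).2, (hu _).2, ← t2, mul_inv_cancel₀ (diag_ne da _), pow_zero])
    push_cast at e2
    exact Prod.ext (eq_neg_of_add_eq_zero_left e2) e1
  have ws : ∀ i, w (σ i) = (-((w i).1 + (w i).2), (w i).2 - (w i).1) := fun i => by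
    have e1 := inj (u (σ i) + v (σ i)) (u i) (by rw [pow_add, (hv _).2, (hu _).2, (hu _).2, s1])
    have e2 := inj (u (σ i)) (v i + v (σ i)) (by
      rw [pow_add, (hv _).2, (hu _).2, (hv _).2, ← s2, inv_mul_cancel_right₀ (diag_ne db _)])
    push_cast at e1 e2
    have h3 : (3 : ZMod 3) = 0 := rfl
    refine Prod.ext ?_ ?_ <;> simp only [w]
    · linear_combination -e1 - e2 + (u (σ i) : ZMod 3) * h3
    · linear_combination -e1 + e2 + (v (σ i) : ZMod 3) * h3
  have w0 : (w k).1 ≠ 0 := fun e => hk (by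
    have : u k = 0 := Nat.eq_zero_of_dvd_of_lt ((ZMod.natCast_eq_zero_iff _ _).1 e) (hu k).1
    rw [← (hu k).2, this, pow_zero])
  obtain ⟨i, j, hij, e⟩ := Fintype.exists_ne_map_eq_of_card_lt
    (![k, τ k, τ (τ k), τ (τ (τ k)), σ k, τ (σ k)] : Fin 6 → Fin 4) (by simp)
  have key : ∀ p : ZMod 3 × ZMod 3, p.1 ≠ 0 → Function.Injective (![p, (-p.2, p.1), (-p.1, -p.2), (p.2, -p.1),
      (-(p.1 + p.2), p.2 - p.1), (-(p.2 - p.1), -(p.1 + p.2))] : Fin 6 → ZMod 3 × ZMod 3) := by decide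
  refine hij (key (w k) w0 ?_)
  have e' : ∀ i, (![w k, (-(w k).2, (w k).1), (-(w k).1, -(w k).2), ((w k).2, -(w k).1),
      (-((w k).1 + (w k).2), (w k).2 - (w k).1), (-((w k).2 - (w k).1), -((w k).1 + (w k).2))] : Fin 6 → _) i =
      w ((![k, τ k, τ (τ k), τ (τ (τ k)), σ k, τ (σ k)] : Fin 6 → Fin 4) i) := fun i => by
    fin_cases i
    · rfl
    · exact (wt k).symm
    · exact ((wt _).trans (by rw [wt]; rfl)).symm
    · exact ((wt _).trans (by rw [wt, wt, neg_neg]; rfl)).symm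
    · exact (ws k).symm
    · exact ((wt _).trans (by rw [ws]; rfl)).symm
  rw [e', e', e]

theorem Hyp.heis_false (h : Hyp ρ π) {l : ℕ} (hl : l.Prime) (h2 : l ≠ 2)
    (hK : (l : K) ≠ 0) {x y z : X} (e : x * y = z * (y * x)) (hx : z * x = x * z)
    (hy : z * y = y * z) (h1 : z ≠ 1) (hz : z ^ l = 1) (hc : IsConj z z⁻¹) : False := by
  classical
  have c2 : Nat.Coprime l 2 := (Nat.coprime_primes hl Nat.prime_two).2 h2
  have c4 : Nat.Coprime l 4 := Nat.Coprime.pow_right 2 c2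
  have c8 : Nat.Coprime l 8 := Nat.Coprime.pow_right 3 c2
  obtain ⟨z, rfl, hz'⟩ := h.exists_lift c4 hz
  replace hz := hz'
  obtain ⟨x, rfl⟩ := h.surj x
  obtain ⟨y, rfl⟩ := h.surj y
  obtain ⟨n, hn⟩ := isConj_iff.1 hc
  obtain ⟨n, rfl⟩ := h.surj n
  replace hn := h.conj_lift (b := z⁻¹) c4 hz (by rw [inv_pow, hz, inv_one]) (by rw [hn, map_inv])
  replace hx := (h.comm_of_lift c4 hz hx.symm).symm
  replace hy := (h.comm_of_lift c4 hz hy.symm).symm
  obtain ⟨c, hc1, e'⟩ := h.exists_ker_of_eq (a := x * y) (b := z * (y * x)) (by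
    rw [map_mul, map_mul, map_mul, e])
  obtain ⟨B, d, hd⟩ := exists_diag ρ (fun _ : Unit => z) (fun _ _ => rfl) fun _ => ⟨l, hK, hz⟩
  have dz := hd ()
  have H := h.cnj B
  obtain ⟨t, ht⟩ := (H.ker c).1 hc1
  have t4 := H.fourth ht
  obtain ⟨τ, -, hτ⟩ := wt_perm (D4.cnj ρ B) n
  have tt := hτ z _ _ dz (hn ▸ diag_inv dz)
  obtain ⟨k, hk⟩ : ∃ k, d () k ≠ 1 := by
    by_contra e
    push Not at e
    exact h1 (by rw [eq_one_of_diag H.inj dz e, map_one])
  have k8 : d () k ^ 8 ≠ 1 := fun e => hk (eq_one_of_cop e (diag_pow_one dz hz k) c8.symm)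
  have k2 : d () k ^ 2 ≠ 1 := fun e => k8 (by rw [show 8 = 2 * 4 from rfl, pow_mul, e, one_pow])
  let S := Finset.univ.filter fun i => d () i = d () k
  have cm : ∀ {g}, z * g = g * z → ∀ i j, D4.cnj ρ B g i j ≠ 0 → (i ∈ S ↔ j ∈ S) := fun {g} hg i j e => by
    simp only [S, Finset.mem_filter, Finset.mem_univ, true_and,
      entry dz (by rw [← hg, mul_inv_cancel_right, dz]) e]
  have p := det_block S (δ := fun k => t * d () k) (cm hx) (cm hy) (by
    rw [← map_mul, e', map_mul, map_mul, map_mul, ht, dz, smul_mul_assoc, one_mul, ← smul_mul_assoc,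
      ← diagonal_smul]
    rfl)
  rw [Finset.prod_congr rfl fun i hi => congrArg (t * ·) (Finset.mem_filter.1 hi).2, Finset.prod_const] at p
  have c1 : 0 < S.card := Finset.card_pos.2 ⟨k, by simp [S]⟩
  have c2 : (S ∪ S.map τ.toEmbedding).card ≤ 4 := (Finset.card_le_univ _).trans (by simp)
  rw [Finset.card_union_of_disjoint, Finset.card_map] at c2
  · have : S.card = 1 ∨ S.card = 2 := by omega
    have q : (t * d () k) ^ 2 = 1 := by
      rcases this with c | c <;> rw [c] at p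
      · rw [pow_one] at p
        rw [p, one_pow]
      · exact p
    refine k8 ?_
    have q8 : (t * d () k) ^ 8 = 1 := by rw [show 8 = 2 * 4 from rfl, pow_mul, q, one_pow]
    rwa [mul_pow, show 8 = 4 * 2 from rfl, pow_mul t, t4, one_pow, one_mul] at q8
  · refine Finset.disjoint_left.2 fun i a b => k2 ?_
    obtain ⟨j, hj, rfl⟩ := Finset.mem_map.1 b
    have e1 := (Finset.mem_filter.1 a).2
    have e2 := tt j
    rw [(Finset.mem_filter.1 hj).2] at e2
    change d () (τ j) = _ at e1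
    rw [e1] at e2
    rw [pow_two]
    nth_rewrite 1 [← e2]
    exact inv_mul_cancel₀ (diag_ne dz k)

theorem Hyp.torus_false (h : Hyp ρ π) (hπ : Function.Injective π) {μ : Type*}
    [CommGroup μ] (d : μ × μ →* X) {σ τ : X} (hσ : ∀ s t, σ * d (s, t) * σ⁻¹ = d (t, (s * t)⁻¹))
    (hτ : ∀ s t, τ * d (s, t) * τ⁻¹ = d (t, s)) {n : ℕ} (hn : (n : K) ≠ 0) (ho : ∀ s : μ, s ^ n = 1)
    (hf : ∀ s, d (s, s⁻¹) = 1 → s = 1) {s : μ} (hs : s ^ 6 ≠ 1)
    (gen : ∀ H : Subgroup X, σ ∈ H → (∀ y, y * d (s, s) = d (s, s) * y → y ∈ H) → H = ⊤) :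
    False := by
  obtain ⟨σ, rfl⟩ := h.surj σ
  obtain ⟨τ, rfl⟩ := h.surj τ
  obtain ⟨a, ha⟩ := h.surj (d (s, 1))
  obtain ⟨b, hb⟩ := h.surj (d (1, s))
  have hab : a * b = b * a := hπ (by rw [map_mul, map_mul, ha, hb, ← map_mul, ← map_mul, mul_comm])
  have e1 : π (a * b) = d (s, s) := by rw [map_mul, ha, hb, ← map_mul]; simp
  have e2 : π (a * b⁻¹) = d (s, s⁻¹) := by rw [map_mul, map_inv, ha, hb, ← map_inv, ← map_mul]; simp
  have s1 : σ * a * σ⁻¹ = b⁻¹ := hπ (by rw [map_mul, map_mul, map_inv, map_inv, ha, hb, hσ, ← map_inv]; simp)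
  have s2 : σ * b * σ⁻¹ = a * b⁻¹ := hπ (by rw [e2, map_mul, map_mul, map_inv, hb, hσ]; simp)
  have t1 : τ * a * τ⁻¹ = b := hπ (by rw [map_mul, map_mul, map_inv, ha, hb, hτ])
  have t2 : τ * b * τ⁻¹ = a := hπ (by rw [map_mul, map_mul, map_inv, ha, hb, hτ])
  obtain ⟨B, w, hw⟩ := exists_diag ρ ![a, b] (by simp [Fin.forall_fin_two, hab]) (by
    simp only [Fin.forall_fin_two]
    refine ⟨⟨n, hn, hπ ?_⟩, n, hn, hπ ?_⟩
    · change π (a ^ n) = _
      rw [map_pow, ha, ← map_pow, Prod.pow_mk, ho, ho, map_one]; exact map_one d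
    · change π (b ^ n) = _
      rw [map_pow, hb, ← map_pow, Prod.pow_mk, ho, ho, map_one]; exact map_one d)
  have da : D4.cnj ρ B a = _ := hw 0
  have db : D4.cnj ρ B b = _ := hw 1
  have H := h.cnj B
  generalize D4.cnj ρ B = ρ at da db H
  generalize w 0 = α at da
  generalize w 1 = β at db
  have α0 := diag_ne da
  have β0 := diag_ne db
  have es : ∀ {i k}, ρ σ i k ≠ 0 → β i * α k = 1 ∧ α i = β k * β i := fun {i k} e =>
    ⟨by rw [← entry da (s1 ▸ diag_inv db) e, mul_inv_cancel₀ (β0 i)],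
      by rw [← entry db (s2 ▸ diag_mul da (diag_inv db)) e, inv_mul_cancel_right₀ (β0 i)]⟩
  have es' : ∀ {i k}, ρ σ⁻¹ i k ≠ 0 → β k * α i = 1 ∧ α k = β i * β k := fun {i k} e =>
    ⟨by rw [entry (d' := α) (diag_inv db) (by rw [← s1, ← da]; congr 1; group) e, mul_inv_cancel₀ (β0 k)],
      by rw [entry (d' := β) (diag_mul da (diag_inv db)) (by rw [← s2, ← db]; congr 1; group) e,
        inv_mul_cancel_right₀ (β0 k)]⟩
  obtain ⟨σ', hσ', -⟩ := wt_perm ρ σ
  obtain ⟨τ', -, hτ'⟩ := wt_perm ρ τ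
  have u1 := hτ' a _ _ da (t1 ▸ db)
  have u2 := hτ' b _ _ db (t2 ▸ da)
  have v1 := fun k => (es (hσ' k)).1
  have v2 := fun k => (es (hσ' k)).2
  let Fx : Fin 4 → Prop := fun k => β k * α k = 1 ∧ α k = β k * β k
  have fx : ∀ {i k}, β i * α k = 1 ∧ α i = β k * β i → (Fx i ↔ Fx k) := fun {i k} ⟨e1, e2⟩ => by
    constructor <;> rintro ⟨e3, e4⟩
    · have e5 : β k = β i := mul_right_cancel₀ (β0 i) (e2.symm.trans e4)
      have e6 : α k = α i := mul_left_cancel₀ (β0 i) (e1.trans e3.symm)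
      exact ⟨by rw [e5, e6, e3], by rw [e5, e6, e4]⟩
    · have e5 : β i = β k := mul_right_cancel₀ (α0 k) (e1.trans e3.symm)
      have e6 : α i = α k := by rw [e2, e5, e4]
      exact ⟨by rw [e5, e6, e3], by rw [e5, e6, e4]⟩
  have f1 : ∀ k, Fx (σ' k) ↔ Fx k := fun k => fx ⟨v1 k, v2 k⟩
  have w2 : ∀ k, β (σ' (σ' k)) * β k = α k ∧ α (σ' (σ' k)) * β k = 1 := fun k => by
    have a1 := v1 k
    have a2 := v2 k
    have a3 := v1 (σ' k)
    have a4 := v2 (σ' k)
    constructor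
    · linear_combination (-β (σ' (σ' k)) * β k) * a1 + α k * a3 - β (σ' (σ' k)) * α k * a2
    · linear_combination β k * a4 + a3 - β (σ' (σ' k)) * a2
  have w3 : ∀ k, α (σ' (σ' (σ' k))) = α k ∧ β (σ' (σ' (σ' k))) = β k := fun k => by
    have a1 := (w2 k).1
    have a2 := (w2 k).2
    have a3 := v1 (σ' (σ' k))
    have a4 := v2 (σ' (σ' k))
    have a5 : β (σ' (σ' (σ' k))) = β k := by linear_combination (-β (σ' (σ' (σ' k)))) * a2 + β k * a3
    exact ⟨by rw [a4, a5, a1], a5⟩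
  have g1 : ∀ k, α (σ' k) = α k → β (σ' k) = β k → Fx k := fun k e e' => ⟨e' ▸ v1 k, by rw [← e, v2, e']⟩
  have g2 : ∀ k, α (σ' (σ' k)) = α k → β (σ' (σ' k)) = β k → Fx k := fun k e e' =>
    ⟨by rw [← e, mul_comm]; exact (w2 k).2, by rw [← (w2 k).1, e']⟩
  have o3 : ∀ k, ¬ Fx k → σ' (σ' (σ' k)) = k := fun k hk => by
    obtain ⟨i, i0, i5, e⟩ := orbit σ' k
    interval_cases i <;> simp only [pow_succ', pow_zero, Equiv.Perm.mul_apply, mul_one] at e
    · exact (hk (g1 k (by rw [e]) (by rw [e]))).elim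
    · exact (hk (g2 k (by rw [e]) (by rw [e]))).elim
    · exact e
    · exact (hk (g1 k (by rw [← (w3 _).1, e]) (by rw [← (w3 _).2, e]))).elim
  have o1 : ∀ k, ¬ Fx k → σ' k ≠ k := fun k hk e => hk (g1 k (by rw [e]) (by rw [e]))
  have one : ∀ k k', ¬ Fx k → ¬ Fx k' → k' = k ∨ k' = σ' k ∨ k' = σ' (σ' k) := fun k k' hk hk' => by
    have a1 := o3 k hk
    have a2 := o3 k' hk'
    have a3 := o1 k hk
    have a4 := o1 k' hk'
    have key : ∀ f : Fin 4 → Fin 4, ∀ k k', f (f (f k)) = k → f (f (f k')) = k' → f k ≠ k → f k' ≠ k' →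
      k' = k ∨ k' = f k ∨ k' = f (f k) := by decide +kernel
    exact key σ' k k' a1 a2 a3 a4
  have ex : ∃ k, Fx k := by
    by_contra e
    push Not at e
    have := Fact.mk Nat.prime_three
    obtain ⟨k, hk⟩ := Equiv.Perm.exists_fixed_point_of_prime (p := 3) (n := 1) (σ := σ') (by simp)
      (Equiv.ext fun k => o3 k (e k))
    exact o1 k (e k) hk
  have cube : ∀ k, Fx k → (α k * (β k)⁻¹) ^ 6 = 1 := fun k ⟨e1, e2⟩ => by
    rw [e2, mul_inv_cancel_right₀ (β0 k)]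
    rw [e2] at e1
    linear_combination (β k ^ 3 + 1) * e1
  have ne1 : ¬ ∀ k, (α k * (β k)⁻¹) ^ 6 = 1 := fun e => hs (hf _ (by
    rw [← inv_pow, ← Prod.pow_mk, map_pow, ← e2, ← map_pow,
      eq_one_of_diag H.inj (diag_pow (diag_mul da (diag_inv db)) 6) e, map_one]))
  have eig : ∀ k, α k * β k = 1 ↔ Fx k := fun k => by
    refine ⟨fun e => by_contra fun hk => ne1 fun k' => ?_, fun e => (mul_comm _ _).trans e.1⟩
    by_cases hk' : Fx k'
    · exact cube k' hk'
    have ht : ¬ Fx (τ' k) := fun ⟨a1, a2⟩ => hk (by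
      rw [u1, u2] at a1 a2
      exact ⟨(mul_comm _ _).trans e, by linear_combination (-α k) * e - β k * a2⟩)
    have a1 := v1 k
    have a2 := v2 k
    have a3 := (w2 k).1
    have a4 := (w2 k).2
    have b1 := u1 k
    have b2 := u2 k
    have q : α k * α k = 1 ∧ α k = β k := by
      rcases one k _ hk ht with r | r | r <;> rw [r] at b1 b2
      · exact ⟨by rw [← e, b2], b2⟩
      · have : β (σ' k) = 1 := mul_left_cancel₀ (β0 k) (by rw [← a2, b2, mul_one])
        rw [this, one_mul] at a1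
        rw [a1, one_mul] at e
        exact ⟨by rw [a1, one_mul], a1.trans e.symm⟩
      · have : β k = 1 := mul_left_cancel₀ (α0 k) (by rw [mul_one, ← b1, a3, b1])
        rw [this, mul_one] at e
        exact ⟨by rw [e, one_mul], e.trans this.symm⟩
    have sq : ∀ {x y : K}, x * x = 1 → y * y = 1 → (x * y⁻¹) ^ 6 = 1 := fun {x y} hx hy => by
      rw [show 6 = 2 * 3 from rfl, pow_mul, mul_pow, inv_pow, pow_two, pow_two, hx, hy]; simp
    obtain ⟨q1, q2⟩ := q
    rw [← q2] at a2 a3 a4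
    rcases one k k' hk hk' with r | r | r <;> rw [r]
    · exact sq q1 (q2 ▸ q1)
    · have : β (σ' k) = α k := by linear_combination α k * a1 - β (σ' k) * q1
      exact sq (by rw [a2, this, q1, one_mul]) (by rw [this, q1])
    · have : α (σ' (σ' k)) = α k := by linear_combination α k * a4 - α (σ' (σ' k)) * q1
      exact sq (by rw [this, q1]) (by rw [mul_eq_right₀ (α0 k)] at a3; rw [a3, one_mul])
  let W : Submodule K (V4 K) :=
    { carrier := {v | ∀ i, ¬ Fx i → v i = 0}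
      add_mem' := fun ha hb i hi => by rw [Pi.add_apply, ha i hi, hb i hi, add_zero]
      zero_mem' := fun _ _ => rfl
      smul_mem' := fun c _ ha i hi => by rw [Pi.smul_apply, ha i hi, smul_zero] }
  have inv : ∀ g, (∀ i k, ρ g i k ≠ 0 → (Fx i ↔ Fx k)) → ∀ v ∈ W, ρ g *ᵥ v ∈ W := fun g hg v hv i hi => by
    change ∑ k, ρ g i k * v k = 0
    refine Finset.sum_eq_zero fun k _ => ?_
    by_cases e : ρ g i k = 0
    · rw [e, zero_mul]
    · rw [hv k fun a => hi ((hg i k e).2 a), mul_zero]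
  let N : Subgroup Γ :=
    { carrier := {g | (∀ v ∈ W, ρ g *ᵥ v ∈ W) ∧ ∀ v ∈ W, ρ g⁻¹ *ᵥ v ∈ W}
      one_mem' := by simp
      mul_mem' := fun ha hb => ⟨fun v hv => by rw [map_mul, ← mulVec_mulVec]; exact ha.1 _ (hb.1 v hv),
        fun v hv => by rw [_root_.mul_inv_rev, map_mul, ← mulVec_mulVec]; exact hb.2 _ (ha.2 v hv)⟩
      inv_mem' := fun ha => ⟨ha.2, by rw [inv_inv]; exact ha.1⟩ }
  have cen : ∀ g, g * (a * b) = a * b * g → ∀ v ∈ W, ρ g *ᵥ v ∈ W := fun g hg => inv g fun i k e => by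
    rw [← eig, ← eig, show α i * β i = α k * β k from entry (d' := fun k => α k * β k) (diag_mul da db)
      (by rw [hg, mul_inv_cancel_right, diag_mul da db]) e]
  have top := gen (N.map π) ⟨σ, ⟨inv _ fun i k e => fx (es e), inv _ fun i k e => (fx (es' e)).symm⟩, rfl⟩ fun y hy => by
    obtain ⟨g, rfl⟩ := h.surj y
    have hg : g * (a * b) = a * b * g := hπ (by rw [map_mul, map_mul π (a * b), e1, hy])
    exact ⟨g, ⟨cen g hg, cen _ (by rw [inv_mul_eq_iff_eq_mul, ← mul_assoc, hg, mul_inv_cancel_right])⟩, rfl⟩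
  rcases H.irr W fun g => (by
    obtain ⟨g', hg', e⟩ := (top ▸ Subgroup.mem_top (π g) : π g ∈ N.map π)
    exact hπ e ▸ hg'.1) with e | e
  · obtain ⟨k, hk⟩ := ex
    have : Pi.single k (1 : K) ∈ W := fun i hi => Pi.single_eq_of_ne (by rintro rfl; exact hi hk) _
    rw [e, Submodule.mem_bot] at this
    simpa using congrFun this k
  · exact ne1 fun k => cube k (by_contra fun hk =>
      one_ne_zero ((e ▸ Submodule.mem_top : (fun _ => (1 : K)) ∈ W) k hk))

end Cfsg.Agent.D4
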