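import Cfsg.Agent.D4.SO4a

/-!
The exterior square in an orthonormal basis.
-/

set_option autoImplicit false

open Matrix
open scoped MatrixGroups

namespace Cfsg.Agent.D4

universe v

namespace WA

variable {K : Type*} [Field K] {i : K}

/-- `alt` as a linear map. -/
def altL (i : K) : V6 K →ₗ[K] M4 K where
  toFun := alt i
  map_add' x y := by
    ext a b; fin_cases a <;> fin_cases b <;> simp [alt] <;> ring
  map_smul' c x := by
    ext a b; fin_cases a <;> fin_cases b <;> simp [alt] <;> ring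

/-- The inverse of `alt`. -/
def unL (i : K) : M4 K →ₗ[K] V6 K where
  toFun A := ![(A 0 1 + A 2 3) / 2, -i * (A 0 1 - A 2 3) / 2, (A 0 2 - A 1 3) / 2,
    -i * (A 0 2 + A 1 3) / 2, (A 0 3 + A 1 2) / 2, -i * (A 0 3 - A 1 2) / 2]
  map_add' x y := by
    ext a; fin_cases a <;> simp <;> ring
  map_smul' c x := by
    ext a; fin_cases a <;> simp <;> ring

theorem alt_add (x y : V6 K) : alt i (x + y) = alt i x + alt i y := (altL i).map_add x y
theorem alt_sub (x y : V6 K) : alt i (x - y) = alt i x - alt i y := (altL i).map_sub x y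
theorem alt_neg (x : V6 K) : alt i (-x) = -alt i x := (altL i).map_neg x
theorem alt_smul (c : K) (x : V6 K) : alt i (c • x) = c • alt i x := (altL i).map_smul c x
theorem alt_zero : alt i (0 : V6 K) = 0 := (altL i).map_zero

theorem alt_t (x : V6 K) : (alt i x)ᵀ = -alt i x := by
  ext a b; fin_cases a <;> fin_cases b <;> simp [alt]

theorem conj_t {A : M4 K} (hA : Aᵀ = -A) (M : M4 K) : (M * A * Mᵀ)ᵀ = -(M * A * Mᵀ) := by
  simp [hA, mul_assoc]

theorem un_alt (h2 : (2 : K) ≠ 0) (hi : i * i = -1) (x : V6 K) : unL i (alt i x) = x := by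
  ext a
  fin_cases a <;> simp [unL, alt] <;> field_simp <;>
    first | ring1 | linear_combination (-2 * x 1) * hi | linear_combination (-2 * x 3) * hi |
      linear_combination (-2 * x 5) * hi

theorem alt_un (h2 : (2 : K) ≠ 0) (hi : i * i = -1) {A : M4 K} (hA : Aᵀ = -A) :
    alt i (unL i A) = A := by
  rw [So4.alt_form h2 hA]
  ext a b
  fin_cases a <;> fin_cases b <;> simp [unL, alt] <;> field_simp <;>
    first | linear_combination (A 0 1 - A 2 3) * hi | linear_combination (A 2 3 - A 0 1) * hi |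
      linear_combination (A 0 2 + A 1 3) * hi | linear_combination (-A 0 2 - A 1 3) * hi |
      linear_combination (A 0 3 - A 1 2) * hi | linear_combination (A 1 2 - A 0 3) * hi

theorem alt_inj (h2 : (2 : K) ≠ 0) (hi : i * i = -1) {x y : V6 K} (e : alt i x = alt i y) :
    x = y := by rw [← un_alt h2 hi x, e, un_alt h2 hi]

theorem exists_alt (h2 : (2 : K) ≠ 0) (hi : i * i = -1) {A : M4 K} (hA : Aᵀ = -A) :
    ∃ x, alt i x = A := ⟨_, alt_un h2 hi hA⟩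

theorem pf_alt (hi : i * i = -1) (x : V6 K) : pf (alt i x) = x ⬝ᵥ x := by
  simp [pf, alt, dotProduct, Fin.sum_univ_succ]
  linear_combination (-x 1 ^ 2 - x 3 ^ 2 - x 5 ^ 2) * hi

theorem pf_conj (h2 : (2 : K) ≠ 0) {A : M4 K} (hA : Aᵀ = -A) (M : M4 K) :
    pf (M * A * Mᵀ) = M.det * pf A := by
  rw [So4.alt_form h2 hA, So4.pf_conj]
  simp [pf]

theorem eq_of_mulVec {S T : M6 K} (h : ∀ x, S *ᵥ x = T *ᵥ x) : S = T :=
  toLin'.injective (LinearMap.ext h)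

theorem orth_of (h2 : (2 : K) ≠ 0) {S : M6 K} (h : ∀ x, (S *ᵥ x) ⬝ᵥ (S *ᵥ x) = x ⬝ᵥ x) :
    Sᵀ * S = 1 := by
  have k : ∀ x y, (S *ᵥ x) ⬝ᵥ (S *ᵥ y) = x ⬝ᵥ y := fun x y => by
    have := h (x + y)
    simp only [mulVec_add, add_dotProduct, dotProduct_add, h, dotProduct_comm y x,
      dotProduct_comm (S *ᵥ y) (S *ᵥ x)] at this
    exact mul_left_cancel₀ h2 (by linear_combination this)
  ext a b
  have := k (Pi.single a 1) (Pi.single b 1)
  simp only [mulVec_single_one, single_dotProduct, one_mul] at this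
  rw [one_apply, ← Pi.single_apply, ← this]
  rfl

/-- The exterior square of a matrix. -/
noncomputable def lam (i : K) (M : M4 K) : M6 K :=
  LinearMap.toMatrix' (unL i ∘ₗ LinearMap.mulLeftRight K (M, Mᵀ) ∘ₗ altL i)

theorem lam_mulVec (M : M4 K) (x : V6 K) : lam i M *ᵥ x = unL i (M * alt i x * Mᵀ) := by
  rw [lam, LinearMap.toMatrix'_mulVec]; rfl

theorem alt_lam (h2 : (2 : K) ≠ 0) (hi : i * i = -1) (M : M4 K) (x : V6 K) :
    alt i (lam i M *ᵥ x) = M * alt i x * Mᵀ := by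
  rw [lam_mulVec, alt_un h2 hi (conj_t (alt_t x) M)]

theorem eq_lam (h2 : (2 : K) ≠ 0) (hi : i * i = -1) {M : M4 K} {S : M6 K}
    (h : ∀ x, alt i (S *ᵥ x) = M * alt i x * Mᵀ) : S = lam i M :=
  eq_of_mulVec fun x => alt_inj h2 hi (by rw [h, alt_lam h2 hi])

/-- The minors of order two. -/
def mn (M : M4 K) (p q a b : Fin 4) : K := M p a * M q b - M p b * M q a

theorem conj_entry (M : M4 K) (x : V6 K) (p q : Fin 4) : (M * alt i x * Mᵀ) p q =
    (x 0 + i * x 1) * mn M p q 0 1 + (x 2 + i * x 3) * mn M p q 0 2 +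
    (x 4 + i * x 5) * mn M p q 0 3 + (x 4 - i * x 5) * mn M p q 1 2 -
    (x 2 - i * x 3) * mn M p q 1 3 + (x 0 - i * x 1) * mn M p q 2 3 := by
  simp [alt, mn, mul_apply, Fin.sum_univ_four]
  ring

theorem lam_trace (h2 : (2 : K) ≠ 0) (hi : i * i = -1) {M : M4 K} {S : M6 K}
    (h : ∀ x, alt i (S *ᵥ x) = M * alt i x * Mᵀ) :
    2 * S.trace = M.trace ^ 2 - (M * M).trace := by
  have e : ∀ a, S a a = unL i (M * alt i (Pi.single a 1) * Mᵀ) a := fun a => by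
    rw [← h, un_alt h2 hi]
    simp
  have u : ∀ A : M4 K, 2 * unL i A 0 = A 0 1 + A 2 3 ∧ 2 * unL i A 1 = -i * (A 0 1 - A 2 3) ∧
      2 * unL i A 2 = A 0 2 - A 1 3 ∧ 2 * unL i A 3 = -i * (A 0 2 + A 1 3) ∧
      2 * unL i A 4 = A 0 3 + A 1 2 ∧ 2 * unL i A 5 = -i * (A 0 3 - A 1 2) := fun A =>
    ⟨mul_div_cancel₀ _ h2, mul_div_cancel₀ _ h2, mul_div_cancel₀ _ h2, mul_div_cancel₀ _ h2,
      mul_div_cancel₀ _ h2, mul_div_cancel₀ _ h2⟩
  rw [trace, Fin.sum_univ_six]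
  simp only [diag, e, mul_add, u, conj_entry]
  simp [trace, Fin.sum_univ_four, mul_apply]
  linear_combination (norm := (simp only [mn]; ring1)) (-(mn M 0 1 0 1 - mn M 0 1 2 3 - mn M 2 3 0 1 + mn M 2 3 2 3 +
    mn M 0 2 0 2 + mn M 0 2 1 3 + mn M 1 3 0 2 + mn M 1 3 1 3 +
    mn M 0 3 0 3 - mn M 0 3 1 2 - mn M 1 2 0 3 + mn M 1 2 1 2)) * hi

theorem scal {M N : M4 K} (h : ∀ A : M4 K, Aᵀ = -A → M * A = A * N) : ∃ c : K, M = c • 1 := by
  have e := fun a b k : Fin 4 => congrFun (congrFun (h (single a b 1 - single b a 1)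
    (by simp [transpose_sub, transpose_single])) k) b
  simp only [mul_sub, sub_mul, Matrix.sub_apply] at e
  have k1 : ∀ a b k : Fin 4, k ≠ a → k ≠ b → a ≠ b → M k a = 0 := fun a b k h1 h2 h3 => by
    simpa [h1, h2, h3.symm] using e a b k
  have k2 : ∀ a b : Fin 4, a ≠ b → M a a = N b b := fun a b h3 => by
    simpa [h3, h3.symm] using e a b a
  refine ⟨M 0 0, ?_⟩
  ext a b
  by_cases hab : a = b
  · subst hab
    obtain ⟨c, c1, c2⟩ : ∃ c, a ≠ c ∧ 0 ≠ c := by revert a; decide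
    simp [k2 a c c1, k2 0 c c2]
  · obtain ⟨c, c1, c2⟩ : ∃ c, a ≠ c ∧ b ≠ c := by revert a b; decide
    simp [k1 b c a hab c1 c2, hab]

end WA

variable {K : Type*} [Field K] {Γ : Type v} {X : Type*} [Group Γ] [Group X] {ρ : Γ →* M4 K}
  {π : Γ →* X}

theorem WA.scal_of {g : Γ} {c : K} (h : ∀ A : M4 K, Aᵀ = -A → ρ g * A * (ρ g)ᵀ = c • A) :
    ∃ d : K, ρ g = d • 1 :=
  WA.scal (N := c • (ρ g⁻¹)ᵀ) fun A hA => by
    rw [mul_smul_comm, ← smul_mul_assoc, ← h A hA, mul_assoc, ← transpose_mul, inv_mul_rho,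
      transpose_one, mul_one]

theorem Hyp.exists_lk [Finite Γ] (h : Hyp ρ π) (h2 : (2 : K) ≠ 0) {i : K} (hi : i * i = -1) :
    ∃ (G : Type v) (_ : Group G) (_ : Finite G) (σ : G →* M6 K) (π' : G →* X) (ι : Γ →* G),
      Lk ρ π σ π' ι i ∧ Function.Injective σ ∧ (∀ g, (σ g)ᵀ * σ g = 1) ∧ (∀ g, (σ g).det = 1) ∧
      (∃ g, σ g = -1) ∧ Function.Surjective π' ∧ ∀ g, π' g = 1 ↔ σ g = 1 ∨ σ g = -1 := by
  obtain ⟨l, al⟩ : ∃ l : Γ →* M6 K, ∀ g x, alt i (l g *ᵥ x) = ρ g * alt i x * (ρ g)ᵀ :=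
    ⟨{ toFun := fun g => WA.lam i (ρ g)
       map_one' := (WA.eq_lam h2 hi fun x => by simp).symm
       map_mul' := fun a b => (WA.eq_lam h2 hi fun x => by
        rw [← mulVec_mulVec, WA.alt_lam h2 hi, WA.alt_lam h2 hi]; simp [mul_assoc]).symm },
      fun g => WA.alt_lam h2 hi _⟩
  have lo : ∀ g, (l g)ᵀ * l g = 1 := fun g => WA.orth_of h2 fun x => by
    rw [← WA.pf_alt hi, al, WA.pf_conj h2 (WA.alt_t x), h.det, one_mul, WA.pf_alt hi]
  have ld : ∀ g, (l g).det = 1 := fun g => by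
    simpa using congrArg Units.val (hom_eq_one h.perfect (detMonoidHom.comp l).toHomUnits g)
  have lk : ∀ g, π g = 1 ↔ l g = 1 ∨ l g = -1 := fun g => by
    rw [h.ker]
    refine ⟨fun ⟨c, e⟩ => ?_, fun e => ?_⟩
    · have : (c * c - 1) * (c * c + 1) = 0 := by linear_combination h.fourth e
      have k : ∀ x, l g *ᵥ x = (c * c) • x := fun x => WA.alt_inj h2 hi (by
        rw [al, e, WA.alt_smul]; simp [smul_smul])
      refine (mul_eq_zero.1 this).imp (fun e => WA.eq_of_mulVec fun x => ?_)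
        fun e => WA.eq_of_mulVec fun x => ?_
      · rw [k, sub_eq_zero.1 e, one_smul, one_mulVec]
      · rw [k, eq_neg_of_add_eq_zero_left e, neg_mulVec, one_mulVec, neg_smul, one_smul]
    · rcases e with e | e
      · refine WA.scal_of (c := 1) fun A hA => ?_
        obtain ⟨x, rfl⟩ := WA.exists_alt h2 hi hA
        rw [← al, e, one_mulVec, one_smul]
      · refine WA.scal_of (c := -1) fun A hA => ?_
        obtain ⟨x, rfl⟩ := WA.exists_alt h2 hi hA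
        rw [← al, e, neg_mulVec, one_mulVec, WA.alt_neg, neg_smul, one_smul]
  obtain ⟨σ0, hσ⟩ : ∃ σ0 : Γ × ℤˣ →* M6 K, ∀ g, σ0 g = g.2 • l g.1 :=
    ⟨{ toFun := fun g => g.2 • l g.1
       map_one' := by simp
       map_mul' := fun a b => by simp [smul_smul, mul_comm] }, fun _ => rfl⟩
  have s0 : ∀ g, σ0 g = l g.1 ∨ σ0 g = -l g.1 := fun g =>
    (Int.units_eq_one_or g.2).imp (fun e => by simp [hσ, e]) fun e => by simp [hσ, e]
  have k0 : ∀ g, π g.1 = 1 ↔ σ0 g = 1 ∨ σ0 g = -1 := fun g => by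
    rw [lk]
    rcases s0 g with e | e <;> rw [e]
    rw [neg_eq_iff_eq_neg, neg_inj, or_comm]
  have le : σ0.ker ≤ (π.comp (MonoidHom.fst Γ ℤˣ)).ker := fun g hg => (k0 g).2 (Or.inl hg)
  obtain ⟨σ, hs⟩ : ∃ σ : (Γ × ℤˣ) ⧸ σ0.ker →* M6 K, ∀ g : Γ × ℤˣ, σ g = σ0 g :=
    ⟨QuotientGroup.lift _ σ0 le_rfl, fun _ => rfl⟩
  obtain ⟨π', hp⟩ : ∃ π' : (Γ × ℤˣ) ⧸ σ0.ker →* X, ∀ g : Γ × ℤˣ, π' g = π g.1 :=
    ⟨QuotientGroup.lift _ (π.comp (MonoidHom.fst Γ ℤˣ)) le, fun _ => rfl⟩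
  obtain ⟨ι, hι⟩ : ∃ ι : Γ →* (Γ × ℤˣ) ⧸ σ0.ker, ∀ g, ι g = ((g, 1) : Γ × ℤˣ) :=
    ⟨(QuotientGroup.mk' _).comp (MonoidHom.inl Γ ℤˣ), fun _ => rfl⟩
  refine ⟨(Γ × ℤˣ) ⧸ σ0.ker, inferInstance, inferInstance, σ, π', ι,
    ⟨hi, fun g => by rw [hι, hp], fun g x => ?_, fun k => ?_⟩,
    (injective_iff_map_eq_one σ).2 fun g => ?_, fun g => ?_, fun g => ?_,
    ⟨((1, -1) : Γ × ℤˣ), ?_⟩, fun x => ?_, fun g => ?_⟩
  · rw [← al, hι, hs, hσ, one_smul]
  · obtain ⟨g, rfl⟩ := QuotientGroup.mk_surjective k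
    exact ⟨g.1, by rw [hι, hs, hs, hσ (g.1, 1), one_smul]; exact s0 g⟩
  · obtain ⟨g, rfl⟩ := QuotientGroup.mk_surjective g
    rw [hs, QuotientGroup.eq_one_iff]
    exact id
  · obtain ⟨g, rfl⟩ := QuotientGroup.mk_surjective g
    rw [hs]
    rcases s0 g with e | e <;> simp [e, lo]
  · obtain ⟨g, rfl⟩ := QuotientGroup.mk_surjective g
    rw [hs]
    rcases s0 g with e | e
    · rw [e, ld]
    · rw [e, det_neg, ld]; norm_num
  · rw [hs, hσ]; simp
  · obtain ⟨g, rfl⟩ := h.surj x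
    exact ⟨((g, 1) : Γ × ℤˣ), hp _⟩
  · obtain ⟨g, rfl⟩ := QuotientGroup.mk_surjective g
    rw [hs, hp]
    exact k0 g

theorem Lk.trace {G : Type*} [Group G] {σ : G →* M6 K} {π' : G →* X} {ι : Γ →* G} {i : K}
    (l : Lk ρ π σ π' ι i) (h2 : (2 : K) ≠ 0) (g : Γ) :
    2 * (σ (ι g)).trace = (ρ g).trace ^ 2 - (ρ (g * g)).trace := by
  rw [WA.lam_trace h2 l.hi (l.act g), map_mul]

end Cfsg.Agent.D4
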