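import Cfsg.Agent.D4.WBas0

/-!
The orthogonal model: frames, involutions, reflections.
-/

set_option autoImplicit false

open Matrix
open scoped MatrixGroups

namespace Cfsg.Agent.D4

open WB

variable {K : Type*} [Field K] {G X : Type*} [Group G] [Group X] {σ : G →* M6 K} {π : G →* X}

/-- The permutation matrix. -/
def pm (w : S6) : O6 K := ⟨mono w 1, by
  have : (mono w (1 : Fin 6 → K))ᵀ = mono w⁻¹ 1 := by
    ext i j
    simp only [mono, transpose_apply, of_apply, Pi.one_apply, Equiv.Perm.eq_inv_iff_eq, eq_comm]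
  rw [this, mono_mul, inv_mul_cancel, ← mono_one]
  exact congrArg _ (funext fun _ => one_mul _)⟩

theorem cw_apply (B : O6 K) (g : G) : cw σ B g = B.1ᵀ * σ g * B.1 := rfl

theorem cw_cw (B C : O6 K) : ∃ E : O6 K, E.1 = B.1 * C.1 ∧ cw (cw σ B) C = cw σ E := by
  refine ⟨⟨B.1 * C.1, ?_⟩, rfl, MonoidHom.ext fun g => ?_⟩
  · rw [transpose_mul, mul_assoc, ← mul_assoc B.1ᵀ, B.2, one_mul, C.2]
  · simp only [cw_apply, transpose_mul, mul_assoc]

theorem WB.uncw (B : O6 K) (N : M6 K) : B.1 * (B.1ᵀ * N * B.1) * B.1ᵀ = N := by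
  have := mul_eq_one_comm.1 B.2
  rw [← mul_assoc, ← mul_assoc, this, one_mul, mul_assoc, this, mul_one]

theorem WB.cw_vec (B : O6 K) (g : G) (x : V6 K) : B.1 *ᵥ cw σ B g *ᵥ x = σ g *ᵥ B.1 *ᵥ x := by
  rw [mulVec_mulVec, mulVec_mulVec, cw_apply, ← mul_assoc, ← mul_assoc, mul_eq_one_comm.1 B.2,
    one_mul]

theorem WB.dot_orth {M : M6 K} (h : Mᵀ * M = 1) (x y : V6 K) :
    (M *ᵥ x) ⬝ᵥ (M *ᵥ y) = x ⬝ᵥ y := by
  rw [dotProduct_mulVec, vecMul_mulVec, h, vecMul_one]

theorem WB.cw_sub (B : O6 K) (g : G) : σ g - 1 = B.1 * (cw σ B g - 1) * B.1ᵀ := by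
  rw [mul_sub, sub_mul, cw_apply, uncw, mul_one, mul_eq_one_comm.1 B.2]

theorem WB.nil_conj (B : O6 K) {N : M6 K} (h : IsNilpotent N) : IsNilpotent (B.1 * N * B.1ᵀ) := by
  obtain ⟨n, hn⟩ := h
  refine ⟨n + 1, ?_⟩
  have : ∀ m : ℕ, (B.1 * N * B.1ᵀ) ^ (m + 1) = B.1 * N ^ (m + 1) * B.1ᵀ := fun m => by
    induction m with
    | zero => simp
    | succ m ih =>
      rw [pow_succ, ih, pow_succ N (m + 1)]
      simp only [mul_assoc]
      rw [← mul_assoc B.1ᵀ, B.2, one_mul]
  rw [this, pow_succ, hn]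
  simp

theorem WB.cw_trace (B : O6 K) (g : G) : (cw σ B g).trace = (σ g).trace := by
  rw [cw_apply, mul_assoc, trace_mul_comm, mul_assoc, mul_eq_one_comm.1 B.2, mul_one]

theorem HW.cw (h : HW σ π) (B : O6 K) : HW (cw σ B) π := by
  have b := mul_eq_one_comm.1 B.2
  have e1 : ∀ g (c : K), D4.cw σ B g = c • 1 ↔ σ g = c • 1 := fun g c =>
    ⟨fun e => by rw [← uncw B (σ g), ← cw_apply, e]; simp [b],
      fun e => by rw [cw_apply, e]; simp [B.2]⟩
  have e2 : ∀ g, D4.cw σ B g = 1 ↔ σ g = 1 := fun g => by simpa using e1 g 1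
  have e3 : ∀ g, D4.cw σ B g = -1 ↔ σ g = -1 := fun g => by simpa using e1 g (-1)
  refine ⟨h.two, h.lf, (injective_iff_map_eq_one _).2 fun g e =>
    (injective_iff_map_eq_one _).1 h.inj g ((e2 g).1 e), fun g => ?_, fun g => ?_,
    h.neg.imp fun g e => (e3 g).2 e, h.surj, fun g => by rw [e2, e3, h.ker], h.simple, h.nonab,
    fun U hU => ?_, fun g e => h.nsq g ?_, fun g e => h.nrt g ?_,
    fun g k x y h1 h2 h3 h4 h5 h6 h7 h8 h9 h10 => h.quad g k (B.1 *ᵥ x) (B.1 *ᵥ y)
      (by rwa [dot_orth B.2]) (by rwa [dot_orth B.2]) (by rwa [dot_orth B.2])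
      (by rw [cw_sub B]; exact nil_conj B h4) (by rw [cw_sub B]; exact nil_conj B h5) h6
      (by rw [← cw_vec, h7]) (by rw [← cw_vec, h8]) (by rw [← cw_vec, h9]) (by rw [← cw_vec, h10])⟩
  · simp only [cw_apply, transpose_mul, transpose_transpose, mul_assoc]
    rw [← mul_assoc B.1, b, one_mul, ← mul_assoc (σ g)ᵀ, h.orth, one_mul, B.2]
  · rw [cw_apply, det_mul, det_mul, h.det, mul_one, ← det_mul, B.2, det_one]
  · rcases h.irr (U.map B.1.mulVecLin) (by
      rintro g _ ⟨x, hx, rfl⟩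
      exact ⟨_, hU g x hx, cw_vec ..⟩) with e | e
    · refine Or.inl (eq_bot_iff.2 fun x hx => ?_)
      have : B.1 *ᵥ x ∈ U.map B.1.mulVecLin := ⟨x, hx, rfl⟩
      rw [e, Submodule.mem_bot] at this
      rw [Submodule.mem_bot, ← one_mulVec x, ← B.2, ← mulVec_mulVec, this, mulVec_zero]
    · refine Or.inr (eq_top_iff.2 fun x _ => ?_)
      obtain ⟨y, hy, e'⟩ : B.1 *ᵥ x ∈ U.map B.1.mulVecLin := e ▸ trivial
      have := congrArg (B.1ᵀ *ᵥ ·) e'
      simp only [mulVecLin_apply, mulVec_mulVec, B.2, one_mulVec] at this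
      exact this ▸ hy
  · rw [← map_mul] at e ⊢
    exact (e3 _).1 e
  · rw [cw_sub B]
    simp only [mul_assoc]
    rw [← mul_assoc B.1ᵀ, B.2, one_mul, ← mul_assoc (D4.cw σ B g - 1), e]
    simp

theorem HW.inv_eq (h : HW σ π) (g : G) : σ g⁻¹ = (σ g)ᵀ := by
  rw [← one_mul (σ g⁻¹), ← h.orth g, mul_assoc, ← map_mul, mul_inv_cancel, map_one, mul_one]

theorem HW.cw_self (h : HW σ π) (k g : G) : D4.cw σ ⟨σ k, h.orth k⟩ g = σ (k⁻¹ * g * k) := by
  rw [map_mul, map_mul, h.inv_eq]; rfl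

theorem HW.finiteX [Finite G] (h : HW σ π) : Finite X := .of_surjective _ h.surj

theorem HW.eq_of (h : HW σ π) {a b : G} (e : π a = π b) : σ a = σ b ∨ σ a = -σ b := by
  have : σ a = σ (a * b⁻¹) * σ b := by rw [← map_mul, inv_mul_cancel_right]
  rcases (h.ker (a * b⁻¹)).1 (by rw [map_mul, e, map_inv, mul_inv_cancel]) with e | e <;>
    simp [this, e]

theorem trace_aa {i j : Fin 6} (h : i ≠ j) : (aa i j : M6 K).trace = 2 := by
  have : ∀ i j : Fin 6, i ≠ j → ∑ k, (if k = i ∨ k = j then -1 else 1 : ℤ) = 2 := by decide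
  have := congrArg (Int.cast : ℤ → K) (this i j h)
  rw [aa, trace_diagonal]
  push_cast at this
  exact this

theorem WB.four (h2 : (2 : K) ≠ 0) : (4 : K) ≠ 0 := fun e =>
  mul_ne_zero h2 h2 (by linear_combination e)

theorem HW.inv_unique (h : HW σ π) {a b : G} (e : π a = π b) (ha : (σ a).trace = 2)
    (hb : (σ b).trace = 2) : a = b := by
  rcases h.eq_of e with e | e
  · exact h.inj e
  · rw [e, trace_neg, hb] at ha
    exact absurd (by linear_combination -ha) (four h.two)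

theorem HW.ord_inv (h : HW σ π) {a : G} (e : a * a = 1) (ha : (σ a).trace = 2) :
    orderOf (π a) = 2 := by
  refine orderOf_eq_prime (by rw [pow_two, ← map_mul, e, map_one]) fun e => ?_
  rcases (h.ker a).1 e with e | e <;> simp only [e, trace_neg, trace_one, Fintype.card_fin] at ha
  · exact four h.two (by push_cast at ha; linear_combination ha)
  · exact mul_ne_zero h.two (four h.two) (by push_cast at ha; linear_combination -ha)

theorem HW.conj_lift (h : HW σ π) {a b k : G} (ha : (σ a).trace = 2) (hb : (σ b).trace = 2)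
    (e : π k * π a * (π k)⁻¹ = π b) : k * a * k⁻¹ = b := by
  refine h.inv_unique (by simpa using e) ?_ hb
  rw [map_mul, trace_mul_comm, ← map_mul, ← mul_assoc, inv_mul_cancel, one_mul, ha]

theorem HW.cent_eq (h : HW σ π) {a : G} (ha : (σ a).trace = 2) :
    Subgroup.centralizer ({π a} : Set X) = (Cz σ (σ a)).map π := by
  ext x
  obtain ⟨k, rfl⟩ := h.surj x
  rw [Subgroup.mem_centralizer_singleton_iff]
  refine ⟨fun e => ⟨k, ?_, rfl⟩, ?_⟩
  · have := h.conj_lift ha ha (k := k) (by rw [e, mul_inv_cancel_right])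
    change σ k * σ a = σ a * σ k
    rw [← map_mul, ← map_mul, mul_inv_eq_iff_eq_mul.1 this]
  · rintro ⟨l, hl, e⟩
    have : σ l * σ a = σ a * σ l := hl
    rw [← map_mul, ← map_mul] at this
    rw [← e, ← map_mul, ← map_mul, h.inj this]

theorem HW.solv_map (h : HW σ π) (H : Subgroup G) :
    Group.IsSolvable (H.map π) ↔ Group.IsSolvable H := by
  refine ⟨fun _ => ?_, fun _ => Group.isSolvable_of_surjective (π.subgroupMap_surjective H)⟩
  have : Group.IsSolvable (π.subgroupMap H).ker := Group.isSolvable_of_comm fun a b => by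
    refine Subtype.ext (Subtype.ext (h.inj ?_))
    have ha : π a.1.1 = 1 := congrArg Subtype.val a.2
    simp only [Subgroup.coe_mul, map_mul]
    rcases (h.ker _).1 ha with e | e <;> simp [e]
  exact Group.isSolvable_of_ker_le_range (π.subgroupMap H).ker.subtype (π.subgroupMap H) (by simp)

theorem HW.exists_diag [IsAlgClosed K] (h : HW σ π) {ι : Type*} (a : ι → G)
    (h2 : ∀ i, a i * a i = 1) (hc : ∀ i j, a i * a j = a j * a i) :
    ∃ B : O6 K, ∀ i, IsMono (D4.cw σ B (a i)) 1 := by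
  obtain ⟨w, w1, -, w3⟩ := exists_on (fun i => σ (a i)) h.two
    (fun i => by rw [← h.inv_eq, inv_eq_of_mul_eq_one_right (h2 i)])
    (fun i => by rw [← map_mul, h2, map_one]) (fun i j => by rw [← map_mul, hc, map_mul]) _ ∅
    (fun _ => 0) rfl (by simp) (by simp)
  refine ⟨ofCols w w1, fun i => ?_⟩
  have : ∀ j, ∃ c : K, c * c = 1 ∧ σ (a i) *ᵥ w j = c • w j := fun j =>
    (w3 j i).elim (fun e => ⟨1, by simp, by simpa⟩) fun e => ⟨-1, by simp, by simpa⟩
  choose ε e1 e2 using this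
  refine ⟨ε, e1, Matrix.ext fun k l => ?_⟩
  rw [cw_apply, conj_apply, ofCols_ee, ofCols_ee, e2, dotProduct_smul, w1]
  simp only [mono, of_apply, Equiv.Perm.one_apply, smul_eq_mul, mul_ite, mul_one, mul_zero]
  congr

theorem HW.aa_of_diag (h : HW σ π) {a : G} (m : IsMono (σ a) 1) (ha : (σ a).trace = 2) :
    ∃ i j, i ≠ j ∧ σ a = aa i j := by
  rcases diag_cases h.two m (h.det a) with e | e | ⟨i, j, e, f | f⟩
  · simp only [e, trace_one, Fintype.card_fin] at ha
    exact (four h.two (by push_cast at ha; linear_combination ha)).elim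
  · simp only [e, trace_neg, trace_one, Fintype.card_fin] at ha
    exact (mul_ne_zero h.two (four h.two) (by push_cast at ha; linear_combination -ha)).elim
  · exact ⟨i, j, e, f⟩
  · rw [f, trace_neg, trace_aa e] at ha
    exact (four h.two (by linear_combination -ha)).elim

theorem HW.exists_inv [IsAlgClosed K] (h : HW σ π) {t : X} (ht : orderOf t = 2) :
    ∃ g, π g = t ∧ g * g = 1 ∧ (σ g).trace = 2 := by
  obtain ⟨g, rfl⟩ := h.surj t
  have t1 : π g ≠ 1 := fun e => by simp [e] at ht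
  have gg : g * g = 1 := h.inj <| by
    rcases (h.ker (g * g)).1 (by rw [map_mul, ← pow_two, ← ht, pow_orderOf_eq_one]) with e | e
    · rw [e, map_one]
    · exact (h.nsq g (by rwa [← map_mul])).elim
  obtain ⟨B, hB⟩ := h.exists_diag (fun _ : Unit => g) (fun _ => gg) fun _ _ => rfl
  rcases diag_cases h.two (hB ()) ((h.cw B).det g) with e | e | ⟨i, j, e, f | f⟩
  · exact (t1 (((h.cw B).ker g).2 (Or.inl e))).elim
  · exact (t1 (((h.cw B).ker g).2 (Or.inr e))).elim
  · exact ⟨g, rfl, gg, by rw [← cw_trace B, f, trace_aa e]⟩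
  · obtain ⟨n, hn⟩ := h.neg
    refine ⟨n * g, by rw [map_mul, (h.ker n).2 (Or.inr hn), one_mul], h.inj ?_, ?_⟩
    · rw [map_mul, map_mul, hn, neg_mul, one_mul, neg_mul_neg, ← map_mul, gg]
    · rw [map_mul, hn, neg_mul, one_mul, trace_neg, ← cw_trace B, f, trace_neg, neg_neg, trace_aa e]

theorem exists_O6 [IsAlgClosed K] (h2 : (2 : K) ≠ 0) (s : Finset (Fin 6)) (v : Fin 6 → V6 K)
    (hv : ∀ i ∈ s, ∀ j ∈ s, v i ⬝ᵥ v j = if i = j then 1 else 0) :
    ∃ B : O6 K, ∀ i ∈ s, B.1 *ᵥ ee i = v i := by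
  obtain ⟨w, w1, w2, -⟩ := exists_on (Empty.elim : Empty → M6 K) h2 (·.elim) (·.elim) (·.elim) _ s v
    rfl hv fun _ _ => (·.elim)
  exact ⟨ofCols w w1, fun i hi => by rw [ofCols_ee, w2 i hi]⟩

theorem aa_mul_self (i j : Fin 6) : (aa i j : M6 K) * aa i j = 1 := by
  rw [aa, diagonal_mul_diagonal, ← diagonal_one]
  refine congrArg _ (funext fun k => ?_)
  split_ifs <;> simp

theorem isMono_aa (i j : Fin 6) : IsMono (aa i j : M6 K) 1 :=
  ⟨_, fun k => by split_ifs <;> simp, (mono_one_eq fun k => if k = i ∨ k = j then -1 else 1).symm⟩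

theorem IsMono.conj_aa {M : M6 K} {w : S6} (m : IsMono M w) (i j : Fin 6) :
    M * aa i j = aa (w i) (w j) * M := by
  obtain ⟨ε, -, rfl⟩ := m
  simp only [aa, ← mono_one_eq, mono_mul, mul_one, one_mul, Equiv.Perm.one_apply,
    EmbeddingLike.apply_eq_iff_eq, mul_comm]

theorem IsMono.unique (h2 : (2 : K) ≠ 0) {M : M6 K} {w w' : S6} (m : IsMono M w)
    (m' : IsMono M w') : w = w' := by
  obtain ⟨ε, h, rfl⟩ := m
  obtain ⟨ε', -, e⟩ := m'
  refine Equiv.ext fun j => by_contra fun n => ?_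
  have := congrFun (congrFun e (w j)) j
  simp only [mono, of_apply, if_true, if_neg n] at this
  have _ := h2
  simpa [this] using h j

theorem IsMono.neg {M : M6 K} {w : S6} (m : IsMono M w) : IsMono (-M) w := by
  obtain ⟨ε, h, rfl⟩ := m
  refine ⟨-ε, by simpa using h, Matrix.ext fun i j => ?_⟩
  simp only [mono, Matrix.neg_apply, of_apply, Pi.neg_apply]
  split_ifs <;> simp

theorem det_mono (w : S6) (ε : Fin 6 → K) :
    (mono w ε).det = ((Equiv.Perm.sign w : ℤ) : K) * ∏ j, ε j := by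
  have : mono w ε = (diagonal ε).submatrix w.symm id := by
    ext i j
    simp only [mono, of_apply, submatrix_apply, diagonal_apply, id, Equiv.symm_apply_eq]
    split_ifs with e <;> simp [e]
  rw [this, det_permute, det_diagonal]
  simp

theorem isMono_of_col {M : M6 K} (h : Mᵀ * M = 1)
    (e : ∀ j, ∃ (i : Fin 6) (c : K), M *ᵥ ee j = c • ee i) : ∃ w, IsMono M w := by
  choose f c e using e
  have d : ∀ j k, (if f j = f k then c j * c k else 0) = if j = k then 1 else 0 := fun j k => by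
    have := dot_orth h (ee k) (ee j)
    simpa [e, Pi.single_apply, mul_comm (c k)] using this
  have inj : Function.Injective f := fun j k n => by_contra fun m => by
    have a := d j j
    have b := d k k
    have := d j k
    simp only [if_true, if_pos n, if_neg m, mul_eq_zero] at a b this
    rcases this with z | z <;> simp_all
  refine ⟨Equiv.ofBijective f (Finite.injective_iff_bijective.1 inj), c, fun j => by simpa using d j j,
    ext_of_mulVec_single fun j => ?_⟩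
  rw [mono_ee]
  exact e j

theorem rf_mulVec (v x : V6 K) : rf v *ᵥ x = x - (2 * (v ⬝ᵥ x) / v ⬝ᵥ v) • v := by
  rw [rf, sub_mulVec, one_mulVec, smul_mulVec, vecMulVec_mulVec, op_smul_eq_smul, smul_smul]
  congr 2
  ring

theorem rf_smul {c : K} (hc : c ≠ 0) (v : V6 K) : rf (c • v) = rf v := by
  refine ext_of_mulVec_single fun j => ?_
  rw [rf_mulVec, rf_mulVec, smul_smul, smul_dotProduct, smul_dotProduct, dotProduct_smul]
  congr 2
  simp only [smul_eq_mul]
  by_cases z : v ⬝ᵥ v = 0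
  · simp [z]
  · field_simp

theorem WB.rf_self {v : V6 K} (hv : v ⬝ᵥ v ≠ 0) : rf v *ᵥ v = -v := by
  rw [rf_mulVec, mul_div_assoc, div_self hv, mul_one, two_smul]
  abel

theorem rf_mul_self {v : V6 K} (hv : v ⬝ᵥ v ≠ 0) : rf v * rf v = 1 := by
  refine ext_of_mulVec_single fun j => ?_
  rw [← mulVec_mulVec, one_mulVec, rf_mulVec v (Pi.single j 1), mulVec_sub, mulVec_smul, rf_self hv,
    rf_mulVec, smul_neg]
  abel

theorem rf_transpose (v : V6 K) : (rf v)ᵀ = rf v := by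
  simp [rf]

theorem det_rf {v : V6 K} (hv : v ⬝ᵥ v ≠ 0) : (rf v).det = -1 := by
  have : rf v = 1 + replicateCol Unit (-(2 / v ⬝ᵥ v) • v) * replicateRow Unit v := by
    rw [← vecMulVec_eq, rf, smul_vecMulVec, neg_smul, sub_eq_add_neg]
  rw [this, det_one_add_replicateCol_mul_replicateRow, dotProduct_smul, smul_eq_mul]
  field_simp
  norm_num

theorem rf_conj {M : M6 K} (h : Mᵀ * M = 1) (v : V6 K) : M * rf v * Mᵀ = rf (M *ᵥ v) := by
  rw [rf, rf, dot_orth h, mul_sub, sub_mul, mul_one, mul_eq_one_comm.1 h, mul_smul_comm,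
    smul_mul_assoc, mul_vecMulVec, vecMulVec_mul, vecMul_transpose]

theorem trace_rf_mul {v w : V6 K} (hv : v ⬝ᵥ v ≠ 0) (hw : w ⬝ᵥ w ≠ 0) (e : v ⬝ᵥ w = 0) :
    (rf v * rf w).trace = 2 := by
  simp only [rf, sub_mul, mul_sub, one_mul, mul_one, smul_mul_assoc, mul_smul_comm,
    vecMulVec_mul_vecMulVec, e, trace_sub, trace_smul, trace_vecMulVec, trace_one, Fintype.card_fin,
    zero_smul, dotProduct_zero, smul_eq_mul]
  field_simp
  push_cast
  ring

theorem WB.rf_ee (i : Fin 6) : rf (ee i : V6 K) = diagonal fun k => if k = i then -1 else 1 := by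
  ext k l
  simp only [rf, single_one_dotProduct, Pi.single_eq_same, div_one, Matrix.sub_apply,
    Matrix.smul_apply,
    vecMulVec_apply, Pi.single_apply, one_apply, diagonal_apply, smul_eq_mul]
  split_ifs <;> simp_all
  norm_num

theorem aa_eq_rf {i j : Fin 6} (h : i ≠ j) : (aa i j : M6 K) = rf (ee i) * rf (ee j) := by
  rw [rf_ee, rf_ee, diagonal_mul_diagonal, aa]
  refine congrArg _ (funext fun k => ?_)
  by_cases a : k = i <;> by_cases b : k = j <;> simp_all

theorem isMono_rf_ee (i : Fin 6) : IsMono (rf (ee i : V6 K)) 1 :=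
  ⟨fun k => if k = i then -1 else 1, fun k => by dsimp only; split_ifs <;> simp,
    by rw [rf_ee, mono_one_eq]⟩

theorem isMono_rf_add (h2 : (2 : K) ≠ 0) {i j : Fin 6} (h : i ≠ j) {c : K} (hc : c * c = 1) :
    IsMono (rf (ee i + c • ee j : V6 K)) (Equiv.swap i j) := by
  refine ⟨fun k => if k = i ∨ k = j then -c else 1, fun k => by dsimp only; split_ifs <;> simp [hc],
    ext_of_mulVec_single fun k => ?_⟩
  have d : (ee i + c • ee j : V6 K) ⬝ᵥ (ee i + c • ee j) = 2 := by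
    simp [h, h.symm, hc, one_add_one_eq_two]
  rw [rf_mulVec, d, mul_div_cancel_left₀ _ h2, mono_ee]
  by_cases a : k = i
  · subst a
    simp [h]
  by_cases b : k = j
  · subst b
    simp [a, smul_smul, hc]
  · simp [a, b, Equiv.swap_apply_of_ne_of_ne a b]

theorem WB.cw_pm (w : S6) (g : G) (N : M6 K) :
    cw σ (pm w) g = N ↔ σ g = mono w 1 * N * (mono w 1)ᵀ := by
  refine ⟨fun e => by rw [← e]; exact (uncw (pm w) _).symm, fun e => ?_⟩
  have b : (mono w (1 : V6 K))ᵀ * mono w 1 = 1 := (pm w).2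
  rw [cw_apply, e]
  simp only [pm, ← mul_assoc, b, one_mul]
  rw [mul_assoc, b, mul_one]

theorem cw_pm_aa (w : S6) (g : G) (i j : Fin 6) :
    cw σ (pm w) g = aa i j ↔ σ g = aa (w i) (w j) := by
  have b : (mono w (1 : V6 K))ᵀ * mono w 1 = 1 := (pm w).2
  rw [cw_pm, IsMono.conj_aa ⟨1, by simp, rfl⟩, mul_assoc, mul_eq_one_comm.1 b, mul_one]

theorem cw_pm_mono (w u : S6) (g : G) :
    IsMono (cw σ (pm w) g) u ↔ IsMono (σ g) (w * u * w⁻¹) := by
  have a : IsMono (mono w (1 : V6 K)) w := ⟨1, by simp, rfl⟩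
  have b : IsMono (mono w (1 : V6 K))ᵀ w⁻¹ := ⟨_, by simp, mono_transpose ..⟩
  refine ⟨fun m => ?_, fun m => ?_⟩
  · rw [(cw_pm w g _).1 rfl]
    exact (a.mul m).mul b
  · have := (b.mul m).mul a
    rwa [show w⁻¹ * (w * u * w⁻¹) * w = u by group] at this

theorem HW.exists_frame [IsAlgClosed K] (h : HW σ π) {a : G} (e : a * a = 1)
    (ha : (σ a).trace = 2) : ∃ B : O6 K, D4.cw σ B a = aa 4 5 := by
  obtain ⟨B, hB⟩ := h.exists_diag (fun _ : Unit => a) (fun _ => e) fun _ _ => rfl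
  obtain ⟨i, j, n, f⟩ := (h.cw B).aa_of_diag (hB ()) (by rwa [cw_trace])
  obtain ⟨w, rfl, rfl⟩ : ∃ w : S6, w 4 = i ∧ w 5 = j := by
    refine ⟨Equiv.swap (Equiv.swap 4 i 5) j * Equiv.swap 4 i, ?_, by simp⟩
    clear f
    revert i j
    decide
  obtain ⟨E, -, hE⟩ := cw_cw (σ := σ) B (pm w)
  exact ⟨E, by rw [← hE, cw_pm_aa, f]⟩

theorem Frm.pm (F : Frm σ) (w : S6) : Frm (cw σ (pm w)) := fun i j n =>
  (F (w i) (w j) (w.injective.ne n)).imp fun g e => (cw_pm_aa w g i j).2 e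

end Cfsg.Agent.D4
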