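import Cfsg.Agent.D4.Defs3

/-!
Orthonormal bases of common eigenvectors, signed permutation matrices and reflections.
-/

set_option autoImplicit false

open Matrix

namespace Cfsg.Agent.D4.WB

variable {K : Type*} [Field K]

theorem exists_nonsing (h2 : (2 : K) ≠ 0) {Q : M6 K} (s : Qᵀ = Q) (h : Q ≠ 0) :
    ∃ y : V6 K, y ⬝ᵥ Q *ᵥ y ≠ 0 := by
  by_contra! e
  refine h (Matrix.ext fun i j => mul_left_cancel₀ h2 ?_)
  have a := e (ee i + ee j)
  have b := e (ee i)
  have c := e (ee j)
  have d : Q j i = Q i j := congrFun (congrFun s i) j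
  simp only [mulVec_add, add_dotProduct, dotProduct_add, mulVec_single_one, single_one_dotProduct,
    col_apply] at a b c
  rw [Matrix.zero_apply]
  linear_combination a - b - c - d

variable {ι : Type*} (M : ι → M6 K)

theorem exists_eig (h2 : (2 : K) ≠ 0) (s : ∀ i, (M i)ᵀ = M i) (q : ∀ i, M i * M i = 1)
    (c : ∀ i j, M i * M j = M j * M i) (n : ℕ) : ∀ Q : M6 K, Q.rank ≤ n → Qᵀ = Q → Q * Q = Q →
    Q ≠ 0 → (∀ i, M i * Q = Q * M i) → ∃ x : V6 K, Q *ᵥ x = x ∧ x ⬝ᵥ x ≠ 0 ∧
      ∀ i, M i *ᵥ x = x ∨ M i *ᵥ x = -x := by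
  induction n using Nat.strong_induction_on with
  | _ n ih =>
  intro Q hn hs hq h0 hc
  by_cases e : ∀ i, M i * Q = Q ∨ M i * Q = -Q
  · obtain ⟨y, hy⟩ := exists_nonsing h2 hs h0
    refine ⟨Q *ᵥ y, by rw [mulVec_mulVec, hq], ?_, fun i => ?_⟩
    · rwa [dotProduct_mulVec, vecMul_mulVec, hs, hq, ← dotProduct_mulVec]
    · rcases e i with e | e <;> simp [mulVec_mulVec, e, neg_mulVec]
  push Not at e
  obtain ⟨i, e1, e2⟩ := e
  set R : M6 K := (2 : K)⁻¹ • (Q + M i * Q) with hR
  have k : (2 : K)⁻¹ * 2 = 1 := inv_mul_cancel₀ h2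
  have r1 : Q * R = R := by
    rw [hR, mul_smul_comm, mul_add, ← mul_assoc, ← hc, mul_assoc, hq]
  have r2 : M i * R = R := by rw [hR, mul_smul_comm, mul_add, ← mul_assoc, q, one_mul, add_comm]
  have lt : R.rank < Q.rank := by
    refine Submodule.finrank_lt_finrank_of_lt (lt_of_le_of_ne ?_ fun e => e1 ?_)
    · rintro _ ⟨y, rfl⟩
      exact ⟨R *ᵥ y, by simp [mulVec_mulVec, r1]⟩
    · refine ext_of_mulVec_single fun j => ?_
      obtain ⟨y, hy⟩ : Q *ᵥ ee j ∈ LinearMap.range R.mulVecLin := e ▸ ⟨_, rfl⟩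
      rw [← mulVec_mulVec, ← hy, mulVecLin_apply, mulVec_mulVec, r2]
  obtain ⟨x, h1, h3, h4⟩ := ih _ (lt.trans_le hn) R le_rfl
    (by rw [hR, transpose_smul, transpose_add, transpose_mul, hs, s, hc])
    (by
      nth_rewrite 1 [hR]
      rw [smul_mul_assoc, add_mul, mul_assoc, r1, r2, ← two_smul K R, smul_smul, k, one_smul])
    (fun e => e2 (by
      rw [hR, smul_eq_zero, add_eq_zero_iff_neg_eq] at e
      exact (e.resolve_left (inv_ne_zero h2)).symm))
    (fun j => by
      rw [hR, mul_smul_comm, smul_mul_assoc, mul_add, add_mul, ← mul_assoc, c, hc, mul_assoc, hc,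
        mul_assoc])
  exact ⟨x, by rw [← h1, mulVec_mulVec, r1], h3, h4⟩

theorem exists_on [IsAlgClosed K] (h2 : (2 : K) ≠ 0) (s : ∀ i, (M i)ᵀ = M i)
    (q : ∀ i, M i * M i = 1) (c : ∀ i j, M i * M j = M j * M i) (n : ℕ) :
    ∀ (t : Finset (Fin 6)) (v : Fin 6 → V6 K), tᶜ.card = n →
    (∀ i ∈ t, ∀ j ∈ t, v i ⬝ᵥ v j = if i = j then 1 else 0) →
    (∀ j ∈ t, ∀ i, M i *ᵥ v j = v j ∨ M i *ᵥ v j = -v j) →
    ∃ w : Fin 6 → V6 K, (∀ i j, w i ⬝ᵥ w j = if i = j then 1 else 0) ∧ (∀ i ∈ t, w i = v i) ∧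
      ∀ j i, M i *ᵥ w j = w j ∨ M i *ᵥ w j = -w j := by
  induction n with
  | zero =>
    intro t v ht h1 h3
    obtain rfl : t = Finset.univ := by simpa using ht
    exact ⟨v, fun i j => h1 i (by simp) j (by simp), fun _ _ => rfl, fun j => h3 j (by simp)⟩
  | succ n ih =>
    intro t v ht h1 h3
    obtain ⟨k, hk⟩ : tᶜ.Nonempty := Finset.card_pos.1 (by omega)
    have hk' := Finset.mem_compl.1 hk
    let P : M6 K := ∑ j ∈ t, vecMulVec (v j) (v j)
    have pv : ∀ x, P *ᵥ x = ∑ j ∈ t, (v j ⬝ᵥ x) • v j := fun x => by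
      simp only [P, sum_mulVec, vecMulVec_mulVec, op_smul_eq_smul]
    have pj : ∀ j ∈ t, P *ᵥ v j = v j := fun j hj => by
      rw [pv, Finset.sum_eq_single_of_mem j hj fun i hi e => by rw [h1 i hi j hj, if_neg e, zero_smul],
        h1 j hj j hj, if_pos rfl, one_smul]
    have ps : Pᵀ = P := by simp only [P, transpose_sum, transpose_vecMulVec]
    have pp : P * P = P := ext_of_mulVec_single fun i => by
      rw [← mulVec_mulVec, pv (Pi.single i 1), mulVec_sum]
      exact Finset.sum_congr rfl fun j hj => by rw [mulVec_smul, pj j hj]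
    have p1 : (1 : M6 K) - P ≠ 0 := fun e => by
      have r : P.rank ≤ t.card := by
        have e1 := finrank_range_le_card (R := K) fun j : t => v j
        rw [Fintype.card_coe] at e1
        refine le_trans (Submodule.finrank_mono ?_) e1
        rintro _ ⟨y, rfl⟩
        rw [mulVecLin_apply, pv]
        exact Submodule.sum_mem _ fun j hj => Submodule.smul_mem _ _
          (Submodule.subset_span ⟨⟨j, hj⟩, rfl⟩)
      rw [← sub_eq_zero.1 e, rank_one, Fintype.card_fin] at r
      have := Finset.card_add_card_compl t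
      rw [Fintype.card_fin] at this
      omega
    obtain ⟨x, a, b, d⟩ := exists_eig M h2 s q c _ (1 - P) le_rfl (by rw [transpose_sub, ps]; simp)
      (by rw [sub_mul, mul_sub, mul_sub, pp]; simp) p1 fun i => by
        rw [mul_sub, sub_mul, mul_one, one_mul, Finset.mul_sum, Finset.sum_mul]
        refine congrArg _ (Finset.sum_congr rfl fun j hj => ?_)
        rw [mul_vecMulVec, vecMulVec_mul, ← mulVec_transpose, s]
        rcases h3 j hj i with e | e <;> simp [e]
    obtain ⟨z, hz⟩ := IsAlgClosed.exists_eq_mul_self (x ⬝ᵥ x)⁻¹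
    have o : ∀ j ∈ t, v j ⬝ᵥ x = 0 := fun j hj => by
      rw [← a, dotProduct_mulVec, ← mulVec_transpose, transpose_sub, ps, transpose_one, sub_mulVec,
        pj j hj, one_mulVec, sub_self, zero_dotProduct]
    have u : ∀ j ∈ t, Function.update v k (z • x) j = v j := fun j hj =>
      Function.update_of_ne (by rintro rfl; exact hk' hj) ..
    obtain ⟨w, w1, w2, w3⟩ := ih (insert k t) (Function.update v k (z • x))
      (by rw [Finset.compl_insert, Finset.card_erase_of_mem hk]; omega)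
      (fun i hi j hj => by
        replace hi := Finset.mem_insert.1 hi
        replace hj := Finset.mem_insert.1 hj
        rcases hi with rfl | hi <;> rcases hj with rfl | hj
        · rw [Function.update_self, if_pos rfl, smul_dotProduct, dotProduct_smul, smul_smul, ← hz,
            smul_eq_mul, inv_mul_cancel₀ b]
        · rw [Function.update_self, u j hj, if_neg (by rintro rfl; exact hk' hj), smul_dotProduct,
            dotProduct_comm, o j hj, smul_zero]
        · rw [Function.update_self, u i hi, if_neg (by rintro rfl; exact hk' hi), dotProduct_smul,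
            o i hi, smul_zero]
        · rw [u i hi, u j hj, h1 i hi j hj])
      (fun j hj i => by
        rcases Finset.mem_insert.1 hj with rfl | hj
        · rw [Function.update_self, mulVec_smul]
          rcases d i with e | e <;> simp [e]
        · rw [u j hj]; exact h3 j hj i)
    exact ⟨w, w1, fun i hi => (w2 i (Finset.mem_insert_of_mem hi)).trans (u i hi), w3⟩

/-- The orthogonal matrix with given columns. -/
def ofCols (w : Fin 6 → V6 K) (h : ∀ i j, w i ⬝ᵥ w j = if i = j then 1 else 0) : O6 K :=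
  ⟨of fun r c => w c r, Matrix.ext fun i j => by rw [one_apply, ← h]; rfl⟩

theorem ofCols_ee (w : Fin 6 → V6 K) (h : ∀ i j, w i ⬝ᵥ w j = if i = j then 1 else 0) (i : Fin 6) :
    (ofCols w h).1 *ᵥ ee i = w i := by
  rw [mulVec_single_one]; rfl

theorem conj_apply (B : O6 K) (N : M6 K) (i j : Fin 6) :
    (B.1ᵀ * N * B.1) i j = (B.1 *ᵥ ee i) ⬝ᵥ N *ᵥ B.1 *ᵥ ee j := by
  rw [mul_assoc, mulVec_mulVec, mulVec_single_one, mulVec_single_one]; rfl

theorem mono_one_eq (ε : Fin 6 → K) : mono 1 ε = diagonal ε := by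
  ext i j
  by_cases e : i = j <;> simp [mono, e]

theorem mono_ee (w : S6) (ε : Fin 6 → K) (j : Fin 6) : mono w ε *ᵥ ee j = ε j • ee (w j) := by
  ext i
  simp [mono, Pi.single_apply]

theorem mono_transpose (w : S6) (ε : Fin 6 → K) : (mono w ε)ᵀ = mono w⁻¹ fun j => ε (w⁻¹ j) := by
  ext i j
  simp only [mono, transpose_apply, of_apply]
  by_cases e : j = w i
  · simp [e]
  · rw [if_neg e, if_neg fun e' => e (by simp [e'])]

theorem bool_cases : ∀ s : Fin 6 → Bool, Even (Finset.univ.filter fun k => s k = true).card →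
    (∀ k, s k = false) ∨ (∀ k, s k = true) ∨ ∃ i j, i ≠ j ∧
      ((∀ k, s k = true ↔ k = i ∨ k = j) ∨ ∀ k, s k = false ↔ k = i ∨ k = j) := by
  decide +kernel

theorem diag_cases (h2 : (2 : K) ≠ 0) {N : M6 K} (m : IsMono N 1) (d : N.det = 1) :
    N = 1 ∨ N = -1 ∨ ∃ i j, i ≠ j ∧ (N = aa i j ∨ N = -aa i j) := by
  classical
  obtain ⟨ε, h, rfl⟩ := m
  have n1 : (-1 : K) ≠ 1 := fun e => h2 (by linear_combination -e)
  obtain ⟨s, rfl⟩ : ∃ s : Fin 6 → Bool, ε = fun k => if s k = true then -1 else 1 :=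
    ⟨fun k => decide (ε k ≠ 1), funext fun k => by
      rcases mul_self_eq_one_iff.1 (h k) with e | e <;> simp [e, n1]⟩
  rw [mono_one_eq] at d ⊢
  rw [det_diagonal, Finset.prod_ite, Finset.prod_const, Finset.prod_const_one, mul_one,
    neg_one_pow_eq_one_iff_even n1] at d
  rcases bool_cases s d with e | e | ⟨i, j, e, f | f⟩
  · exact Or.inl (by simp [e])
  · exact Or.inr (Or.inl (by simp [e, ← diagonal_one, diagonal_neg]))
  · exact Or.inr (Or.inr ⟨i, j, e, Or.inl (by simp only [aa, f])⟩)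
  · refine Or.inr (Or.inr ⟨i, j, e, Or.inr ?_⟩)
    rw [aa, diagonal_neg]
    refine congrArg _ (funext fun k => ?_)
    have := f k
    cases hk : s k <;> simp_all

end Cfsg.Agent.D4.WB
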