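import Cfsg.Agent.D4.WFrm0
import Cfsg.Agent.NG.Defs

/-!
The orthogonal model: elementary abelian `2`-subgroups and monomial groups.
-/

set_option autoImplicit false

open Matrix
open scoped MatrixGroups

namespace Cfsg.Agent.D4

open WF WB

variable {K : Type*} [Field K] {G X : Type*} [Group G] [Group X] {σ : G →* M6 K} {π : G →* X}
variable [IsAlgClosed K] [Finite G]

theorem WF.diag_mem (h : HW σ π) (F : Frm σ) {N : M6 K} (m : IsMono N 1) (d : N.det = 1) :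
    ∃ g, σ g = N := by
  rcases diag_cases h.two m d with rfl | rfl | ⟨i, j, e, rfl | rfl⟩
  · exact ⟨1, map_one _⟩
  · exact h.neg
  · exact F i j e
  · obtain ⟨g, hg⟩ := F i j e
    obtain ⟨k, -, b⟩ := exists_neg h g
    exact ⟨k, by rw [b, hg]⟩

theorem HW.mono_mem (h : HW σ π) (F : Frm σ) {w : S6} (hw : w ∈ Yg σ) {M : M6 K}
    (m : IsMono M w) (d : M.det = 1) : ∃ g, σ g = M := by
  obtain ⟨g, hg⟩ := hw
  have := m.mul hg.inv
  rw [mul_inv_cancel] at this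
  obtain ⟨k, hk⟩ := diag_mem h F this (by rw [det_mul, d, h.det, one_mul])
  exact ⟨k * g, by rw [map_mul, hk, mul_assoc, ← map_mul, inv_mul_cancel, map_one, mul_one]⟩

theorem WF.trip : ∀ w : S6, w * w = 1 → (∀ i, w i ≠ i) →
    (Equiv.Perm.sign w : ℤ) * ∏ j, (if j < w j then 1 else -1 : ℤ) = 1 ∧
      ∀ j, (if w j < w (w j) then 1 else -1 : ℤ) * (if j < w j then 1 else -1) = -1 := by decide +kernel

theorem HW.not_trip (h : HW σ π) (F : Frm σ) {w : S6} (hw : w ∈ Yg σ) : ¬ Trip w := by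
  rintro ⟨a, b⟩
  obtain ⟨c, d⟩ := trip w a b
  obtain ⟨g, hg⟩ := h.mono_mem F hw (M := mono w fun j => ((if j < w j then 1 else -1 : ℤ) : K))
    ⟨_, fun j => by split_ifs <;> simp, rfl⟩ (by rw [det_mono, ← Int.cast_prod, ← Int.cast_mul, c, Int.cast_one])
  refine h.nsq g ?_
  rw [hg, mono_mul, a, mono_one_eq, ← diagonal_one, diagonal_neg]
  refine congrArg diagonal (funext fun j => ?_)
  rw [← Int.cast_mul, d j]
  simp

theorem WF.third : ∀ i j : Fin 6, ∃ k, k ≠ i ∧ k ≠ j := by decide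

theorem HW.diag_of_comm (h : HW σ π) {g : G}
    (e : ∀ i j, i ≠ j → σ g * aa i j = aa i j * σ g) : IsMono (σ g) 1 := by
  have z : ∀ i j, i ≠ j → σ g i j = 0 := fun i j n => by
    obtain ⟨k, k1, k2⟩ := third i j
    have := congrFun (congrFun (e i k k1.symm) i) j
    simp only [aa, mul_diagonal, diagonal_mul, n.symm, k2.symm, or_self, if_false, true_or, if_true] at this
    exact (mul_eq_zero.1 (by linear_combination this : 2 * σ g i j = 0)).resolve_left h.two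
  have d : σ g = diagonal fun i => σ g i i := by
    ext i j
    by_cases n : i = j
    · subst n; simp
    · rw [diagonal_apply_ne _ n, z i j n]
  refine ⟨fun i => σ g i i, fun j => ?_, by rw [mono_one_eq]; exact d⟩
  have := h.orth g
  rw [d, diagonal_transpose, diagonal_mul_diagonal] at this
  simpa using congrFun (congrFun this j) j

theorem HW.mem_A (h : HW σ π) (F : Frm σ) {x : X} : x ∈ (MG σ ⊥).map π ↔
    x = 1 ∨ ∃ i j g, i ≠ j ∧ σ g = aa i j ∧ π g = x := by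
  have _ := F
  constructor
  · rintro ⟨g, ⟨w, hw, m⟩, rfl⟩
    rw [Subgroup.mem_bot] at hw
    subst hw
    rcases diag_cases h.two m (h.det g) with e | e | ⟨i, j, n, e | e⟩
    · exact Or.inl ((h.ker g).2 (Or.inl e))
    · exact Or.inl ((h.ker g).2 (Or.inr e))
    · exact Or.inr ⟨i, j, g, n, e, rfl⟩
    · obtain ⟨k, a, b⟩ := exists_neg h g
      exact Or.inr ⟨i, j, k, n, by rw [b, e, neg_neg], a⟩
  · rintro (rfl | ⟨i, j, g, -, e, rfl⟩)
    · exact Subgroup.one_mem _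
    · exact ⟨g, ⟨1, Subgroup.one_mem _, e ▸ isMono_aa i j⟩, rfl⟩

theorem WF.comm_A (h : HW σ π) {x y : X} (hx : x ∈ (MG σ ⊥).map π) (hy : y ∈ (MG σ ⊥).map π) :
    x * y = y * x := by
  obtain ⟨u, a⟩ := exists_Lf h hx
  obtain ⟨v, b⟩ := exists_Lf h hy
  exact Lf.inj h (a.mul b) (add_comm v u ▸ b.mul a)

theorem HW.cent_A (h : HW σ π) (F : Frm σ) :
    Subgroup.centralizer ((MG σ ⊥).map π : Set X) = (MG σ ⊥).map π := by
  refine le_antisymm (fun x hx => ?_) fun x hx y hy => comm_A h hy hx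
  obtain ⟨g, rfl⟩ := h.surj x
  refine ⟨g, ⟨1, Subgroup.one_mem _, h.diag_of_comm fun i j n => ?_⟩, rfl⟩
  obtain ⟨a, ha⟩ := F i j n
  have t : (σ a).trace = 2 := by rw [ha, trace_aa n]
  have := h.conj_lift t t (k := g) (by
    rw [← hx (π a) ((h.mem_A F).2 (Or.inr ⟨i, j, a, n, ha, rfl⟩)), mul_inv_cancel_right])
  rw [← ha, ← map_mul, ← map_mul, mul_inv_eq_iff_eq_mul.1 this]

theorem HW.mem_MG (h : HW σ π) (Y : Subgroup S6) (g : G) :
    π g ∈ (MG σ Y).map π ↔ g ∈ MG σ Y := by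
  refine ⟨?_, fun hg => ⟨g, hg, rfl⟩⟩
  rintro ⟨k, ⟨w, hw, m⟩, e⟩
  rcases h.eq_of e.symm with f | f
  · exact ⟨w, hw, f ▸ m⟩
  · exact ⟨w, hw, f ▸ m.neg⟩

theorem HW.norm_A (h : HW σ π) (F : Frm σ) :
    Subgroup.normalizer ((MG σ ⊥).map π : Set X) = (MG σ ⊤).map π := by
  refine le_antisymm (fun x hx => ?_) (Subgroup.le_normalizer_iff.2 ?_)
  · obtain ⟨g, rfl⟩ := h.surj x
    refine ⟨g, (isMono_of_col (h.orth g) fun j => ?_).imp fun w m => ⟨trivial, m⟩, rfl⟩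
    have eig : ∀ k l, k ≠ l → ∃ c : K, c * c = 1 ∧ aa k l *ᵥ σ g *ᵥ ee j = c • σ g *ᵥ ee j := fun k l n => by
      obtain ⟨a, ha⟩ := F k l n
      have : π (g⁻¹ * a * g) ∈ (MG σ ⊥).map π := by
        have := (Subgroup.mem_normalizer_iff''.1 hx (π a)).1 ((h.mem_A F).2 (Or.inr ⟨k, l, a, n, ha, rfl⟩))
        simpa using this
      obtain ⟨w, hw, ε, e1, e2⟩ := (h.mem_MG _ _).1 this
      rw [Subgroup.mem_bot] at hw
      subst hw
      refine ⟨ε j, e1 j, ?_⟩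
      rw [mulVec_mulVec, ← ha, ← map_mul, show a * g = g * (g⁻¹ * a * g) by group, map_mul,
        ← mulVec_mulVec, e2, mono_ee, mulVec_smul]
      rfl
    generalize σ g *ᵥ ee j = v at eig
    by_cases z : v = 0
    · exact ⟨0, 0, by simp [z]⟩
    obtain ⟨i, hi⟩ := Function.ne_iff.1 z
    refine ⟨i, v i, funext fun k => ?_⟩
    by_cases n : k = i
    · simp [n]
    obtain ⟨l, l1, l2⟩ := third i k
    obtain ⟨c, -, e⟩ := eig i l l1.symm
    have e1 := congrFun e i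
    have e2 := congrFun e k
    simp only [aa, mulVec_diagonal, n, l2.symm, or_self, if_false, true_or, if_true, Pi.smul_apply,
      smul_eq_mul] at e1 e2
    have : c = -1 := (mul_right_cancel₀ hi e1).symm
    rw [this] at e2
    have : v k = 0 := (mul_eq_zero.1 (by linear_combination e2 : 2 * v k = 0)).resolve_left h.two
    simp [n, this]
  · rintro _ ⟨g, ⟨w, -, m⟩, rfl⟩ _ ⟨a, ⟨u, hu, m'⟩, rfl⟩
    rw [Subgroup.mem_bot] at hu
    subst hu
    refine ⟨g * a * g⁻¹, ⟨1, Subgroup.one_mem _, ?_⟩, by simp⟩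
    have := (m.mul m').mul m.inv
    rwa [mul_one, mul_inv_cancel, ← map_mul, ← map_mul] at this

theorem HW.exists_perm (h : HW σ π) : ∃ φ : (MG σ ⊤).map π →* S6,
    (∀ (g : G) (w : S6) (hg : π g ∈ (MG σ ⊤).map π), IsMono (σ g) w → φ ⟨π g, hg⟩ = w) ∧
      φ.range = Yg σ ∧ ∀ x, φ x = 1 ↔ x.1 ∈ (MG σ ⊥).map π := by
  have ex : ∀ x : (MG σ ⊤).map π, ∃ w, ∀ g, π g = x → IsMono (σ g) w := by
    rintro ⟨_, g, ⟨w, -, m⟩, rfl⟩
    refine ⟨w, fun k e => ?_⟩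
    rcases h.eq_of e with f | f
    · exact f ▸ m
    · exact f ▸ m.neg
  choose f hf using ex
  let φ : (MG σ ⊤).map π →* S6 := MonoidHom.mk' f fun x y => by
    obtain ⟨g, hg⟩ := h.surj x
    obtain ⟨k, hk⟩ := h.surj y
    refine (hf _ (g * k) (by rw [map_mul, hg, hk]; rfl)).unique h.two ?_
    rw [map_mul]
    exact (hf x g hg).mul (hf y k hk)
  have p : ∀ (g : G) (w : S6) (hg : π g ∈ (MG σ ⊤).map π), IsMono (σ g) w → φ ⟨π g, hg⟩ = w :=
    fun g w hg m => (hf _ g rfl).unique h.two m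
  refine ⟨φ, p, le_antisymm ?_ ?_, fun x => ?_⟩
  · rintro _ ⟨x, rfl⟩
    obtain ⟨g, hg⟩ := h.surj x
    exact ⟨g, hf x g hg⟩
  · rintro w ⟨g, m⟩
    exact ⟨⟨π g, g, ⟨w, trivial, m⟩, rfl⟩, p g w _ m⟩
  · obtain ⟨x, hx⟩ := x
    obtain ⟨g, rfl⟩ := h.surj x
    refine ⟨fun e => ⟨g, ⟨1, Subgroup.one_mem _, e ▸ hf ⟨_, hx⟩ g rfl⟩, rfl⟩, fun e => ?_⟩
    obtain ⟨w, hw, m⟩ := (h.mem_MG _ _).1 e
    rw [p g w hx m]
    exact hw

theorem WF.card_A (h : HW σ π) (F : Frm σ) : Nat.card ((MG σ ⊥).map π) = 16 := by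
  obtain ⟨T, a, b⟩ := exists_T h (le_refl ((MG σ ⊥).map π))
  have : T = ⊤ := eq_top_iff.2 fun v _ => by
    obtain ⟨g, hg⟩ := diag_mem h F (isMono_dl v) (det_dl v)
    exact (b v).2 ⟨π g, Lf.mem ⟨g, rfl, hg⟩, g, rfl, hg⟩
  rw [← a, this, AddSubgroup.card_top, card_W4]

theorem WF.MG_mono {Y Z : Subgroup S6} (e : Y ≤ Z) : MG σ Y ≤ MG σ Z := fun _ ⟨w, hw, m⟩ => ⟨w, e hw, m⟩

theorem HW.card_MG (h : HW σ π) (F : Frm σ) {Y : Subgroup S6} (hY : Y ≤ Yg σ) :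
    Nat.card ((MG σ Y).map π) = 16 * Nat.card Y := by
  obtain ⟨φ, p, -, k⟩ := h.exists_perm
  have le : (MG σ Y).map π ≤ (MG σ ⊤).map π := Subgroup.map_mono (MG_mono le_top)
  have le' : (MG σ ⊥).map π ≤ (MG σ Y).map π := Subgroup.map_mono (MG_mono bot_le)
  let ψ := φ.comp (Subgroup.inclusion le)
  have e1 : ψ.ker = ((MG σ ⊥).map π).subgroupOf _ := Subgroup.ext fun x => k _
  have e2 : ψ.range = Y := le_antisymm (by
    rintro _ ⟨⟨_, g, ⟨w, hw, m⟩, rfl⟩, rfl⟩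
    exact (p g w _ m).symm ▸ hw) fun w hw => by
    obtain ⟨g, m⟩ := hY hw
    exact ⟨⟨π g, g, ⟨w, hw, m⟩, rfl⟩, p g w _ m⟩
  rw [← ψ.ker.card_mul_index, Subgroup.index_ker, e2, e1,
    Nat.card_congr (Subgroup.subgroupOfEquivOfLe le').toEquiv, card_A h F]

theorem WF.card_le (h : HW σ π) {E : Subgroup X} (hE : E ≤ (MG σ ⊥).map π) : Nat.card E ≤ 16 := by
  obtain ⟨T, a, -⟩ := exists_T h hE
  rw [← a, ← card_W4]
  exact T.card_le_card_addGroup

theorem HW.rank (h : HW σ π) : PRankLE 2 4 X := fun E _ h2 => by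
  obtain ⟨B, hB⟩ := exists_B h E fun x hx => by rw [← pow_two, h2 x hx]
  exact card_le (h.cw B) hB

theorem HW.e16 (h : HW σ π) (E : Subgroup X) (h2 : ∀ x ∈ E, x * x = 1) (hE : Nat.card E = 16) :
    ∃ B : O6 K, Frm (D4.cw σ B) ∧ E = (MG (D4.cw σ B) ⊥).map π := by
  obtain ⟨B, hB⟩ := exists_B h E h2
  have := h.finiteX
  refine ⟨B, fun i j n => ?_, Subgroup.eq_of_le_of_card_ge hB (hE ▸ card_le (h.cw B) le_rfl)⟩
  obtain ⟨T, a, b⟩ := exists_T (h.cw B) hB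
  have : T = ⊤ := AddSubgroup.eq_top_of_card_eq _ (by rw [a, hE, card_W4])
  obtain ⟨v, -, hv⟩ := aa_dl (K := K) n
  obtain ⟨x, -, g, -, e⟩ := (b v).1 (this ▸ trivial)
  rcases hv with hv | hv
  · exact ⟨g, e.trans hv.symm⟩
  · obtain ⟨k, -, f⟩ := exists_neg (h.cw B) g
    exact ⟨k, by rw [f, e, hv]⟩

theorem HW.e8 (h : HW σ π) (E : Subgroup X) (h2 : ∀ x ∈ E, x * x = 1) (hE : Nat.card E = 8) :
    ∃ s ∈ E, s ≠ 1 ∧ ∀ n ∈ Subgroup.normalizer (E : Set X), n * s * n⁻¹ = s := by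
  obtain ⟨B, hB⟩ := exists_B h E h2
  have h' := h.cw B
  obtain ⟨T, a, b⟩ := exists_T h' hB
  obtain ⟨r, r0, hr⟩ := hyper T (a.trans hE)
  obtain ⟨s, hs, l⟩ := (b r).1 ((hr r).2 (bf_self r).1)
  have s1 : s ≠ 1 := fun e => r0 (Lf.unique h' (e ▸ l) Lf.one)
  refine ⟨s, hs, s1, fun n hn => ?_⟩
  obtain ⟨u, l'⟩ := exists_Lf h' (hB ((Subgroup.mem_normalizer_iff.1 hn s).1 hs))
  have u0 : u ≠ 0 := fun e => s1 (conj_eq_one_iff.1 (Lf.inj h' (e ▸ l') Lf.one))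
  refine Lf.inj h' (bf_rad r u u0 r0 (fun v hv => ?_) ▸ l') l
  obtain ⟨y, hy, m⟩ := (b v).1 ((hr v).2 hv)
  have hy' := (Subgroup.mem_normalizer_iff''.1 hn y).1 hy
  obtain ⟨v', m'⟩ := exists_Lf h' (hB hy')
  exact bf_conj h' l m' l' (by rwa [show n * (n⁻¹ * y * n) * n⁻¹ = y by group]) r0 u0
    ((hr v').1 ((b v').2 ⟨_, hy', m'⟩))

theorem WF.exists_sq {T S : Subgroup X} [Finite X] (hS : IsPGroup 2 S) (le : T ≤ S) (ne : T ≠ S) :
    ∃ x ∈ S, x ∈ Subgroup.normalizer (T : Set X) ∧ x ∉ T ∧ x * x ∈ T := by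
  have := hS.isNilpotent
  have lt : T.subgroupOf S < ⊤ := lt_top_iff_ne_top.2 fun e => ne (le_antisymm le (Subgroup.subgroupOf_eq_top.1 e))
  obtain ⟨x, hx, nx⟩ := SetLike.exists_of_lt (Group.normalizerCondition_of_isNilpotent _ lt)
  rw [← Subgroup.subgroupOf_normalizer_eq le] at hx
  obtain ⟨n, h1⟩ := hS x
  replace hx : (x : X) ∈ Subgroup.normalizer (T : Set X) := hx
  replace nx : (x : X) ∉ T := nx
  induction n generalizing x with
  | zero => exact absurd ((by simpa using h1 : x = 1) ▸ T.one_mem) nx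
  | succ n ih =>
    by_cases h2 : (x : X) * x ∈ T
    · exact ⟨x, x.2, hx, nx, h2⟩
    · exact ih (x * x) (by rwa [← pow_two, ← pow_mul, ← pow_succ']) (mul_mem hx hx) h2

theorem HW.sylow_of (h : HW σ π) (F : Frm σ) {T : Subgroup X} (hT : IsPGroup 2 T)
    (hA : (MG σ ⊥).map π ≤ T) (le : T ≤ (MG σ ⊤).map π)
    (odd : Odd (T.relIndex ((MG σ ⊤).map π)))
    (ch : ∀ x ∈ Subgroup.normalizer (T : Set X), x * x ∈ T → x ∈ (MG σ ⊤).map π) :
    ∃ S : Sylow 2 X, (S : Subgroup X) = T := by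
  have _ := F
  have _ := hA
  have := h.finiteX
  obtain ⟨S, hS⟩ := hT.exists_le_sylow
  refine ⟨S, by_contra fun ne => ?_⟩
  obtain ⟨x, xS, xN, nx, xx⟩ := exists_sq S.isPGroup' hS (Ne.symm ne)
  have a : T ≤ (S : Subgroup X) ⊓ (MG σ ⊤).map π := le_inf hS le
  rw [← Subgroup.relIndex_mul_relIndex T _ _ a inf_le_right, Nat.odd_mul] at odd
  obtain ⟨n, hn⟩ := (S.isPGroup'.to_inf_left (K := (MG σ ⊤).map π)).index (T.subgroupOf _)
  have o := odd.1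
  rw [Subgroup.relIndex, hn] at o
  cases n with
  | zero => exact nx (Subgroup.relIndex_eq_one.1 hn ⟨xS, ch x xN xx⟩)
  | succ n => exact (Nat.not_even_iff_odd.2 o) (Nat.even_pow.2 ⟨even_two, n.succ_ne_zero⟩)

end Cfsg.Agent.D4
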