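import Cfsg.Agent.D4.WBas

/-!
The orthogonal model: sign vectors.
-/

set_option autoImplicit false

open Matrix
open scoped MatrixGroups

namespace Cfsg.Agent.D4.WF

open WB

variable {K : Type*} [Field K] {G X : Type*} [Group G] [Group X] {σ : G →* M6 K} {π : G →* X}

/-- Even sign vectors modulo `-1`. -/
abbrev W4 := Fin 4 → ZMod 2

/-- The normalised even vector of length six. -/
def ex (v : W4) : Fin 6 → ZMod 2 := ![v 0, v 1, v 2, v 3, v 0 + v 1 + v 2 + v 3, 0]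

/-- The signs. -/
def sgi (v : W4) (k : Fin 6) : ℤ := if ex v k = 0 then 1 else -1

/-- The sign matrix. -/
def dl (v : W4) : M6 K := diagonal fun k => (sgi v k : K)

/-- The symplectic form. -/
def bf (u v : W4) : ZMod 2 := ∑ k, ex u k * ex v k

/-- The invariant of two sign matrices. -/
def thz (u v : W4) : ℤ := (∑ k, sgi u k) * (∑ k, sgi v k) * ∑ k, sgi (u + v) k

theorem sgi_add : ∀ u v k, sgi (u + v) k = sgi u k * sgi v k := by decide +kernel

theorem sgi_sq : ∀ u k, sgi u k * sgi u k = 1 := by decide +kernel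

theorem sgi_prod : ∀ u, ∏ k, sgi u k = 1 := by decide +kernel

theorem sgi_aa : ∀ i j : Fin 6, i ≠ j → ∃ v, v ≠ 0 ∧ ((∀ k, (if k = i ∨ k = j then -1 else 1 : ℤ) = sgi v k) ∨
    ∀ k, (if k = i ∨ k = j then -1 else 1 : ℤ) = -sgi v k) := by decide +kernel

theorem sgi_inj : ∀ u v, (∀ k, sgi u k = sgi v k) → u = v := by decide +kernel

theorem bf_add : ∀ r u v, bf r (u + v) = 0 ↔ (bf r u = 0 ↔ bf r v = 0) := by decide +kernel

theorem bf_ex : ∀ c : Fin 4 → Bool, ∃ r, ∀ i, c i = true ↔ bf r (Pi.single i 1) = 0 := by decide +kernel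

theorem bf_self : ∀ r, bf r r = 0 ∧ bf r 0 = 0 ∧ bf 0 r = 0 := by decide +kernel

theorem bf_rad : ∀ r u, u ≠ 0 → r ≠ 0 → (∀ v, bf r v = 0 → bf u v = 0) → u = r := by decide +kernel

theorem thz_bf : ∀ u v, u ≠ 0 → (bf u v = 0 → thz u v = -8 ∨ thz u v = 24) ∧ (bf u v ≠ 0 → thz u v = 8) := by
  decide +kernel

theorem w4_gen : ∀ v : W4, ∃ a ∈ [(0 : W4), Pi.single 0 1], ∃ b ∈ [(0 : W4), Pi.single 1 1],
    ∃ c ∈ [(0 : W4), Pi.single 2 1], ∃ d ∈ [(0 : W4), Pi.single 3 1], v = a + b + c + d := by decide +kernel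

theorem card_W4 : Nat.card W4 = 16 := by simp

theorem hyper (T : AddSubgroup W4) (hT : Nat.card T = 8) : ∃ r, r ≠ 0 ∧ ∀ v, v ∈ T ↔ bf r v = 0 := by
  classical
  have hi : T.index = 2 := by
    have := T.card_mul_index
    rw [hT, card_W4] at this; omega
  obtain ⟨r, hr⟩ := bf_ex fun i => decide (Pi.single i 1 ∈ T)
  have ad : ∀ u v, (u ∈ T ↔ bf r u = 0) → (v ∈ T ↔ bf r v = 0) → (u + v ∈ T ↔ bf r (u + v) = 0) :=
    fun u v a b => by rw [AddSubgroup.add_mem_iff_of_index_two hi, bf_add, a, b]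
  have bs : ∀ i, ∀ a ∈ [(0 : W4), Pi.single i 1], a ∈ T ↔ bf r a = 0 := fun i a ha => by
    simp only [List.mem_cons, List.not_mem_nil, or_false] at ha
    rcases ha with rfl | rfl
    · exact ⟨fun _ => (bf_self r).2.1, fun _ => T.zero_mem⟩
    · rw [← hr i, decide_eq_true_iff]
  have key : ∀ v, v ∈ T ↔ bf r v = 0 := fun v => by
    obtain ⟨a, ha, b, hb, c, hc, d, hd, rfl⟩ := w4_gen v
    exact ad _ _ (ad _ _ (ad _ _ (bs 0 a ha) (bs 1 b hb)) (bs 2 c hc)) (bs 3 d hd)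
  refine ⟨r, ?_, key⟩
  rintro rfl
  have : T = ⊤ := eq_top_iff.2 fun v _ => (key v).2 (bf_self v).2.2
  rw [this, AddSubgroup.index_top] at hi
  omega

theorem dl_add (u v : W4) : (dl (u + v) : M6 K) = dl u * dl v := by
  simp only [dl, diagonal_mul_diagonal, sgi_add, Int.cast_mul]

theorem dl_zero : (dl 0 : M6 K) = 1 := by
  have : ∀ k, sgi 0 k = 1 := by decide
  simp [dl, this]

theorem isMono_dl (v : W4) : IsMono (dl v : M6 K) 1 :=
  ⟨_, fun k => by rw [← Int.cast_mul, sgi_sq, Int.cast_one], (mono_one_eq _).symm⟩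

theorem det_dl (v : W4) : (dl v : M6 K).det = 1 := by
  rw [dl, det_diagonal, ← Int.cast_prod, sgi_prod, Int.cast_one]

theorem trace_dl (v : W4) : (dl v : M6 K).trace = ((∑ k, sgi v k : ℤ) : K) := by
  rw [dl, trace_diagonal, Int.cast_sum]

theorem aa_dl {i j : Fin 6} (e : i ≠ j) : ∃ v, v ≠ 0 ∧ ((aa i j : M6 K) = dl v ∨ (aa i j : M6 K) = -dl v) := by
  obtain ⟨v, v0, hv⟩ := sgi_aa i j e
  refine ⟨v, v0, hv.imp (fun hv => ?_) fun hv => ?_⟩
  · refine congrArg diagonal (funext fun k => ?_)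
    rw [← hv k]; split_ifs <;> simp
  · rw [dl, diagonal_neg]
    refine congrArg diagonal (funext fun k => ?_)
    rw [← Int.cast_neg, ← hv k]; split_ifs <;> simp

theorem dl_cases (h2 : (2 : K) ≠ 0) {N : M6 K} (m : IsMono N 1) (d : N.det = 1) :
    ∃ v, N = dl v ∨ N = -dl v := by
  rcases diag_cases h2 m d with rfl | rfl | ⟨i, j, e, rfl | rfl⟩
  · exact ⟨0, Or.inl dl_zero.symm⟩
  · exact ⟨0, Or.inr (by rw [dl_zero])⟩
  · obtain ⟨v, -, hv⟩ := aa_dl (K := K) e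
    exact ⟨v, hv⟩
  · obtain ⟨v, -, hv | hv⟩ := aa_dl (K := K) e
    · exact ⟨v, Or.inr (by rw [hv])⟩
    · exact ⟨v, Or.inl (by rw [hv, neg_neg])⟩

theorem dl_inj (h2 : (2 : K) ≠ 0) {u v : W4} (e : (dl u : M6 K) = dl v ∨ (dl u : M6 K) = -dl v) : u = v := by
  have n1 : (1 : K) ≠ -1 := fun e => h2 (by linear_combination e)
  rcases e with e | e
  · refine sgi_inj u v fun k => ?_
    have := congrFun (congrFun e k) k
    simp only [dl, diagonal_apply_eq, sgi] at this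
    simp only [sgi]
    split_ifs at this ⊢ <;> simp_all [n1.symm]
  · have := congrFun (congrFun e 5) 5
    have a : ∀ u, sgi u 5 = 1 := by decide
    simp only [dl, Matrix.neg_apply, diagonal_apply_eq, a, Int.cast_one] at this
    exact absurd this n1

/-- `x` is the image of the sign matrix `dl v`. -/
def Lf (σ : G →* M6 K) (π : G →* X) (x : X) (v : W4) : Prop := ∃ g, π g = x ∧ σ g = dl v

theorem Lf.unique (h : HW σ π) {x : X} {u v : W4} (a : Lf σ π x u) (b : Lf σ π x v) : u = v := by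
  obtain ⟨g, e, a⟩ := a
  obtain ⟨k, f, b⟩ := b
  exact dl_inj h.two (by rw [← a, ← b]; exact h.eq_of (e.trans f.symm))

theorem Lf.inj (h : HW σ π) {x y : X} {u : W4} (a : Lf σ π x u) (b : Lf σ π y u) : x = y := by
  obtain ⟨g, rfl, a⟩ := a
  obtain ⟨k, rfl, b⟩ := b
  rw [h.inj (a.trans b.symm)]

theorem Lf.mul {x y : X} {u v : W4} (a : Lf σ π x u) (b : Lf σ π y v) : Lf σ π (x * y) (u + v) := by
  obtain ⟨g, rfl, a⟩ := a
  obtain ⟨k, rfl, b⟩ := b
  exact ⟨g * k, map_mul .., by rw [map_mul, a, b, dl_add]⟩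

theorem Lf.one : Lf σ π 1 0 := ⟨1, map_one _, by rw [map_one, dl_zero]⟩

theorem Lf.mem {x : X} {v : W4} (a : Lf σ π x v) : x ∈ (MG σ ⊥).map π := by
  obtain ⟨g, rfl, a⟩ := a
  exact ⟨g, ⟨1, Subgroup.one_mem _, a ▸ isMono_dl v⟩, rfl⟩

theorem exists_neg (h : HW σ π) (g : G) : ∃ k, π k = π g ∧ σ k = -σ g := by
  obtain ⟨n, hn⟩ := h.neg
  exact ⟨n * g, by rw [map_mul, (h.ker n).2 (Or.inr hn), one_mul], by rw [map_mul, hn, neg_mul, one_mul]⟩

theorem exists_Lf (h : HW σ π) {x : X} (hx : x ∈ (MG σ ⊥).map π) : ∃ v, Lf σ π x v := by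
  obtain ⟨g, ⟨w, hw, m⟩, rfl⟩ := hx
  rw [Subgroup.mem_bot] at hw
  subst hw
  obtain ⟨v, e | e⟩ := dl_cases h.two m (h.det g)
  · exact ⟨v, g, rfl, e⟩
  · obtain ⟨k, a, b⟩ := exists_neg h g
    exact ⟨v, k, a, by rw [b, e, neg_neg]⟩

/-- The sign vectors of a subgroup of the diagonal group. -/
theorem exists_T (h : HW σ π) {E : Subgroup X} (hE : E ≤ (MG σ ⊥).map π) :
    ∃ T : AddSubgroup W4, Nat.card T = Nat.card E ∧ ∀ v, v ∈ T ↔ ∃ x ∈ E, Lf σ π x v := by
  have ng : ∀ v : W4, -v = v := by decide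
  let T : AddSubgroup W4 :=
    { carrier := {v | ∃ x ∈ E, Lf σ π x v}
      zero_mem' := ⟨1, E.one_mem, Lf.one⟩
      add_mem' := fun ⟨x, hx, a⟩ ⟨y, hy, b⟩ => ⟨_, E.mul_mem hx hy, a.mul b⟩
      neg_mem' := fun {v} hv => by rw [ng]; exact hv }
  choose f hf using fun x : E => exists_Lf h (hE x.2)
  refine ⟨T, (Nat.card_congr (Equiv.ofBijective (fun x : E => (⟨f x, x, x.2, hf x⟩ : T)) ⟨?_, ?_⟩)).symm,
    fun _ => Iff.rfl⟩
  · intro x y e
    have e' : f x = f y := congrArg Subtype.val e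
    exact Subtype.ext (Lf.inj h (hf x) (e' ▸ hf y))
  · rintro ⟨v, x, hx, a⟩
    exact ⟨⟨x, hx⟩, Subtype.ext (Lf.unique h (hf _) a)⟩

/-- The invariant of two elements. -/
def th (σ : G →* M6 K) (g k : G) : K := (σ g).trace * (σ k).trace * (σ (g * k)).trace

theorem th_congr (h : HW σ π) {g g' k k' : G} (a : π g = π g') (b : π k = π k') : th σ g k = th σ g' k' := by
  rcases h.eq_of a with a | a <;> rcases h.eq_of b with b | b <;> simp [th, a, b]

theorem th_conj (n g k : G) : th σ (n * g * n⁻¹) (n * k * n⁻¹) = th σ g k := by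
  have t : ∀ g, (σ (n * g * n⁻¹)).trace = (σ g).trace := fun g => by
    rw [map_mul, trace_mul_comm, ← map_mul, ← mul_assoc, inv_mul_cancel, one_mul]
  rw [th, th, t, t, conj_mul, t]

theorem th_dl {g k : G} {u v : W4} (a : σ g = dl u) (b : σ k = dl v) : th σ g k = (thz u v : K) := by
  rw [th, map_mul, a, b, ← dl_add, trace_dl, trace_dl, trace_dl, thz, Int.cast_mul, Int.cast_mul]

theorem bf_conj (h : HW σ π) {n x y : X} {u v u' v' : W4} (a : Lf σ π x u) (b : Lf σ π y v)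
    (a' : Lf σ π (n * x * n⁻¹) u') (b' : Lf σ π (n * y * n⁻¹) v') (u0 : u ≠ 0) (u0' : u' ≠ 0)
    (e : bf u v = 0) : bf u' v' = 0 := by
  obtain ⟨g, rfl, a⟩ := a
  obtain ⟨k, rfl, b⟩ := b
  obtain ⟨g', e1, a'⟩ := a'
  obtain ⟨k', e2, b'⟩ := b'
  obtain ⟨n, rfl⟩ := h.surj n
  have : (thz u' v' : K) = thz u v := by
    rw [← th_dl a b, ← th_dl a' b', ← th_conj n g k]
    exact th_congr h (by simpa using e1) (by simpa using e2)
  by_contra ne
  rw [(thz_bf u' v' u0').2 ne] at this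
  have h16 : (16 : K) ≠ 0 := fun e => mul_ne_zero (four h.two) (four h.two) (by linear_combination e)
  rcases (thz_bf u v u0).1 e with q | q <;> rw [q] at this <;> push_cast at this
  · exact h16 (by linear_combination this)
  · exact h16 (by linear_combination -this)

/-- An elementary abelian subgroup is diagonal in some frame. -/
theorem exists_B [IsAlgClosed K] (h : HW σ π) (E : Subgroup X) (h2 : ∀ x ∈ E, x * x = 1) :
    ∃ B : O6 K, E ≤ (MG (cw σ B) ⊥).map π := by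
  have ex : ∀ x : E, ∃ g, π g = x ∧ g * g = 1 ∧ (g = 1 ∨ (σ g).trace = 2) := fun x => by
    by_cases x1 : (x : X) = 1
    · exact ⟨1, by rw [x1, map_one], mul_one _, Or.inl rfl⟩
    · obtain ⟨g, a, b, c⟩ := h.exists_inv (orderOf_eq_prime (by rw [pow_two, h2 x x.2]) x1)
      exact ⟨g, a, b, Or.inr c⟩
  choose b b1 b2 b3 using ex
  have cm : ∀ x ∈ E, ∀ y ∈ E, x * y = y * x := fun x hx y hy => by
    have i : ∀ z ∈ E, z⁻¹ = z := fun z hz => inv_eq_of_mul_eq_one_right (h2 z hz)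
    rw [← i _ (E.mul_mem hx hy), _root_.mul_inv_rev, i x hx, i y hy]
  obtain ⟨B, hB⟩ := h.exists_diag b b2 fun x y => by
    rcases b3 y with e | e
    · simp [e]
    · exact mul_inv_eq_iff_eq_mul.1 (h.conj_lift e e (by
        rw [b1, b1, cm _ x.2 _ y.2, mul_inv_cancel_right]))
  exact ⟨B, fun x hx => ⟨b ⟨x, hx⟩, ⟨1, Subgroup.one_mem _, hB _⟩, b1 _⟩⟩

end Cfsg.Agent.D4.WF
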