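import Cfsg.Agent.D4.WAlt
import Mathlib.LinearAlgebra.Matrix.BilinearForm
import Mathlib.LinearAlgebra.BilinearForm.Orthogonal

/-!
The exterior square is irreducible.
-/

set_option autoImplicit false

open Matrix
open scoped MatrixGroups

namespace Cfsg.Agent.D4

variable {K : Type*} [Field K] {Γ G X : Type*} [Group Γ] [Group G] [Group X] {ρ : Γ →* M4 K}
  {π : Γ →* X} {σ : G →* M6 K} {π' : G →* X} {ι : Γ →* G} {i : K}

namespace WI

/-- `alt` as a linear map. -/
def aL (i : K) : V6 K →ₗ[K] M4 K where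
  toFun := alt i
  map_add' x y := by ext a b; fin_cases a <;> fin_cases b <;> simp [alt] <;> ring
  map_smul' c x := by ext a b; fin_cases a <;> fin_cases b <;> simp [alt] <;> ring

theorem cliff (hi : i * i = -1) (x y : V6 K) :
    alt i x * alt (-i) y = -(alt i y * alt (-i) x) - (2 * x ⬝ᵥ y) • 1 := by
  ext a b
  fin_cases a <;> fin_cases b <;>
    simp [alt, mul_apply, Fin.sum_univ_four, dotProduct, Fin.sum_univ_six] <;>
    first | ring1 | linear_combination (2 * (x 1 * y 1 + x 3 * y 3 + x 5 * y 5)) * hi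

theorem alt_T (i : K) (x : V6 K) : (alt i x)ᵀ = -alt i x := by
  ext a b
  fin_cases a <;> fin_cases b <;> simp [alt]

theorem alt_ne (hi : i * i = -1) (h2 : (2 : K) ≠ 0) {x : V6 K} (e : alt i x = 0) : x = 0 := by
  have k : ∀ a b : K, a + i * b = 0 → a - i * b = 0 → a = 0 ∧ b = 0 := fun a b h1 h3 =>
    ⟨mul_left_cancel₀ h2 (by linear_combination h1 + h3),
      mul_left_cancel₀ h2 (by linear_combination i * h3 - i * h1 + 2 * b * hi)⟩
  have a := k (x 0) (x 1) (congrFun (congrFun e 0) 1) (congrFun (congrFun e 2) 3)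
  have b := k (x 2) (x 3) (congrFun (congrFun e 0) 2) (congrFun (congrFun e 3) 1)
  have c := k (x 4) (x 5) (congrFun (congrFun e 0) 3) (congrFun (congrFun e 1) 2)
  ext j
  fin_cases j
  exacts [a.1, a.2, b.1, b.2, c.1, c.2]

theorem alt_sq (hi : i * i = -1) (h2 : (2 : K) ≠ 0) {x : V6 K} (hx : x ⬝ᵥ x = 1) :
    alt i x * -alt (-i) x = 1 := by
  have := cliff hi x x
  rw [hx, mul_one, eq_sub_iff_add_eq, eq_neg_iff_add_eq_zero] at this
  refine smul_right_injective _ h2 ?_
  simp only [mul_neg]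
  rw [smul_neg, neg_eq_iff_add_eq_zero, ← this, two_smul]
  abel

/-- The action on alternating forms. -/
def Act (ρ : Γ →* M4 K) (τ : Γ → M6 K) (i : K) : Prop :=
  ∀ g x, alt i (τ g *ᵥ x) = ρ g * alt i x * (ρ g)ᵀ

variable {τ : Γ → M6 K}

theorem Act.dual (a : Act ρ τ i) (hi : i * i = -1) (h2 : (2 : K) ≠ 0)
    (o : ∀ g x, (τ g *ᵥ x) ⬝ᵥ (τ g *ᵥ x) = x ⬝ᵥ x) : Act (dual ρ) τ (-i) := fun g x => by
  have : (aL (-i)).comp (τ g).mulVecLin =
      (LinearMap.mulLeftRight K (D4.dual ρ g, (D4.dual ρ g)ᵀ)).comp (aL (-i)) := by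
    refine (Pi.basisFun K (Fin 6)).ext fun k => ?_
    have hx : (Pi.basisFun K (Fin 6) k) ⬝ᵥ (Pi.basisFun K (Fin 6) k) = 1 := by simp
    generalize Pi.basisFun K (Fin 6) k = x at hx
    have e1 := alt_sq hi h2 ((o g x).trans hx)
    have e2 := alt_sq hi h2 hx
    refine neg_injective (right_inv_eq_right_inv e1 ?_)
    change _ * -(D4.dual ρ g * alt (-i) x * (D4.dual ρ g)ᵀ) = 1
    rw [a, dual_apply, transpose_transpose, ← neg_mul, ← mul_neg, mul_assoc, ← mul_assoc (ρ g)ᵀ,
      ← mul_assoc (ρ g)ᵀ, ← transpose_mul, inv_mul_rho, transpose_one, one_mul, mul_assoc,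
      ← mul_assoc (alt i x), e2, one_mul, mul_inv_rho]
  exact LinearMap.congr_fun this x

theorem semi (h : Hyp ρ π) {S : M4 K} (h0 : S ≠ 0) (e : ∀ g, ∃ c : K, ρ g * S * (ρ g)ᵀ = c • S) :
    Real ρ := by
  have hu : IsUnit S := by
    refine mulVec_surjective_iff_isUnit.1 (LinearMap.range_eq_top (f := S.mulVecLin).1 ?_)
    refine (h.irr _ ?_).resolve_left fun e0 => h0 ?_
    · rintro g _ ⟨v, rfl⟩
      obtain ⟨c, hc⟩ := e g
      refine ⟨c • (ρ g⁻¹)ᵀ *ᵥ v, ?_⟩
      rw [mulVecLin_apply, mulVecLin_apply, mulVec_smul, ← smul_mulVec, ← hc, mulVec_mulVec,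
        mulVec_mulVec, mul_assoc, ← transpose_mul, inv_mul_rho, transpose_one, mul_one]
    · exact toLin'.injective ((LinearMap.range_eq_bot.1 e0).trans (map_zero _).symm)
  have := h.dual.real_of_isO ⟨S, ((isUnit_iff_isUnit_det _).1 hu).ne_zero, fun g => by
    rw [dual_apply, transpose_transpose]; exact e g⁻¹⟩
  intro g
  have := this g
  rw [trace_dual, trace_dual, inv_inv] at this
  exact this.symm

theorem real_of_dual (r : Real (dual ρ)) : Real ρ := fun g => by
  have := r g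
  rw [trace_dual, trace_dual, inv_inv] at this
  exact this.symm

theorem exists_ann6 {W : Submodule K (V6 K)} {v : V6 K} (h : v ∉ W) :
    ∃ φ : V6 K, φ ⬝ᵥ v ≠ 0 ∧ ∀ y ∈ W, φ ⬝ᵥ y = 0 := by
  obtain ⟨l, h1, h2⟩ := W.exists_dual_map_eq_bot_of_notMem h inferInstance
  have e : ∀ w, l w = (fun i => l (Pi.single i 1)) ⬝ᵥ w := fun w => by
    rw [LinearMap.pi_apply_eq_sum_univ]
    exact Finset.sum_congr rfl fun i _ => by
      rw [smul_eq_mul, mul_comm]; congr 2; ext j; simp [Pi.single_apply, eq_comm]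
  exact ⟨_, e v ▸ h1, fun y hy => (e y).symm.trans
    ((Submodule.mem_bot K).1 (h2 ▸ Submodule.mem_map_of_mem hy))⟩

/-- The bivector. -/
def bv (i : K) (y z : V6 K) : M4 K := alt i y * alt (-i) z - alt i z * alt (-i) y

/-- The trivector. -/
def tv (i : K) (x y z : V6 K) : M4 K :=
  alt i x * alt (-i) y * alt i z - alt i z * alt (-i) y * alt i x

theorem bv_ne (hi : i * i = -1) (h2 : (2 : K) ≠ 0) {y z : V6 K} (hz : z ≠ 0)
    (hy : y ∉ Submodule.span K {z}) : bv i y z ≠ 0 := fun e => by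
  obtain ⟨w, h1, h3⟩ := exists_ann6 hy
  replace h3 := h3 z (Submodule.mem_span_singleton_self z)
  have hi' : -i * -i = -1 := by rwa [neg_mul_neg]
  have e1 : alt i y * alt (-i) z = alt i z * alt (-i) y := sub_eq_zero.1 e
  have e2 : alt (-i) z * alt i y = alt (-i) y * alt i z := by
    simpa only [transpose_mul, alt_T, neg_mul_neg] using congrArg transpose e1
  have a1 := cliff hi w y
  have a2 := cliff hi w z
  have a3 := cliff hi' y w
  have a4 := cliff hi' z w
  rw [neg_neg, dotProduct_comm] at a3 a4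
  rw [h3, mul_zero, zero_smul, sub_zero] at a2 a4
  have b1 : alt i w * (alt (-i) y * alt i z) =
      alt i y * alt (-i) z * alt i w - (2 * w ⬝ᵥ y) • alt i z := by
    rw [← mul_assoc, a1, mul_assoc (alt i y), a4]
    simp only [sub_mul, neg_mul, mul_neg, smul_mul_assoc, one_mul, mul_assoc]
  have b2 : alt i z * alt (-i) y * alt i w =
      alt i w * (alt (-i) z * alt i y) - (2 * w ⬝ᵥ y) • alt i z := by
    rw [← mul_assoc (alt i w), a2, mul_assoc (alt i z), a3]
    simp only [mul_sub, neg_mul, mul_neg, mul_smul_comm, mul_one, mul_assoc]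
  rw [e1, b2, e2, sub_sub, eq_comm, sub_eq_self, ← add_smul, smul_eq_zero] at b1
  rcases b1 with b | b
  · exact mul_ne_zero h2 (mul_ne_zero h2 h1) (by linear_combination b)
  · exact hz (alt_ne hi h2 b)

theorem tv_key (hi : i * i = -1) {w x y z : V6 K} (hy : w ⬝ᵥ y = 0) (hz : w ⬝ᵥ z = 0) :
    alt i w * tv (-i) x y z + tv i x y z * alt (-i) w = -(2 * w ⬝ᵥ x) • bv i y z := by
  have hi' : -i * -i = -1 := by rwa [neg_mul_neg]
  have a1 := cliff hi w x
  have a2 := cliff hi w z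
  have a3 := cliff hi' w y
  rw [neg_neg, hy, mul_zero, zero_smul, sub_zero] at a3
  rw [hz, mul_zero, zero_smul, sub_zero] at a2
  have b1 : alt i w * (alt (-i) x * alt i y * alt (-i) z) =
      -(alt i x * alt (-i) y * alt i z * alt (-i) w) - (2 * w ⬝ᵥ x) • (alt i y * alt (-i) z) := by
    calc _ = alt i w * alt (-i) x * alt i y * alt (-i) z := by simp only [mul_assoc]
      _ = -(alt i x * (alt (-i) w * alt i y) * alt (-i) z) -
          (2 * w ⬝ᵥ x) • (alt i y * alt (-i) z) := by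
        rw [a1]; simp only [sub_mul, neg_mul, smul_mul_assoc, one_mul, mul_assoc]
      _ = alt i x * alt (-i) y * (alt i w * alt (-i) z) -
          (2 * w ⬝ᵥ x) • (alt i y * alt (-i) z) := by
        rw [a3]; simp only [mul_neg, neg_mul, neg_neg, mul_assoc]
      _ = _ := by rw [a2]; simp only [mul_neg, mul_assoc]
  have b2 : alt i w * (alt (-i) z * alt i y * alt (-i) x) =
      -(alt i z * alt (-i) y * alt i x * alt (-i) w) - (2 * w ⬝ᵥ x) • (alt i z * alt (-i) y) := by
    calc _ = alt i w * alt (-i) z * alt i y * alt (-i) x := by simp only [mul_assoc]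
      _ = -(alt i z * (alt (-i) w * alt i y) * alt (-i) x) := by
        rw [a2]; simp only [neg_mul, mul_assoc]
      _ = alt i z * alt (-i) y * (alt i w * alt (-i) x) := by
        rw [a3]; simp only [mul_neg, neg_mul, neg_neg, mul_assoc]
      _ = _ := by rw [a1]; simp only [mul_sub, mul_neg, mul_smul_comm, mul_one, mul_assoc]
  rw [tv, tv, bv, neg_neg, mul_sub, b1, b2, sub_mul]
  module

theorem bi {V N : Type*} [AddCommGroup V] [Module K V] [AddCommGroup N] [Module K N]
    (t : V →ₗ[K] V →ₗ[K] N) {y z u v : V} (hu : u ∈ Submodule.span K {y, z})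
    (hv : v ∈ Submodule.span K {y, z}) : ∃ c : K, t u v - t v u = c • (t y z - t z y) := by
  obtain ⟨a, b, rfl⟩ := Submodule.mem_span_pair.1 hu
  obtain ⟨c, d, rfl⟩ := Submodule.mem_span_pair.1 hv
  refine ⟨a * d - b * c, ?_⟩
  simp only [map_add, map_smul, LinearMap.add_apply, LinearMap.smul_apply]
  module

theorem tri {V N : Type*} [AddCommGroup V] [Module K V] [AddCommGroup N] [Module K N]
    (f : V →ₗ[K] V →ₗ[K] V →ₗ[K] N) (h1 : ∀ x z, f x x z = 0) (h2 : ∀ x y, f x y y = 0)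
    {x y z u v w : V} (hu : u ∈ Submodule.span K {x, y, z}) (hv : v ∈ Submodule.span K {x, y, z})
    (hw : w ∈ Submodule.span K {x, y, z}) : ∃ c : K, f u v w = c • f x y z := by
  have a1 : ∀ x y z, f y x z = -f x y z := fun x y z => by
    have := h1 (x + y) z
    simp only [map_add, LinearMap.add_apply, h1, zero_add, add_zero] at this
    exact eq_neg_of_add_eq_zero_left this
  have a2 : ∀ x y z, f x z y = -f x y z := fun x y z => by
    have := h2 x (y + z)
    simp only [map_add, LinearMap.add_apply, h2, zero_add, add_zero] at this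
    exact eq_neg_of_add_eq_zero_left this
  have a3 : ∀ x y, f x y x = 0 := fun x y => by rw [a2, h1, neg_zero]
  have a4 : f y z x = f x y z := by rw [a2, a1, neg_neg]
  have a5 : f z x y = f x y z := by rw [a1, a2, neg_neg]
  have a6 : f z y x = -f x y z := by rw [a1, a4]
  obtain ⟨a, b, c, rfl⟩ := Submodule.mem_span_triple.1 hu
  obtain ⟨d, e, g, rfl⟩ := Submodule.mem_span_triple.1 hv
  obtain ⟨k, l, m, rfl⟩ := Submodule.mem_span_triple.1 hw
  refine ⟨a * e * m - a * g * l - b * d * m + b * g * k + c * d * l - c * e * k, ?_⟩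
  simp only [map_add, map_smul, LinearMap.add_apply, LinearMap.smul_apply, h1, h2, a3, a4, a5, a6,
    a1 x y z, a2 x y z]
  module

theorem tri' {V N : Type*} [AddCommGroup V] [Module K V] [AddCommGroup N] [Module K N]
    (t : V →ₗ[K] V →ₗ[K] V →ₗ[K] N) (h1 : ∀ x z, t x x z - t z x x = 0)
    (h2 : ∀ x y, t x y y - t y y x = 0)
    {x y z u v w : V} (hu : u ∈ Submodule.span K {x, y, z}) (hv : v ∈ Submodule.span K {x, y, z})
    (hw : w ∈ Submodule.span K {x, y, z}) :
    ∃ c : K, t u v w - t w v u = c • (t x y z - t z y x) :=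
  tri (t - (LinearMap.lflip.toLinearMap ∘ₗ t.flip).flip) h1 h2 hu hv hw

/-- The bivector product as a bilinear map. -/
def bL (i : K) : V6 K →ₗ[K] V6 K →ₗ[K] M4 K := (LinearMap.mul K (M4 K)).compl₁₂ (aL i) (aL (-i))

/-- The triple product as a trilinear map. -/
def tL (i : K) : V6 K →ₗ[K] V6 K →ₗ[K] V6 K →ₗ[K] M4 K :=
  (bL i).compr₂ ((LinearMap.mul K (M4 K)).compl₂ (aL i))

theorem alt_sq' (hi : i * i = -1) (h2 : (2 : K) ≠ 0) (x : V6 K) :
    alt i x * alt (-i) x = -(x ⬝ᵥ x) • 1 := by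
  have := cliff hi x x
  rw [eq_sub_iff_add_eq, eq_neg_iff_add_eq_zero] at this
  refine smul_right_injective _ h2 ?_
  simp only
  rw [← sub_eq_zero, ← this]
  module

theorem tv_span (hi : i * i = -1) (h2 : (2 : K) ≠ 0) {x y z u v w : V6 K}
    (hu : u ∈ Submodule.span K {x, y, z}) (hv : v ∈ Submodule.span K {x, y, z})
    (hw : w ∈ Submodule.span K {x, y, z}) : ∃ c : K, tv i u v w = c • tv i x y z := by
  have hi' : -i * -i = -1 := by rwa [neg_mul_neg]
  have a := alt_sq' hi h2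
  have b := alt_sq' hi' h2
  rw [neg_neg] at b
  refine tri' (tL i) (fun x z => ?_) (fun x y => ?_) hu hv hw
  · change tv i x x z = 0
    rw [tv, a, mul_assoc, b]; simp
  · change tv i x y y = 0
    rw [tv, a, mul_assoc, b]; simp

theorem Act.bv (a : Act ρ τ i) (a' : Act (D4.dual ρ) τ (-i)) (g : Γ) (y z : V6 K) :
    bv i (τ g *ᵥ y) (τ g *ᵥ z) = ρ g * bv i y z * ρ g⁻¹ := by
  have e : ∀ M : M4 K, (ρ g)ᵀ * ((ρ g⁻¹)ᵀ * M) = M := fun M => by
    rw [← mul_assoc, ← transpose_mul, inv_mul_rho, transpose_one, one_mul]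
  simp only [WI.bv, a g, a' g, dual_apply, transpose_transpose, mul_assoc, e, mul_sub, sub_mul]

theorem Act.tv (a : Act ρ τ i) (a' : Act (D4.dual ρ) τ (-i)) (g : Γ) (x y z : V6 K) :
    tv i (τ g *ᵥ x) (τ g *ᵥ y) (τ g *ᵥ z) = ρ g * tv i x y z * (ρ g)ᵀ := by
  have e : ∀ M : M4 K, (ρ g)ᵀ * ((ρ g⁻¹)ᵀ * M) = M := fun M => by
    rw [← mul_assoc, ← transpose_mul, inv_mul_rho, transpose_one, one_mul]
  have e' : ∀ M : M4 K, ρ g⁻¹ * (ρ g * M) = M := fun M => by
    rw [← mul_assoc, inv_mul_rho, one_mul]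
  simp only [WI.tv, a g, a' g, dual_apply, transpose_transpose, mul_assoc, e, e', mul_sub, sub_mul]

theorem trace_bv (i : K) (y z : V6 K) : (bv i y z).trace = 0 := by
  simp [bv, alt, trace, mul_apply, Fin.sum_univ_four]
  ring

theorem semi2 (h : Hyp ρ π) (h2 : (2 : K) ≠ 0) {S : M4 K} (t : S.trace = 0)
    (e : ∀ g, ∃ c : K, ρ g * S * ρ g⁻¹ = c • S) : S = 0 := by
  by_contra S0
  choose c hc using e
  let f : Γ →* K :=
    { toFun := c
      map_one' := smul_left_injective K S0 (by simpa using (hc 1).symm)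
      map_mul' := fun a b => smul_left_injective K S0 (by
        change c (a * b) • S = (c a * c b) • S
        rw [← hc, _root_.mul_inv_rev, map_mul, map_mul, mul_comm, mul_smul, ← hc a,
          ← smul_mul_assoc, ← mul_smul_comm, ← hc b]
        simp only [mul_assoc]) }
  obtain ⟨d, rfl⟩ := h.scalar_of_comm (M := S) fun g => by
    have e1 : c g = 1 := congrArg Units.val (hom_eq_one h.perfect f.toHomUnits g)
    have e2 := hc g
    rw [e1, one_smul] at e2
    conv_lhs => rw [← e2]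
    rw [mul_assoc, inv_mul_rho, mul_one]
  rw [trace_smul, trace_one, Fintype.card_fin, smul_eq_mul] at t
  have : d = 0 := mul_left_cancel₀ (mul_ne_zero h2 h2) (by linear_combination t)
  exact S0 (by rw [this, zero_smul])

theorem small (h : Hyp ρ π) (a : Act ρ τ i) (hi : i * i = -1) (h2 : (2 : K) ≠ 0) (r : ¬ Real ρ)
    (o : ∀ g x, (τ g *ᵥ x) ⬝ᵥ (τ g *ᵥ x) = x ⬝ᵥ x) {U : Submodule K (V6 K)}
    (hU : ∀ g, ∀ x ∈ U, τ g *ᵥ x ∈ U) (hd : Module.finrank K U ≤ 3) : U = ⊥ := by
  by_contra h0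
  have a' := a.dual hi h2 o
  have hi' : -i * -i = -1 := by rwa [neg_mul_neg]
  obtain ⟨z, hz, z0⟩ := U.ne_bot_iff.1 h0
  by_cases h1 : U ≤ Submodule.span K {z}
  · refine r (semi h (S := alt i z) (fun e => z0 (alt_ne hi h2 e)) fun g => ?_)
    obtain ⟨c, hc⟩ := Submodule.mem_span_singleton.1 (h1 (hU g z hz))
    exact ⟨c, by rw [← a, ← hc]; exact (aL i).map_smul c z⟩
  obtain ⟨y, hy, y0⟩ := SetLike.not_le_iff_exists.1 h1
  by_cases h3 : U ≤ Submodule.span K {y, z}
  · refine bv_ne hi h2 z0 y0 (semi2 h h2 (trace_bv i y z) fun g => ?_)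
    rw [← a.bv a']
    exact bi (bL i) (h3 (hU g y hy)) (h3 (hU g z hz))
  obtain ⟨x, hx, x0⟩ := SetLike.not_le_iff_exists.1 h3
  by_cases h4 : U ≤ Submodule.span K {x, y, z}
  · have e1 : tv i x y z = 0 := by_contra fun e => r (semi h e fun g => by
      rw [← a.tv a']
      exact tv_span hi h2 (h4 (hU g x hx)) (h4 (hU g y hy)) (h4 (hU g z hz)))
    have e2 : tv (-i) x y z = 0 := by_contra fun e => r (real_of_dual (semi h.dual e fun g => by
      rw [← a'.tv (by rwa [dual_dual, neg_neg])]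
      exact tv_span hi' h2 (h4 (hU g x hx)) (h4 (hU g y hy)) (h4 (hU g z hz))))
    obtain ⟨w, w1, w2⟩ := exists_ann6 x0
    have := tv_key hi (x := x) (w2 y (Submodule.subset_span (by simp)))
      (w2 z (Submodule.subset_span (by simp)))
    rw [e1, e2, mul_zero, zero_mul, add_zero, eq_comm, smul_eq_zero] at this
    exact this.elim (neg_ne_zero.2 (mul_ne_zero h2 w1)) (bv_ne hi h2 z0 y0)
  have l0 : (⊥ : Submodule K (V6 K)) < Submodule.span K {z} :=
    bot_lt_iff_ne_bot.2 (by simpa using z0)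
  have l1 : Submodule.span K {z} < Submodule.span K {y, z} :=
    lt_of_le_of_ne (Submodule.span_mono (by simp)) fun e =>
      y0 (e ▸ Submodule.subset_span (by simp))
  have l2 : Submodule.span K {y, z} < Submodule.span K {x, y, z} :=
    lt_of_le_of_ne (Submodule.span_mono (by simp)) fun e =>
      x0 (e ▸ Submodule.subset_span (by simp))
  have l3 : Submodule.span K {x, y, z} < U :=
    lt_of_le_of_ne (Submodule.span_le.2 (by
      rintro _ (rfl | rfl | rfl) <;> assumption)) fun e => h4 e.ge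
  have := Submodule.finrank_lt_finrank_of_lt l0
  have := Submodule.finrank_lt_finrank_of_lt l1
  have := Submodule.finrank_lt_finrank_of_lt l2
  have := Submodule.finrank_lt_finrank_of_lt l3
  omega

end WI

variable [IsAlgClosed K] [Finite Γ]

theorem Lk.irr (l : Lk ρ π σ π' ι i) (h : Hyp ρ π) (h2 : (2 : K) ≠ 0) (r : ¬ Real ρ)
    (orth : ∀ g, (σ g)ᵀ * σ g = 1) (U : Submodule K (V6 K))
    (hU : ∀ g, ∀ x ∈ U, σ g *ᵥ x ∈ U) : U = ⊥ ∨ U = ⊤ := by
  have o : ∀ g x y, (σ g *ᵥ x) ⬝ᵥ (σ g *ᵥ y) = x ⬝ᵥ y := fun g x y => by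
    rw [dotProduct_mulVec, vecMul_mulVec, orth, vecMul_one]
  have a : WI.Act ρ (fun g => σ (ι g)) i := l.act
  by_cases hd : Module.finrank K U ≤ 3
  · exact Or.inl (WI.small h a l.hi h2 r (fun g x => o _ x x) (fun g => hU _) hd)
  have nd : (Matrix.toBilin' (1 : M6 K)).Nondegenerate :=
    LinearMap.BilinForm.nondegenerate_toBilin'_of_det_ne_zero' _ (by simp)
  have e : Module.finrank K ((Matrix.toBilin' (1 : M6 K)).orthogonal U) = 6 - Module.finrank K U :=
    (LinearMap.BilinForm.finrank_orthogonal nd U).trans (by rw [Module.finrank_fin_fun])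
  have := WI.small h a l.hi h2 r (fun g x => o _ x x)
    (U := (Matrix.toBilin' (1 : M6 K)).orthogonal U) (fun g x hx u hu => by
      have := hx _ (hU (ι g)⁻¹ u hu)
      rw [toBilin'_apply', one_mulVec] at this ⊢
      rw [← this, ← o (ι g) (σ (ι g)⁻¹ *ᵥ u), mulVec_mulVec, ← map_mul, mul_inv_cancel, map_one,
        one_mulVec]) (e.trans_le (by omega))
  rw [this, finrank_bot] at e
  refine Or.inr (Submodule.eq_top_of_finrank_eq (le_antisymm U.finrank_le ?_))
  rw [Module.finrank_fin_fun]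
  omega

end Cfsg.Agent.D4
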