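import Cfsg.Agent.D4.WFrm

/-!
Finite models of groups of signed permutation matrices modulo `± 1`.
-/

set_option autoImplicit false

open Matrix

namespace Cfsg.Agent.D4.WM

variable {K : Type*} [Field K] {G X : Type*} [Group G] [Group X] {σ : G →* M6 K} {π : G →* X}
  {M : Type*} [Group M] {w : M → S6} {η : M → Fin 6 → ℤ}

/-- the sign with a given number -/
def sg (L a : ℕ) (j : Fin 6) : ℤ := cond (Nat.testBit L (6 * a + j.val)) (-1) 1

/-- the permutation with a given number -/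
def pw (l : List S6) (L a : ℕ) : S6 := l.getD (Nat.land (Nat.shiftRight L (2 * a)) 3) 1

/-- a faithful projective representation by signed permutation matrices of determinant one -/
structure Md (w : M → S6) (η : M → Fin 6 → ℤ) : Prop where
  sq : ∀ a, (∀ j, η a j * η a j = 1) ∧ (Equiv.Perm.sign (w a) : ℤ) * ∏ j, η a j = 1
  mul : ∀ a b, w (a * b) = w a * w b ∧ ((∀ j, η (a * b) j = η a (w b j) * η b j) ∨
    ∀ j, η (a * b) j = -(η a (w b j) * η b j))
  inj : ∀ a, w a = 1 → (∀ j, η a j = η a 0) → a = 1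

/-- the matrix of an element -/
def mx (w : M → S6) (η : M → Fin 6 → ℤ) (a : M) : M6 K := mono (w a) fun j => (η a j : K)

theorem Md.isMono (m : Md w η) (a : M) : IsMono (mx w η a : M6 K) (w a) :=
  ⟨_, fun j => by rw [← Int.cast_mul, (m.sq a).1, Int.cast_one], rfl⟩

theorem mono_neg (u : S6) (ε : Fin 6 → K) : mono u (fun j => -ε j) = -mono u ε := by
  ext i j; by_cases e : i = u j <;> simp [mono, e]

theorem MG_top : MG σ ⊤ = MG σ (Yg σ) :=
  le_antisymm (fun g ⟨u, _, m⟩ => ⟨u, ⟨g, m⟩, m⟩) fun _ ⟨u, _, m⟩ => ⟨u, trivial, m⟩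

variable [IsAlgClosed K] [Finite G]

theorem Md.exists_hom (m : Md w η) (h : HW σ π) (F : Frm σ) (hw : ∀ a, w a ∈ Yg σ) :
    ∃ φ : M →* X, Function.Injective φ ∧ ∀ a, ∃ g, π g = φ a ∧ σ g = mx w η a := by
  choose g hg using fun a => h.mono_mem F (hw a) (m.isMono a) (by
    rw [mx, det_mono, ← Int.cast_prod, ← Int.cast_mul, (m.sq a).2, Int.cast_one])
  refine ⟨MonoidHom.mk' (fun a => π (g a)) fun a b => ?_, (injective_iff_map_eq_one _).2 fun a e => ?_,
    fun a => ⟨g a, rfl, hg a⟩⟩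
  · rw [← map_mul, ← mul_inv_eq_one, ← map_inv, ← map_mul, h.ker, map_mul]
    have : σ (g (a * b)) = σ (g a * g b) ∨ σ (g (a * b)) = -σ (g a * g b) := by
      rw [map_mul, hg, hg, hg, mx, mx, mx, mono_mul, (m.mul a b).1, ← mono_neg]
      refine (m.mul a b).2.imp (fun k => ?_) fun k => ?_ <;> simp only [k, Int.cast_neg, Int.cast_mul]
    refine this.imp (fun k => ?_) fun k => ?_ <;> rw [k]
    · rw [← map_mul, mul_inv_cancel, map_one]
    · rw [neg_mul, ← map_mul, mul_inv_cancel, map_one]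
  · have e' : mx w η a = (1 : M6 K) ∨ mx w η a = (-1 : M6 K) := hg a ▸ (h.ker _).1 e
    have w1 : w a = 1 := (m.isMono a).unique h.two (e'.elim (fun k => k ▸ isMono_one) fun k => k ▸ isMono_one.neg)
    refine m.inj a w1 fun j => ?_
    have : (η a j : K) = η a 0 := by
      have e1 : ∀ j, (η a j : K) = mx w η a j j := fun j => by simp [mx, mono, w1]
      rw [e1, e1]
      rcases e' with k | k <;> simp [k]
    rcases Int.eq_one_or_neg_one_of_mul_eq_one ((m.sq a).1 j) with k | k <;>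
      rcases Int.eq_one_or_neg_one_of_mul_eq_one ((m.sq a).1 0) with l | l <;> rw [k, l] at this ⊢
    · exact absurd (by push_cast at this; linear_combination this) h.two
    · exact absurd (by push_cast at this; linear_combination -this) h.two

variable {φ : M →* X} (m : Md w η) (h : HW σ π) (F : Frm σ) (hi : Function.Injective φ)
  (hφ : ∀ a, ∃ g, π g = φ a ∧ σ g = mx w η a)
include m h F hi hφ

theorem map_A {A : Subgroup M} (hA : ∀ a ∈ A, w a = 1) (c : Nat.card A = 16) : A.map φ = (MG σ ⊥).map π := by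
  have := h.finiteX
  refine Subgroup.eq_of_le_of_card_ge ?_ (by rw [WF.card_A h F, Subgroup.card_map_of_injective hi, c])
  rintro _ ⟨a, ha, rfl⟩
  obtain ⟨g, e1, e2⟩ := hφ a
  exact ⟨g, ⟨1, Subgroup.one_mem _, hA a ha ▸ e2 ▸ m.isMono a⟩, e1⟩

theorem exists_syl {A : Subgroup M} (hA : ∀ a ∈ A, w a = 1) (c : Nat.card A = 16) (cM : Nat.card M = 64)
    (cY : Nat.card (Yg σ) = 60)
    (ch : ∀ x ∈ Subgroup.normalizer (φ.range : Set X), x * x ∈ φ.range → x ∈ (MG σ ⊤).map π) :
    ∃ S : Sylow 2 X, (S : Subgroup X) = φ.range := by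
  have := h.finiteX
  have c1 : Nat.card φ.range = 64 := by rw [← cM]; exact Nat.card_congr (MonoidHom.ofInjective hi).toEquiv.symm
  have le : φ.range ≤ (MG σ ⊤).map π := by
    rintro _ ⟨a, rfl⟩
    obtain ⟨g, e1, e2⟩ := hφ a
    exact ⟨g, ⟨_, trivial, e2 ▸ m.isMono a⟩, e1⟩
  refine h.sylow_of F (IsPGroup.of_card (n := 6) c1) (map_A m h F hi hφ hA c ▸ Subgroup.map_le_range _ _) le ?_ ch
  have := Subgroup.card_mul_index (φ.range.subgroupOf ((MG σ ⊤).map π))
  rw [Nat.card_congr (Subgroup.subgroupOfEquivOfLe le).toEquiv, c1, MG_top, h.card_MG F le_rfl, cY, ← MG_top] at this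
  rw [Subgroup.relIndex, show Subgroup.index _ = 15 by omega]
  decide

omit m h F hφ [IsAlgClosed K] [Finite G] in
theorem exists_aut {x : X} (hx : x ∈ Subgroup.normalizer (φ.range : Set X)) :
    ∃ α : M →* M, Function.Injective α ∧ ∀ a, φ (α a) = x * φ a * x⁻¹ := by
  choose α e using fun a => (Subgroup.mem_normalizer_iff.1 hx (φ a)).1 ⟨a, rfl⟩
  exact ⟨MonoidHom.mk' α fun a b => hi (by rw [map_mul, e, e, e, map_mul, conj_mul]),
    fun a b k => hi (conj_injective ((e a).symm.trans ((congrArg φ k).trans (e b)))), e⟩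

end Cfsg.Agent.D4.WM
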