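import Cfsg.Agent.D4.Defs3

/-!
Alternating matrices, wedges and unipotent lifts.
-/

set_option autoImplicit false

open Matrix
open scoped MatrixGroups

namespace Cfsg.Agent.D4

namespace WQ

variable {K : Type*} [Field K] {Γ G X : Type*} [Group Γ] [Group G] [Group X] {ρ : Γ →* M4 K}
  {π : Γ →* X} {σ : G →* M6 K} {π' : G →* X} {ι : Γ →* G} {i : K}

/-- The alternating matrix `u ∧ w`. -/
def wq (u w : V4 K) : M4 K := vecMulVec u w - vecMulVec w u

theorem alt_add (i : K) (x y : V6 K) : alt i (x + y) = alt i x + alt i y := by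
  ext a b
  fin_cases a <;> fin_cases b <;> simp [alt] <;> ring

theorem alt_smul (i c : K) (x : V6 K) : alt i (c • x) = c • alt i x := by
  ext a b
  fin_cases a <;> fin_cases b <;> simp [alt] <;> ring

theorem alt_mul (hi : i * i = -1) (x : V6 K) : alt i x * alt (-i) x = (-(x ⬝ᵥ x)) • 1 := by
  ext a b
  fin_cases a <;> fin_cases b <;> simp [alt, mul_apply, Fin.sum_univ_succ, dotProduct] <;>
    first
    | ring1
    | linear_combination (x 1 * x 1 + x 3 * x 3 + x 5 * x 5) * hi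

theorem exists_alt (hi : i * i = -1) (h2 : (2 : K) ≠ 0) (u w : V4 K) :
    ∃ x, alt i x = wq u w := by
  refine ⟨![(wq u w 0 1 + wq u w 2 3) / 2, -i * (wq u w 0 1 - wq u w 2 3) / 2,
    (wq u w 0 2 - wq u w 1 3) / 2, -i * (wq u w 0 2 + wq u w 1 3) / 2,
    (wq u w 0 3 + wq u w 1 2) / 2, -i * (wq u w 0 3 - wq u w 1 2) / 2], ?_⟩
  have hi' : i ^ 2 = -1 := by rw [sq, hi]
  ext a b
  fin_cases a <;> fin_cases b <;> simp [alt, wq, vecMulVec_apply] <;> field_simp <;>
    (try rw [hi']) <;> ring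

theorem mul_wq (M : M4 K) (u w : V4 K) : M * wq u w * Mᵀ = wq (M *ᵥ u) (M *ᵥ w) := by
  simp only [wq, mul_sub, sub_mul, mul_vecMulVec, vecMulVec_mul, vecMul_transpose]

theorem exists_wq (a b c d e f : K) (h : a * f - b * e + c * d = 0) :
    ∃ u w : V4 K, !![0, a, b, c; -a, 0, d, e; -b, -d, 0, f; -c, -e, -f, 0] = wq u w := by
  by_cases ha : a ≠ 0
  · refine ⟨![0, 1, b / a, c / a], ![-a, 0, d, e], ?_⟩
    ext p q
    fin_cases p <;> fin_cases q <;> simp [wq] <;> field_simp <;>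
      first | ring1 | linear_combination h | linear_combination -h
  by_cases hb : b ≠ 0
  · refine ⟨![0, a / b, 1, c / b], ![-b, -d, 0, f], ?_⟩
    ext p q
    fin_cases p <;> fin_cases q <;> simp [wq] <;> field_simp <;>
      first | ring1 | linear_combination h | linear_combination -h
  by_cases hc : c ≠ 0
  · refine ⟨![0, a / c, b / c, 1], ![-c, -e, -f, 0], ?_⟩
    ext p q
    fin_cases p <;> fin_cases q <;> simp [wq] <;> field_simp <;>
      first | ring1 | linear_combination h | linear_combination -h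
  rw [not_not] at ha hb hc
  subst ha hb hc
  by_cases hd : d ≠ 0
  · refine ⟨![0, 0, 1, e / d], ![0, -d, 0, f], ?_⟩
    ext p q
    fin_cases p <;> fin_cases q <;> simp [wq] <;> field_simp
    ring
  rw [not_not] at hd
  subst hd
  refine ⟨![0, e, f, 0], ![0, 0, 0, 1], ?_⟩
  ext p q
  fin_cases p <;> fin_cases q <;> simp [wq]

theorem alt_wq (hi : i * i = -1) {x : V6 K} (h : x ⬝ᵥ x = 0) : ∃ u w, alt i x = wq u w := by
  obtain ⟨u, w, e⟩ := exists_wq (x 0 + i * x 1) (x 2 + i * x 3) (x 4 + i * x 5) (x 4 - i * x 5)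
    (-(x 2 - i * x 3)) (x 0 - i * x 1) (by
    simp [dotProduct, Fin.sum_univ_succ] at h
    linear_combination h - (x 1 * x 1 + x 3 * x 3 + x 5 * x 5) * hi)
  exact ⟨u, w, by rw [← e, alt, neg_neg]⟩

theorem act_wq (l : Lk ρ π σ π' ι i) {g : Γ} {x : V6 K} {u w : V4 K} (e : alt i x = wq u w) :
    alt i (σ (ι g) *ᵥ x) = wq (ρ g *ᵥ u) (ρ g *ᵥ w) := by
  rw [l.act, e, mul_wq]

theorem scal (l : Lk ρ π σ π' ι i) (h2 : (2 : K) ≠ 0) {g : Γ} {ε : K}
    (e : σ (ι g) = ε • 1) : ∃ c : K, ρ g = c • 1 ∧ c * c = ε := by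
  have k : ∀ u w, ρ g * wq u w * (ρ g)ᵀ = ε • wq u w := fun u w => by
    obtain ⟨x, hx⟩ := exists_alt l.hi h2 u w
    rw [← hx, ← l.act, e, smul_mulVec, one_mulVec, alt_smul]
  have k' : ∀ u w, ρ g * wq u w = ε • (wq u w * (ρ g⁻¹)ᵀ) := fun u w => by
    rw [← smul_mul_assoc, ← k, mul_assoc, ← transpose_mul, inv_mul_rho, transpose_one, mul_one]
  have e1 : ρ g = ρ g 0 0 • 1 := by
    have f : ∀ a b p : Fin 4, a ≠ b → p ≠ b → ρ g p a = if p = a then ε * ρ g⁻¹ b b else 0 :=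
      fun a b p h1 h2 => by
        have := congrFun (congrFun (k' (Pi.single a 1) (Pi.single b 1)) p) b
        simpa [wq, mul_sub, sub_mul, mul_vecMulVec, vecMulVec_mul, vecMul_transpose,
          vecMulVec_apply, Pi.single_apply, h1, h1.symm, h2] using this
    ext p a
    obtain ⟨b, h1, h3, h4⟩ : ∃ b : Fin 4, a ≠ b ∧ p ≠ b ∧ 0 ≠ b := by
      revert p a; decide
    rw [f a b p h1 h3, Matrix.smul_apply, f 0 b 0 h4 h4, one_apply]
    split_ifs <;> simp_all
  refine ⟨_, e1, ?_⟩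
  have := congrFun (congrFun (k (Pi.single 0 1) (Pi.single 1 1)) 0) 1
  rw [e1] at this
  simpa [wq, vecMulVec_apply] using this

theorem unip_eq_one {R : Type*} [Ring R] [Algebra K R] {M : R} (hM : IsNilpotent (M - 1)) {m : ℕ}
    (hm : (m : K) ≠ 0) (e : M ^ m = 1) : M = 1 := by
  obtain ⟨y, hy⟩ : ∃ y, Commute y (M - 1) ∧
      ∑ j ∈ Finset.range m, M ^ j = (m : R) + y * (M - 1) := by
    clear e hm
    induction m with
    | zero => exact ⟨0, Commute.zero_left _, by simp⟩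
    | succ m ih =>
      obtain ⟨y, c, e⟩ := ih
      refine ⟨y + ∑ j ∈ Finset.range m, M ^ j, c.add_left (Commute.sum_left _ _ _ fun j _ =>
        ((Commute.refl M).sub_right (Commute.one_right M)).pow_left j), ?_⟩
      rw [Finset.sum_range_succ, add_mul, geom_sum_mul, e]
      push_cast
      abel
  have u : IsUnit (∑ j ∈ Finset.range m, M ^ j) := by
    rw [hy.2]
    refine IsNilpotent.isUnit_add_left_of_commute (hy.1.isNilpotent_mul_left hM) ?_
      (Nat.commute_cast _ _)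
    rw [← map_natCast (algebraMap K R)]
    exact (IsUnit.mk0 _ hm).map _
  have := geom_sum_mul M m
  rw [e, sub_self] at this
  exact sub_eq_zero.1 (u.mul_right_eq_zero.1 this)

theorem nil_pow {R : Type*} [Ring R] {M : R} (hM : IsNilpotent (M - 1)) (m : ℕ) :
    IsNilpotent (M ^ m - 1) := by
  rw [← geom_sum_mul]
  exact (Commute.sum_left _ _ _ fun j _ =>
    ((Commute.refl M).sub_right (Commute.one_right M)).pow_left j).isNilpotent_mul_left hM

theorem lift [Finite Γ] (l : Lk ρ π σ π' ι i) (h2 : (2 : K) ≠ 0) {g : G}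
    (hg : IsNilpotent (σ g - 1)) : ∃ (γ : Γ) (q : ℕ), σ (ι γ) = σ g ∧ γ ^ q = 1 ∧
      Nat.Coprime q 4 ∧ IsNilpotent (ρ γ - 1) := by
  obtain ⟨γ, e⟩ := l.sj g
  have e2 : ∀ k, σ (ι (γ ^ (2 * k))) = σ g ^ (2 * k) := fun k => by
    rw [map_pow, map_pow, pow_mul, pow_mul]
    rcases e with e | e <;> simp [e]
  obtain ⟨p, hp⟩ := ExpChar.exists K
  obtain ⟨a, m, hm, hn⟩ : ∃ a m : ℕ, (m : K) ≠ 0 ∧ orderOf γ = p ^ a * m := by
    cases hp with
    | zero => exact ⟨0, orderOf γ, Nat.cast_ne_zero.2 (orderOf_pos γ).ne', by simp⟩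
    | prime hp =>
      obtain ⟨a, m, h1, h3⟩ := Nat.exists_eq_pow_mul_and_not_dvd (orderOf_pos γ).ne' p hp.ne_one
      exact ⟨a, m, fun h => h1 ((CharP.cast_eq_zero_iff K p m).1 h), h3⟩
  have hc : Nat.Coprime (2 * m) (p ^ a) := by
    refine Nat.Coprime.pow_right _ ?_
    cases hp with
    | zero => simp
    | prime hp =>
      refine ((Nat.Prime.coprime_iff_not_dvd hp).2 fun h => ?_).symm
      have := (CharP.cast_eq_zero_iff K p _).2 h
      simp [h2, hm] at this
  have hq : σ g ^ p ^ a = 1 := unip_eq_one (K := K) (nil_pow hg _) (m := 2 * m)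
    (by simp [h2, hm]) (by
      rw [← pow_mul, mul_left_comm, ← hn, ← e2, pow_mul', pow_orderOf_eq_one]; simp)
  obtain ⟨s, hs⟩ := Nat.exists_mul_mod_eq_of_coprime 1 hc (expChar_pow_pos K p a).ne'
  have h1 : (γ ^ (2 * (m * s))) ^ p ^ a = 1 := by
    rw [← pow_mul, show 2 * (m * s) * p ^ a = p ^ a * m * (2 * s) by ring, ← hn, pow_mul,
      pow_orderOf_eq_one, one_pow]
  refine ⟨γ ^ (2 * (m * s)), p ^ a, ?_, h1, ?_, p ^ a, ?_⟩
  · rw [e2, ← mul_assoc, pow_eq_pow_mod _ hq, hs.2, ← pow_eq_pow_mod _ hq, pow_one]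
  · exact (Nat.Coprime.pow_left 2 (Nat.Coprime.coprime_mul_right hc)).symm
  · have : ExpChar (M4 K) p := expChar_of_injective_algebraMap (algebraMap K (M4 K)).injective p
    rw [sub_pow_expChar_pow_of_commute p a (Commute.one_right _), ← map_pow, h1]
    simp

end WQ

end Cfsg.Agent.D4
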