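import Cfsg.Agent.D4.WY6a
import Cfsg.Agent.H5.Burnside

/-!
Non-solvable subgroups of the symmetric group of degree six.
-/

set_option autoImplicit false

namespace Cfsg.Agent.D4.Y6

open Equiv Subgroup

variable {Y : Subgroup S6}

theorem absorb {W : Subgroup S6} (h : YA6 ⊓ W ≤ Y) {g : S6} (hg : g ∈ Y) (gW : g ∈ W)
    (s : g ∉ YA6) : W ≤ Y := fun x hx => by
  by_cases e : x ∈ YA6
  · exact h ⟨e, hx⟩
  · refine (mul_mem_cancel_left hg).1 (h ⟨?_, mul_mem gW hx⟩)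
    exact (mul_mem_iff_of_index_two alternatingGroup.index_eq_two).2 (iff_of_false s e)

theorem caseA (t : tp ∉ Y) (hc : c5 ∈ Y) (ha : H3.c3 0 1 2 ∈ Y) : Y = YA5 ∨ Y = YS5 ∨ Y = YA6 := by
  obtain ⟨s1, -, -, -, f1, -, -, e1, e2, -⟩ := d6
  have h5 : YA5 ≤ Y := fun x hx => H3.Alt_le (Δ := {0, 1, 2, 3, 4}) 0 1 (fun i hi h1 h2 => by
      obtain rfl | rfl | rfl : i = 2 ∨ i = 3 ∨ i = 4 := by revert i; decide
      exacts [ha, e1 ▸ wd_mem hc ha _, e2 ▸ wd_mem hc ha _])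
    ⟨fun p hp => by rw [show p = 5 by revert p; decide]; exact hx.2, hx.1⟩
  by_cases hS : Y ≤ YS5
  · by_cases hA : Y ≤ YA6
    · exact Or.inl (le_antisymm (le_inf hA hS) h5)
    · obtain ⟨g, hg, s⟩ := SetLike.not_le_iff_exists.1 hA
      exact Or.inr (Or.inl (le_antisymm hS (absorb h5 hg (hS hg) s)))
  obtain ⟨g, hg, g5⟩ := SetLike.not_le_iff_exists.1 hS
  have g1 : (g * c5 * g⁻¹) 5 ≠ 5 := fun e => g5 (by
    have := f1 (g⁻¹ 5) (Perm.eq_inv_iff_eq.2 e)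
    exact (Perm.inv_eq_iff_eq.1 this).symm)
  have h6 : YA6 ≤ Y := fun x hx => by
    by_cases e : x 5 = 5
    · exact h5 ⟨hx, e⟩
    obtain ⟨a, ha, hi⟩ := d5 _ _ g1 e
    have m : a * (g * c5 * g⁻¹) ∈ Y := mul_mem (cs_mem hc ha) (mul_mem (mul_mem hg hc) (inv_mem hg))
    refine (mul_mem_cancel_left (inv_mem m)).1 (h5 (mem_inf.2 ⟨mul_mem (inv_mem (mul_mem
      (cs_mem (Y := YA6) s1 ha) ((inferInstance : (alternatingGroup (Fin 6)).Normal).conj_mem _ s1 g))) hx,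
      ?_⟩))
    exact (Perm.inv_eq_iff_eq (f := a * (g * c5 * g⁻¹))).2 hi.symm
  refine Or.inr (Or.inr (le_antisymm (fun x hx => by_contra fun s => t ?_) h6))
  exact absorb (W := ⊤) (inf_le_left.trans h6) hx trivial s trivial

theorem caseL (t : tp ∉ Y) (hc : c5 ∈ Y) (ha : H3.c3 0 1 2 ∉ Y) (hr : rL ∈ Y) : Y = YL := by
  obtain ⟨p1, p2, p3, p4, p5⟩ := d4
  obtain ⟨s1, s2, -, -, -, -, -, -, -, e4⟩ := d6
  have hL : YL ≤ Y := fun x hx => by
    obtain ⟨w, -, e⟩ := d3 (x 5)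
    have m := mul_mem (wd_mem (Y := YL) ⟨s1, p1⟩ ⟨s2, p2⟩ w) hx
    refine (mul_mem_cancel_left (wd_mem hc hr w)).1 ?_
    rcases d2 (wd rL w * x) e with ⟨a, ha, b, hb, e'⟩ | ⟨a, ha, b, hb, e'⟩
    · exact absurd (cc_mem p1 m.2 ha hb e') p5
    rw [e'] at m ⊢
    refine mul_mem (cs_mem hc ha) ?_
    rcases e4 b hb ((mul_mem_cancel_left (cs_mem (Y := YA6) s1 ha)).1 m.1) with e | e <;>
      exact e ▸ wd_mem hc hr _
  have hP : Y ≤ YP := fun x hx => by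
    obtain ⟨w, -, e⟩ := d3 (x 5)
    rcases d2 (wd rL w * x) e with ⟨a, ha', b, hb, e'⟩ | ⟨a, ha', b, hb, e'⟩
    · obtain ⟨w', -, e2⟩ := d1b rA (by simp [rs])
      exact absurd (e2 ▸ wd_mem hc (cc_mem hc (mul_mem (wd_mem hc hr w) hx) ha' hb e') w') ha
    · refine (mul_mem_cancel_left (wd_mem p1 p2 w)).1 (e' ▸ mul_mem (cs_mem p1 ha') ?_)
      simp only [fs, List.mem_cons, List.not_mem_nil, or_false] at hb
      rcases hb with rfl | rfl | rfl | rfl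
      exacts [one_mem _, p4, mul_mem p4 p4, mul_mem (mul_mem p4 p4) p4]
  exact le_antisymm (le_inf (fun x hx => by_contra fun s => t (absorb hL hx (hP hx) s p3)) hP) hL

theorem main (t : tp ∉ Y) (hc : c5 ∈ Y) {y : S6} (hy : y ∈ Y) (y3 : y * y * y = 1) (y1 : y ≠ 1) :
    Y = YA5 ∨ Y = YS5 ∨ Y = YL ∨ Y = YA6 := by
  by_cases ha : H3.c3 0 1 2 ∈ Y
  · exact (caseA t hc ha).imp_right (Or.imp_right Or.inr)
  obtain ⟨a, ha', b, hb, r, hr, e⟩ := (d1 y y3).resolve_left y1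
  have m := cc_mem hc hy ha' hb e
  rcases List.mem_cons.1 hr with rfl | hr
  · exact Or.inr (Or.inr (Or.inl (caseL t hc ha m)))
  · obtain ⟨w, -, e'⟩ := d1b _ hr
    exact absurd (e' ▸ wd_mem hc m w) ha

theorem exists_ord (n : ¬ Group.IsSolvable Y) {p : ℕ} (hp : p = 3 ∨ p = 5) : ∃ x ∈ Y, orderOf x = p := by
  have pp : p.Prime := by rcases hp with rfl | rfl <;> norm_num
  have := Fact.mk pp
  have h1 : Nat.card Y ∣ 720 := by
    have := card_subgroup_dvd_card Y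
    rwa [Nat.card_perm, Nat.card_eq_fintype_card (α := Fin 6), Fintype.card_fin] at this
  have h2 : p ∣ Nat.card Y := by
    by_contra h
    have c := ((Nat.Prime.coprime_iff_not_dvd pp).2 h).symm
    rcases hp with rfl | rfl
    · exact n (H5.isSolvable_of_card_dvd_prime_pow_mul Nat.prime_two Nat.prime_five (a := 4) (b := 1)
        ((c.pow_right 2).dvd_of_dvd_mul_right h1))
    · exact n (H5.isSolvable_of_card_dvd_prime_pow_mul Nat.prime_two Nat.prime_three (a := 4) (b := 2)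
        (c.dvd_of_dvd_mul_right h1))
  obtain ⟨x, hx⟩ := exists_prime_orderOf_dvd_card' p h2
  exact ⟨x, x.2, (orderOf_coe x).trans hx⟩

theorem conj5 {x : S6} (hx : orderOf x = 5) : IsConj c5 x := by
  obtain ⟨-, -, -, -, -, e1, e2, -⟩ := d6
  have := Fact.mk Nat.prime_five
  have o : orderOf c5 = 5 := orderOf_eq_prime e1 e2
  have k : ∀ y : S6, orderOf y = 5 → y.IsCycle := fun y hy =>
    Perm.isCycle_of_prime_order' (hy ▸ Nat.prime_five) (by rw [hy]; decide)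
  exact (k _ o).isConj (k _ hx) (by rw [← (k _ o).orderOf, ← (k _ hx).orderOf, o, hx])

end Cfsg.Agent.D4.Y6
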