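import Cfsg.Agent.D4.WFrm
import Cfsg.Agent.NG.Defs
import Cfsg.Agent.D4.WY6b
import Cfsg.Agent.H46.Standard

/-!
Non-solvable `2`-local subgroups with solvable involution centralisers.
-/

set_option autoImplicit false

open Matrix
open scoped MatrixGroups

namespace Cfsg.Agent.D4

variable {K : Type*} [Field K] {G X : Type*} [Group G] [Group X] {σ : G →* M6 K} {π : G →* X}
variable [IsAlgClosed K] [Finite G]

open Subgroup in
theorem Y6.solv_le {A B : Subgroup X} (h : A ≤ B) (s : Group.IsSolvable B) : Group.IsSolvable A :=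
  Group.isSolvable_of_isSolvable_injective (inclusion_injective h)

open Subgroup in
theorem Y6.solv_ext {N C : Subgroup X} {H : Type*} [Group H] (φ : N →* H) (s : Group.IsSolvable C)
    (s' : Group.IsSolvable H) (h : ∀ x, φ x = 1 → x.1 ∈ C) : Group.IsSolvable N :=
  have := Y6.solv_le (inf_le_left : C ⊓ N ≤ C) s
  Group.isSolvable_of_ker_le_range (inclusion (inf_le_right : C ⊓ N ≤ N)) φ fun x hx =>
    ⟨⟨x, h x hx, x.2⟩, rfl⟩

open Subgroup in
theorem HW.not_n2 (h : HW σ π) (cs : CS X) (n : ¬ NG.N2 X) :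
    ∃ B : O6 K, Frm (D4.cw σ B) ∧ ¬ Group.IsSolvable (Yg (D4.cw σ B)) := by
  have := h.finiteX
  simp only [NG.N2, not_forall] at n
  obtain ⟨_, ⟨T, hT, T1, rfl⟩, n⟩ := n
  let E : Subgroup X :=
    { carrier := {x | x ∈ T ∧ (∀ t ∈ T, t * x = x * t) ∧ x * x = 1}
      one_mem' := ⟨one_mem _, by simp, by simp⟩
      mul_mem' := fun {a b} ha hb => ⟨mul_mem ha.1 hb.1, fun t ht => by
        rw [← mul_assoc, ha.2.1 t ht, mul_assoc, hb.2.1 t ht, mul_assoc], by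
        rw [mul_assoc, ← mul_assoc b, ha.2.1 b hb.1, mul_assoc, hb.2.2, mul_one, ha.2.2]⟩
      inv_mem' := fun {a} ha => by rwa [inv_eq_of_mul_eq_one_right ha.2.2] }
  have nE : ¬ Group.IsSolvable (normalizer (E : Set X)) := fun s => n (Y6.solv_le ((le_normalizer_iff (K := E)).2
    fun g hg x hx => ⟨(mem_normalizer_iff.1 hg x).1 hx.1, fun t ht => by
      have := hx.2.1 _ ((mem_normalizer_iff.1 (inv_mem hg) t).1 ht)
      rw [← mul_left_inj g, ← mul_right_inj g⁻¹]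
      simpa [mul_assoc] using this, by rw [conj_mul, hx.2.2]; simp⟩) s)
  obtain ⟨z, z1, z2, z3⟩ := H46.exists_involution_centralized hT T1 hT le_normalizer
  have zE : z ∈ E := ⟨z1, z3, by rw [← pow_two, ← z2, pow_orderOf_eq_one]⟩
  have sq : ∀ x ∈ E, x * x = 1 := fun x hx => hx.2.2
  obtain ⟨k, hk⟩ := IsPGroup.iff_card.1 (hT.to_le (show E ≤ T from fun x hx => hx.1))
  have h16 := h.rank E ⟨⟨fun a b => Subtype.ext (b.2.2.1 a a.2.1)⟩⟩ fun a ha => by rw [pow_two, sq a ha]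
  rw [hk, Nat.pow_le_pow_iff_right one_lt_two] at h16
  by_cases k2 : k ≤ 2
  · refine (nE (Y6.solv_ext E.normalizerMonoidHom (cs z z2) (H5.isSolvable_of_card_dvd_prime_pow_mul
      Nat.prime_two Nat.prime_three (a := 3) (b := 1) ((card_dvd_of_injective (MulAut.toPerm E)
        fun a b e => MulEquiv.toEquiv_injective e).trans ?_)) fun x hx => ?_)).elim
    · rw [Nat.card_perm, hk]
      exact Nat.factorial_dvd_factorial (n := 4) (Nat.pow_le_pow_right two_pos k2)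
    · have : x ∈ E.normalizerMonoidHom.ker := hx
      rw [normalizerMonoidHom_ker] at this
      exact centralizer_le (Set.singleton_subset_iff.2 zE) this
  obtain rfl | rfl : k = 3 ∨ k = 4 := by omega
  · obtain ⟨s, s1, s2, s3⟩ := h.e8 E sq hk
    have := Fact.mk Nat.prime_two
    exact (nE (Y6.solv_le (fun g hg => mem_centralizer_singleton_iff.2 (mul_inv_eq_iff_eq_mul.1 (s3 g hg)))
      (cs s (orderOf_eq_prime (by rw [pow_two, sq s s1]) s2)))).elim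
  obtain ⟨B, F, e⟩ := h.e16 E sq hk
  refine ⟨B, F, fun s => nE ?_⟩
  obtain ⟨φ, -, h2, h3⟩ := (h.cw B).exists_perm
  rw [e, (h.cw B).norm_A F]
  rw [← h2] at s
  exact Y6.solv_ext φ.rangeRestrict (Group.isSolvable_of_comm fun a b =>
    Subtype.ext (WF.comm_A (h.cw B) a.2 b.2)) s fun x hx => (h3 x).1 (congrArg Subtype.val hx)

theorem y6 (Y : Subgroup S6) (n : ¬ Group.IsSolvable Y) (t : ∀ w ∈ Y, ¬ Trip w) :
    ∃ τ : S6, ∃ Y' : Subgroup S6, (∀ u, u ∈ Y' ↔ τ * u * τ⁻¹ ∈ Y) ∧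
      (Y' = YA5 ∨ Y' = YS5 ∨ Y' = YL ∨ Y' = YA6) := by
  obtain ⟨x, x1, x2⟩ := Y6.exists_ord n (Or.inr rfl)
  obtain ⟨y, y1, y2⟩ := Y6.exists_ord n (Or.inl rfl)
  obtain ⟨τ, rfl⟩ := isConj_iff.1 (Y6.conj5 x2)
  obtain ⟨-, -, t1, t2, -⟩ := Y6.d6
  refine ⟨τ, Y.comap (MulAut.conj τ).toMonoidHom, fun _ => Iff.rfl, Y6.main (fun e => t _ e ⟨?_, ?_⟩) x1
    (y := τ⁻¹ * y * τ) (by simpa [mul_assoc] using y1) ?_ fun e => ?_⟩
  · rw [← map_mul, t1, map_one]
  · exact fun i e => t2 (τ⁻¹ i) (Equiv.Perm.eq_inv_iff_eq.2 e)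
  · have : y * y * y = 1 := by rw [← pow_three', ← y2, pow_orderOf_eq_one]
    calc _ = τ⁻¹ * (y * y * y) * τ := by group
      _ = 1 := by rw [this]; group
  · rw [show y = τ * (τ⁻¹ * y * τ) * τ⁻¹ by group, e] at y2
    simp at y2

theorem HW.exists_Y (h : HW σ π) (cs : CS X) (n : ¬ NG.N2 X) :
    ∃ B : O6 K, Frm (D4.cw σ B) ∧ (Yg (D4.cw σ B) = YA5 ∨ Yg (D4.cw σ B) = YS5 ∨
      Yg (D4.cw σ B) = YL ∨ Yg (D4.cw σ B) = YA6) := by
  obtain ⟨B, F, s⟩ := h.not_n2 cs n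
  obtain ⟨τ, Y', h1, h2⟩ := y6 _ s fun w hw => (h.cw B).not_trip F hw
  obtain ⟨E, -, e⟩ := cw_cw (σ := σ) B (pm τ)
  have : Yg (D4.cw σ E) = Y' := Subgroup.ext fun u => by
    rw [h1, ← e]
    exact exists_congr fun g => cw_pm_mono τ u g
  exact ⟨E, e ▸ F.pm τ, this ▸ h2⟩

end Cfsg.Agent.D4
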