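import Cfsg.Agent.D4.Defs3
import Cfsg.Agent.H3.PresAlt

/-!
Non-solvable subgroups of the symmetric group of degree six.
-/

set_option autoImplicit false

namespace Cfsg.Agent.D4.Y6

open Equiv Subgroup

def c5 : S6 := ⟨![1, 3, 0, 4, 2, 5], ![2, 0, 4, 1, 3, 5], by decide, by decide⟩
def rL : S6 := ⟨![0, 2, 4, 1, 5, 3], ![0, 3, 1, 5, 2, 4], by decide, by decide⟩
def rA : S6 := ⟨![1, 2, 3, 4, 0, 5], ![4, 0, 1, 2, 3, 5], by decide, by decide⟩
def tp : S6 := ⟨![1, 0, 4, 5, 2, 3], ![1, 0, 4, 5, 2, 3], by decide, by decide⟩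

def rs : List S6 := [rA, ⟨![0, 2, 3, 4, 5, 1], ![0, 5, 1, 2, 3, 4], by decide, by decide⟩,
  ⟨![0, 2, 3, 5, 1, 4], ![0, 4, 1, 2, 5, 3], by decide, by decide⟩,
  ⟨![0, 2, 4, 5, 3, 1], ![0, 5, 1, 4, 2, 3], by decide, by decide⟩,
  ⟨![0, 2, 5, 1, 3, 4], ![0, 3, 1, 4, 5, 2], by decide, by decide⟩,
  ⟨![0, 2, 5, 4, 1, 3], ![0, 4, 1, 5, 3, 2], by decide, by decide⟩]

/-- words in two letters -/
def wd (r : S6) (w : List Bool) : S6 := (w.map fun b => if b then c5 else r).prod

theorem wd_mem {Y : Subgroup S6} (hc : c5 ∈ Y) {r : S6} (hr : r ∈ Y) (w : List Bool) : wd r w ∈ Y :=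
  list_prod_mem fun x hx => by
    obtain ⟨b, -, rfl⟩ := List.mem_map.1 hx
    split_ifs <;> assumption

def ff : S6 := ⟨![0, 3, 4, 2, 1, 5], ![0, 4, 3, 1, 2, 5], by decide, by decide⟩
def cs : List S6 := [1, c5, c5 * c5, c5 * c5 * c5, c5 * c5 * c5 * c5]
def fs : List S6 := [1, ff, ff * ff, ff * ff * ff]

theorem cs_mem {Y : Subgroup S6} (hc : c5 ∈ Y) {x : S6} (hx : x ∈ cs) : x ∈ Y := by
  simp only [cs, List.mem_cons, List.not_mem_nil, or_false] at hx
  rcases hx with rfl | rfl | rfl | rfl | rfl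
  exacts [one_mem _, hc, mul_mem hc hc, mul_mem (mul_mem hc hc) hc, mul_mem (mul_mem (mul_mem hc hc) hc) hc]

theorem cc_mem {Y : Subgroup S6} (hc : c5 ∈ Y) {g : S6} (hg : g ∈ Y) {a b r : S6} (ha : a ∈ cs)
    (hb : b ∈ cs) (e : a * g * b = r * (a * g)) : r ∈ Y :=
  (mul_mem_cancel_right (mul_mem (cs_mem hc ha) hg)).1 (e ▸ mul_mem (mul_mem (cs_mem hc ha) hg) (cs_mem hc hb))

/-! Permutations as numbers. -/

def pk (a b c d e f : ℕ) : ℕ := a + 8 * (b + 8 * (c + 8 * (d + 8 * (e + 8 * f))))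
def ap (n i : ℕ) : ℕ := n / 8 ^ i % 8
def ml (a b : ℕ) : ℕ :=
  pk (ap a (ap b 0)) (ap a (ap b 1)) (ap a (ap b 2)) (ap a (ap b 3)) (ap a (ap b 4)) (ap a (ap b 5))
def enc (g : S6) : ℕ := pk (g 0) (g 1) (g 2) (g 3) (g 4) (g 5)

theorem ap_enc (g : S6) (i : Fin 6) : ap (enc g) i = g i := by
  have := (g 0).2; have := (g 1).2; have := (g 2).2; have := (g 3).2; have := (g 4).2; have := (g 5).2
  fin_cases i <;> simp [ap, enc, pk] <;> omega

theorem enc_mul (g h : S6) : ml (enc g) (enc h) = enc (g * h) := by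
  have k := ap_enc h
  have k0 : ap (enc h) 0 = h 0 := k 0
  have k1 : ap (enc h) 1 = h 1 := k 1
  have k2 : ap (enc h) 2 = h 2 := k 2
  have k3 : ap (enc h) 3 = h 3 := k 3
  have k4 : ap (enc h) 4 = h 4 := k 4
  have k5 : ap (enc h) 5 = h 5 := k 5
  simp only [ml, k0, k1, k2, k3, k4, k5, ap_enc]
  rfl

theorem enc_inj {g h : S6} (e : enc g = enc h) : g = h :=
  Equiv.ext fun i => Fin.ext (by rw [← ap_enc, e, ap_enc])

/-- all permutations -/
def all6 (P : ℕ → Bool) : Bool := (List.range 6).all fun a => (List.range 6).all fun b => b == a ||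
  (List.range 6).all fun c => c == a || c == b || (List.range 6).all fun d => d == a || d == b || d == c ||
  (List.range 6).all fun e => e == a || e == b || e == c || e == d || (List.range 6).all fun f =>
    f == a || f == b || f == c || f == d || f == e || P (pk a b c d e f)

theorem all6_spec {P : ℕ → Bool} (h : all6 P = true) (g : S6) : P (enc g) = true := by
  simp only [all6, List.all_eq_true, List.mem_range, Bool.or_eq_true, beq_iff_eq] at h
  have k : ∀ i j, (g i : ℕ) = g j ↔ i = j := fun i j => by rw [Fin.val_inj, g.injective.eq_iff]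
  have h1 := (h _ (g 0).2 _ (g 1).2).resolve_left (by simp [k])
  have h2 := (h1 _ (g 2).2).resolve_left (by simp [k])
  have h3 := (h2 _ (g 3).2).resolve_left (by simp [k])
  have h4 := (h3 _ (g 4).2).resolve_left (by simp [k])
  exact (h4 _ (g 5).2).resolve_left (by simp [k])

def csN : List ℕ := [181896, 174105, 164963, 168148, 176898]

theorem encs : cs.map enc = csN ∧ (rL :: rs).map enc = [119568, 166097, 55504, 137936, 47888, 144208,
    104784] ∧ fs.map enc = [181896, 169240, 178256, 172768] ∧ enc 1 = 181896 ∧ enc rA = 166097 := by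
  decide +kernel

theorem d1 (y : S6) (h : y * y * y = 1) :
    y = 1 ∨ ∃ a ∈ cs, ∃ b ∈ cs, ∃ r ∈ rL :: rs, a * y * b = r * (a * y) := by
  have := all6_spec (P := fun y => ml (ml y y) y != 181896 || y == 181896 || csN.any fun a =>
    csN.any fun b => [119568, 166097, 55504, 137936, 47888, 144208, 104784].any fun r =>
      ml (ml a y) b == ml r (ml a y)) (by decide +kernel) y
  obtain ⟨e1, e2, -, e3, -⟩ := encs
  simp only [← e1, ← e2, ← e3, enc_mul, h, bne_self_eq_false, Bool.false_or, Bool.or_eq_true, beq_iff_eq,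
    List.any_map, List.any_eq_true, Function.comp_apply] at this
  exact this.imp enc_inj fun ⟨a, ha, b, hb, r, hr, e⟩ => ⟨a, ha, b, hb, r, hr, enc_inj e⟩

theorem d2 (g : S6) (h : g 5 = 5) :
    (∃ a ∈ cs, ∃ b ∈ cs, a * g * b = rA * (a * g)) ∨ ∃ a ∈ cs, ∃ b ∈ fs, g = a * b := by
  have := all6_spec (P := fun g => ap g 5 != 5 || (csN.any fun a => csN.any fun b =>
    ml (ml a g) b == ml 166097 (ml a g)) || csN.any fun a => [181896, 169240, 178256, 172768].any fun b =>
      g == ml a b) (by decide +kernel) g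
  obtain ⟨e1, -, e2, -, e3⟩ := encs
  have k : ap (enc g) 5 = 5 := (ap_enc g 5).trans (by rw [h]; rfl)
  simp only [← e1, ← e2, ← e3, enc_mul, k, bne_self_eq_false, Bool.false_or, Bool.or_eq_true, beq_iff_eq,
    List.any_map, List.any_eq_true, Function.comp_apply] at this
  exact this.imp (fun ⟨a, ha, b, hb, e⟩ => ⟨a, ha, b, hb, enc_inj e⟩)
    fun ⟨a, ha, b, hb, e⟩ => ⟨a, ha, b, hb, enc_inj e⟩

theorem d1b : ∀ r ∈ rs, ∃ w ∈ [[false, true, false, false, true, true, true, true],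
    [true, true, false, false, true, true, false, true, true],
    [true, true, true, true, false, false, true, false], [true, true, false, false],
    [false, false, false, true, true, false, false, false],
    [true, true, false, true, true, false, false, true, true]], wd r w = H3.c3 0 1 2 := by decide +kernel

theorem d3 : ∀ p, ∃ w ∈ [[false, true, true, true], [false, true, true], [false, false], [false, true],
    [false], []], wd rL w p = 5 := by decide +kernel

theorem d5 : ∀ p q : Fin 6, p ≠ 5 → q ≠ 5 → ∃ a ∈ cs, a p = q := by decide +kernel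

theorem mem_YP {w : S6} (h1 : Function.Injective fun c => col (w 0) (w (![1, 2, 3, 4, 5, 0] c)))
    (h2 : ∀ i j, col (w i) (w j) = col (w 0) (w (![1, 2, 3, 4, 5, 0] (col i j)))) : w ∈ YP :=
  fun i j k l => by rw [h2 i j, h2 k l]; exact h1.eq_iff

theorem d4 : c5 ∈ YP ∧ rL ∈ YP ∧ tp ∈ YP ∧ ff ∈ YP ∧ rA ∉ YP :=
  ⟨mem_YP (by decide) (by decide), mem_YP (by decide) (by decide), mem_YP (by decide) (by decide),
    mem_YP (by decide) (by decide), fun h => absurd (h 0 2 1 4) (by decide)⟩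

theorem d6 : Perm.sign c5 = 1 ∧ Perm.sign rL = 1 ∧
    tp * tp = 1 ∧ (∀ i, tp i ≠ i) ∧ (∀ i, c5 i = i → i = 5) ∧ c5 ^ 5 = 1 ∧ c5 ≠ 1 ∧
    wd (H3.c3 0 1 2) [true, false, true, true, true, true] = H3.c3 0 1 3 ∧
    wd (H3.c3 0 1 2) [true, false, true, true, true, false] = H3.c3 0 1 4 ∧
    ∀ b ∈ fs, Perm.sign b = 1 → b = wd rL [] ∨ b = wd rL [true, false, false, true, true, false] := by
  decide +kernel

end Cfsg.Agent.D4.Y6
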